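import Mathlib
import Cfsg.Prelude.Def_ClassicalGeometry
import Cfsg.Agent.Helper42.SpModels
import Cfsg.Agent.Helper30.BGSpTorus
import Cfsg.Agent.Helper90.BGChain
import Cfsg.Agent.Helper46.BGLIRR

set_option autoImplicit false

/-!
# Invariant totally isotropic subspaces: definitions (helper13, for S5955)
-/

namespace Cfsg.Agent.Helper13.TIsp

open Module Cfsg.Agent.Helper42.SpForm Cfsg.Agent.Helper42.SpGroup Cfsg.Agent.Helper42.SpModels

/-- `W` is totally isotropic for `B`. -/
def TI {F : Type*} [Field F] {V : Type*} [AddCommGroup V] [Module F V]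
    (B : LinearMap.BilinForm F V) (W : Submodule F V) : Prop :=
  ∀ u ∈ W, ∀ v ∈ W, B u v = 0

/-- `B` is nondegenerate on the subspace `D`. -/
def NondegOn {F : Type*} [Field F] {V : Type*} [AddCommGroup V] [Module F V]
    (B : LinearMap.BilinForm F V) (D : Submodule F V) : Prop :=
  ∀ v ∈ D, (∀ w ∈ D, B v w = 0) → v = 0

/-- The orthogonal sum of `ι` copies of a form. -/
noncomputable def piForm {F : Type*} [Field F] (ι : Type*) [Fintype ι] {V₁ : Type*}
    [AddCommGroup V₁] [Module F V₁] (B₁ : LinearMap.BilinForm F V₁) :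
    LinearMap.BilinForm F (ι → V₁) :=
  ∑ j : ι, B₁.comp (LinearMap.proj j) (LinearMap.proj j)

theorem piForm_apply {F : Type*} [Field F] (ι : Type*) [Fintype ι] {V₁ : Type*}
    [AddCommGroup V₁] [Module F V₁] (B₁ : LinearMap.BilinForm F V₁) (x y : ι → V₁) :
    piForm ι B₁ x y = ∑ j : ι, B₁ (x j) (y j) := by
  simp [piForm, LinearMap.sum_apply]

/-- The blockwise map. -/
noncomputable def piMap {F : Type*} [Field F] {ι : Type*} {V₁ : Type*}
    [AddCommGroup V₁] [Module F V₁] (T₁ : ι → Module.End F V₁) : Module.End F (ι → V₁) :=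
  LinearMap.pi fun j => (T₁ j).comp (LinearMap.proj j)

theorem piMap_apply {F : Type*} [Field F] {ι : Type*} {V₁ : Type*}
    [AddCommGroup V₁] [Module F V₁] (T₁ : ι → Module.End F V₁) (x : ι → V₁) (j : ι) :
    piMap T₁ x j = T₁ j (x j) := rfl

/-- Linearly independent totally isotropic `m`-families of the standard symplectic space. -/
def TIFam (F : Type*) [Field F] (d m : ℕ) : Type _ :=
  {v : Fin m → (Fin d ⊕ Fin d → F) // LinearIndependent F v ∧
    ∀ a b, Cfsg.sympForm d F (v a) (v b) = 0}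

/-- Transport of an isometry of a symplectic space to the standard one, with the isometry. -/
theorem xfer {F : Type*} [Field F] (n : ℕ) (V : Type*) [AddCommGroup V] [Module F V]
    [FiniteDimensional F V] (B : LinearMap.BilinForm F V) (halt : ∀ v, B v v = 0)
    (hnd : ∀ v, (∀ w, B v w = 0) → v = 0) (hdim : Module.finrank F V = 2 * n)
    (T : Module.End F V) (hT : Preserves B T) :
    ∃ (g : Matrix.symplecticGroup (Fin n) F) (Φ : V ≃ₗ[F] (Fin n ⊕ Fin n → F)),
      (∀ x y, stdForm n (Φ x) (Φ y) = B x y) ∧ ∀ v, toEnd g (Φ v) = Φ (T v) := by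
  obtain ⟨Φ, hΦ⟩ := exists_equiv_std n V B halt hnd hdim
  let G : Module.End F (Fin n ⊕ Fin n → F) := Φ.toLinearMap ∘ₗ T ∘ₗ Φ.symm.toLinearMap
  have hGapp : ∀ x, G x = Φ (T (Φ.symm x)) := fun x => rfl
  have hG : Preserves (stdForm n) G := by
    intro x y
    rw [hGapp, hGapp, hΦ, hT, ← hΦ, Φ.apply_symm_apply, Φ.apply_symm_apply]
  refine ⟨ofEnd G hG, Φ, hΦ, fun v => ?_⟩
  rw [toEnd_ofEnd, hGapp, Φ.symm_apply_apply]

end Cfsg.Agent.Helper13.TIsp
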