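import Mathlib
import Cfsg.Prelude.Def_GeometricClasses
import Cfsg.Prelude.Def_Classical

set_option autoImplicit false

/-!
# Hub for CALL NP (helper13; row S5989): `Ω⁺_{2d}(q)`, `q` odd, on the nondegenerate `m`-spaces
(`m` odd) isometric to a fixed one.

`NPX Q W₀ m W`: `W` is a nondegenerate `m`-space isometric to `W₀` (Prelude language);
`NPFix Q W₀ m x`: the matrix `x` leaves some such `W` invariant.
-/

namespace Cfsg.Agent.Helper13.NP

open Module Cfsg Cfsg.Geo

variable {ι : Type} [Fintype ι] [DecidableEq ι] {F : Type*} [Field F]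

/-- `W` is a nondegenerate `m`-space isometric to `W₀`. -/
abbrev NPX (Q : (ι → F) → F) (W₀ : Submodule F (ι → F)) (m : ℕ) (W : Submodule F (ι → F)) :
    Prop :=
  Module.finrank F ↥W = m ∧ IsNondegenerateOn (QuadraticMap.polar Q) W ∧ AreIsometricFor Q W W₀

/-- the matrix `x` leaves invariant some nondegenerate `m`-space isometric to `W₀`. -/
abbrev NPFix (Q : (ι → F) → F) (W₀ : Submodule F (ι → F)) (m : ℕ) (x : Matrix ι ι F) : Prop :=
  ∃ W : Submodule F (ι → F), NPX Q W₀ m W ∧ W.map (Matrix.toLin' x) ≤ W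

end Cfsg.Agent.Helper13.NP
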