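import Mathlib
import Cfsg.Agent.Helper13.TIDefs
import Cfsg.Agent.Helper11.TIFIX
import Cfsg.Agent.Helper59.TIMAXTI
import Cfsg.Agent.Helper11.TISUMTI

set_option autoImplicit false

/-!
# S5955: piece B2P (helper13)
-/

namespace Cfsg.Agent.Helper13.TIsp

open Module Polynomial
open Cfsg.Agent.Helper42.SpForm Cfsg.Agent.Helper42.SpGroup Cfsg.Agent.Helper42.SpModels
open Cfsg.Agent.Helper90.BG Cfsg.Agent.Helper30
open Cfsg.Agent.Helper11.TI5955
open Cfsg.Agent.Helper59.TI5955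

variable {F : Type*} [Field F] {V : Type*} [AddCommGroup V] [Module F V] [FiniteDimensional F V]
  (B : LinearMap.BilinForm F V)

theorem ti_b2p (halt : ∀ v, B v v = 0) (hnd : ∀ v, (∀ w, B v w = 0) → v = 0)
    (T : Module.End F V) (hT : Preserves B T) (h2 : (2 : F) ≠ 0) (hT2 : T ^ 2 = 1) (d m : ℕ)
    (hdim : finrank F V = 2 * d) (hmd : m ≤ d) :
    ∃ W : Submodule F V, finrank F W = m ∧ TI B W ∧ W.map T ≤ W := by
  have h2' : ((2 : ℕ) : F) ≠ 0 := by exact_mod_cast h2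
  obtain ⟨hDT, hcompl, hCD, hDC, hCnd, hDnd⟩ := ti_fix B halt hnd T hT 2 h2' hT2
  have hfr := Submodule.finrank_add_eq_of_isCompl hcompl
  obtain ⟨⟨a₀, ha₀⟩, hClag⟩ := ti_lag B halt _ hCnd
  obtain ⟨⟨a₁, ha₁⟩, hDlag⟩ := ti_lag B halt _ hDnd
  obtain ⟨A, hAC, hAti, hAdim⟩ := hClag (min m a₀) (by omega)
  obtain ⟨A', hA'D, hA'ti, hA'dim⟩ := hDlag (m - min m a₀) (by omega)
  obtain ⟨hti, hdim'⟩ := ti_sum B A A' _ _ hAC hA'D hcompl.inf_eq_bot hCD hDC hAti hA'ti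
  refine ⟨A ⊔ A', by rw [hdim', hAdim, hA'dim]; omega, hti, ?_⟩
  rw [Submodule.map_sup]
  refine sup_le_sup ?_ ?_
  · rintro _ ⟨a, ha, rfl⟩
    have h6 : T a = a := (mem_ker_sub_one T a).mp (hAC ha)
    rw [h6]
    exact ha
  · rintro _ ⟨a, ha, rfl⟩
    obtain ⟨w, hw⟩ := hA'D ha
    have h3 : T (T w) = w := by
      have h4 : (T ^ 2) w = w := by rw [hT2]; rfl
      rwa [pow_two, Module.End.mul_apply] at h4
    have h5 : T a = -a := by
      rw [← hw]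
      simp only [LinearMap.sub_apply, Module.End.one_apply, map_sub, h3]
      abel
    rw [h5]
    exact A'.neg_mem ha

end Cfsg.Agent.Helper13.TIsp
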