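import Mathlib

set_option autoImplicit false

/-!
# A prime different from the characteristic (helper13, for S5955)
-/

namespace Cfsg.Agent.Helper13.TIsp

theorem ti_char_facts {F : Type*} [Field F] [Fintype F] (p : ℕ) [Fact p.Prime] [CharP F p]
    (r : ℕ) [Fact r.Prime] (hrp : r ≠ p) :
    (r : F) ≠ 0 ∧ ¬ r ∣ Fintype.card F := by
  have hp : p.Prime := Fact.out
  have hr : r.Prime := Fact.out
  constructor
  · intro h
    rw [CharP.cast_eq_zero_iff F p] at h
    exact hrp ((Nat.prime_dvd_prime_iff_eq hp hr).mp h).symm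
  · intro h
    obtain ⟨n, -, hn⟩ := FiniteField.card F p
    rw [hn] at h
    exact hrp ((Nat.prime_dvd_prime_iff_eq hr hp).mp (hr.dvd_of_dvd_pow h))

end Cfsg.Agent.Helper13.TIsp
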