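import Mathlib
import Cfsg.Agent.Helper13.TIDefs
import Cfsg.Agent.Helper58.TIBLKE
import Cfsg.Agent.Helper59.TIBLKH
import Cfsg.Agent.Helper70.TIPI
import Cfsg.Agent.Helper70.TIGEN

set_option autoImplicit false

/-!
# S5955: the models (pieces MODE, MODO; helper13)
-/

namespace Cfsg.Agent.Helper13.TIsp

open Module Polynomial
open Cfsg.Agent.Helper42.SpForm Cfsg.Agent.Helper42.SpGroup Cfsg.Agent.Helper42.SpModels
open Cfsg.Agent.Helper90.BG Cfsg.Agent.Helper30
open Cfsg.Agent.Helper58.TI5955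
open Cfsg.Agent.Helper59.TI5955
open Cfsg.Agent.Helper70.TI5955

variable (F : Type*) [Field F] [Fintype F]

theorem mod_even (p : ℕ) [Fact p.Prime] [CharP F p] (e : ℕ) [NeZero (2 * e)] (he : 1 ≤ e)
    (r : ℕ) [Fact r.Prime] (hr2 : 2 < r) (hr : r ∣ Fintype.card F ^ e + 1) (u e' : ℕ)
    (hu : 1 ≤ u) :
    ∃ (B : LinearMap.BilinForm F
          ((Fin u → FiniteField.Extension F p (2 * e)) × (Fin e' ⊕ Fin e' → F)))
      (T : Module.End F ((Fin u → FiniteField.Extension F p (2 * e)) × (Fin e' ⊕ Fin e' → F))),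
      (∀ v, B v v = 0) ∧ (∀ v, (∀ w, B v w = 0) → v = 0) ∧ Preserves B T ∧ T ^ r = 1 ∧ T ≠ 1 ∧
        finrank F (LinearMap.ker (T - 1)) = 2 * e' := by
  obtain ⟨σ, c, ω, halt₁, hnd₁, hωr, hω1, hωσ⟩ := blk_even F p e he r hr2 hr
  have hstd : finrank F (Fin e' ⊕ Fin e' → F) = 2 * e' := by
    rw [Module.finrank_fintype_fun_eq_card, Fintype.card_sum, Fintype.card_fin]
    ring
  refine ⟨sumForm (piForm (Fin u) (unitForm F _ σ c)) (stdForm e'),
    (piMap fun _ : Fin u => LinearMap.mulLeft F ω).prodMap 1, ?_, ?_, ?_, ?_, ?_, ?_⟩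
  · exact sumForm_alt _ _ (pi_alt _ halt₁) (stdForm_self e')
  · exact sumForm_nondeg _ _ (pi_nondeg _ hnd₁) (stdForm_nondeg e')
  · exact preserves_prodMap (pi_preserves _ _ (fun _ => preserves_mulLeft F _ σ c ω hωσ))
      (preserves_one _)
  · rw [prodMap_pow', pi_pow, one_pow]
    have h1 : (fun _ : Fin u => LinearMap.mulLeft F ω ^ r) =
        fun _ => (1 : Module.End F (FiniteField.Extension F p (2 * e))) := by
      funext _
      rw [mulLeft_pow', hωr]
      exact (mulLeft_eq_one_iff F _ _).mpr rfl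
    rw [h1, pi_one]
    exact (prodMap_eq_one_iff _ _).mpr ⟨rfl, rfl⟩
  · intro h
    have h1 := ((prodMap_eq_one_iff _ _).mp h).1
    exact pi_ne_one _ ⟨0, hu⟩ (fun h' => hω1 ((mulLeft_eq_one_iff F _ _).mp h')) h1
  · have hk : LinearMap.ker (LinearMap.mulLeft F ω - 1) = ⊥ := by
      rw [eq_bot_iff]
      intro a ha
      rw [LinearMap.mem_ker, LinearMap.sub_apply, LinearMap.mulLeft_apply, Module.End.one_apply]
        at ha
      have h1 : (ω - 1) * a = 0 := by linear_combination ha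
      exact (mul_eq_zero.mp h1).resolve_left (sub_ne_zero.mpr hω1)
    rw [prod_ker _ (pi_ker _ (fun _ => hk)), hstd]

theorem mod_odd (p : ℕ) [Fact p.Prime] [CharP F p] (i : ℕ) [NeZero i]
    (r : ℕ) [Fact r.Prime] (hr : r ∣ Fintype.card F ^ i - 1) (u e' : ℕ) (hu : 1 ≤ u) :
    ∃ (B : LinearMap.BilinForm F
          ((Fin u → FiniteField.Extension F p i × FiniteField.Extension F p i) ×
            (Fin e' ⊕ Fin e' → F)))
      (T : Module.End F ((Fin u → FiniteField.Extension F p i × FiniteField.Extension F p i) ×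
            (Fin e' ⊕ Fin e' → F))),
      (∀ v, B v v = 0) ∧ (∀ v, (∀ w, B v w = 0) → v = 0) ∧ Preserves B T ∧ T ^ r = 1 ∧ T ≠ 1 ∧
        finrank F (LinearMap.ker (T - 1)) = 2 * e' := by
  obtain ⟨ω, hωr, hω1⟩ := blk_hyp F p i r hr
  have hω0 : ω ≠ 0 := by
    rintro rfl
    rw [zero_pow (Fact.out : r.Prime).ne_zero] at hωr
    exact zero_ne_one hωr
  have hstd : finrank F (Fin e' ⊕ Fin e' → F) = 2 * e' := by
    rw [Module.finrank_fintype_fun_eq_card, Fintype.card_sum, Fintype.card_fin]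
    ring
  refine ⟨sumForm (piForm (Fin u) (hypForm F (FiniteField.Extension F p i))) (stdForm e'),
    (piMap fun _ : Fin u => hypMap F (FiniteField.Extension F p i) ω).prodMap 1,
    ?_, ?_, ?_, ?_, ?_, ?_⟩
  · exact sumForm_alt _ _ (pi_alt _ (hypForm_alt F _)) (stdForm_self e')
  · exact sumForm_nondeg _ _ (pi_nondeg _ (hypForm_nondeg F _)) (stdForm_nondeg e')
  · exact preserves_prodMap (pi_preserves _ _ (fun _ => preserves_hypMap F _ ω hω0))
      (preserves_one _)
  · rw [prodMap_pow', pi_pow, one_pow]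
    have h1 : (fun _ : Fin u => hypMap F (FiniteField.Extension F p i) ω ^ r) =
        fun _ => (1 : Module.End F (FiniteField.Extension F p i × FiniteField.Extension F p i)) := by
      funext _
      rw [hypMap_pow, hωr]
      exact (hypMap_eq_one_iff F _ _).mpr rfl
    rw [h1, pi_one]
    exact (prodMap_eq_one_iff _ _).mpr ⟨rfl, rfl⟩
  · intro h
    have h1 := ((prodMap_eq_one_iff _ _).mp h).1
    exact pi_ne_one _ ⟨0, hu⟩ (fun h' => hω1 ((hypMap_eq_one_iff F _ _).mp h')) h1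
  · have hk : LinearMap.ker (hypMap F (FiniteField.Extension F p i) ω - 1) = ⊥ := by
      rw [eq_bot_iff]
      rintro ⟨a, b⟩ ha
      rw [LinearMap.mem_ker, LinearMap.sub_apply, hypMap_apply, Module.End.one_apply] at ha
      have ha1 : ω * a - a = 0 := congrArg Prod.fst ha
      have ha2 : ω⁻¹ * b - b = 0 := congrArg Prod.snd ha
      have h1 : (ω - 1) * a = 0 := by linear_combination ha1
      have h2 : (ω⁻¹ - 1) * b = 0 := by linear_combination ha2
      have hω1' : ω⁻¹ ≠ 1 := fun h => hω1 (inv_eq_one.mp h)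
      have h3 := (mul_eq_zero.mp h1).resolve_left (sub_ne_zero.mpr hω1)
      have h4 := (mul_eq_zero.mp h2).resolve_left (sub_ne_zero.mpr hω1')
      rw [h3, h4]
      rfl
    rw [prod_ker _ (pi_ker _ (fun _ => hk)), hstd]

end Cfsg.Agent.Helper13.TIsp
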