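import Mathlib
import Cfsg.Agent.Helper13.TIDefs
import Cfsg.Agent.Helper13.TIChar
import Cfsg.Agent.Helper53.TIMODC
import Cfsg.Agent.Helper58.TIPULL
import Cfsg.Agent.Helper51.TIORD
import Cfsg.Agent.Helper13.TIMod

set_option autoImplicit false

/-!
# S5955: the bad elements (pieces BADAB, BADC; helper13)
-/

namespace Cfsg.Agent.Helper13.TIsp

open Module Polynomial
open Cfsg.Agent.Helper42.SpForm Cfsg.Agent.Helper42.SpGroup Cfsg.Agent.Helper42.SpModels
open Cfsg.Agent.Helper90.BG Cfsg.Agent.Helper30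
open Cfsg.Agent.Helper51.TI5955
open Cfsg.Agent.Helper53.TI5955
open Cfsg.Agent.Helper58.TI5955

theorem ti_xfer_bad {F : Type*} [Field F] (d : ℕ) (V : Type*) [AddCommGroup V] [Module F V]
    [FiniteDimensional F V] (B : LinearMap.BilinForm F V) (T : Module.End F V)
    (halt : ∀ v, B v v = 0) (hnd : ∀ v, (∀ w, B v w = 0) → v = 0) (hT : Preserves B T)
    (hdim : finrank F V = 2 * d) :
    ∃ g : Matrix.symplecticGroup (Fin d) F, (∀ k : ℕ, toEnd g ^ k = 1 ↔ T ^ k = 1) ∧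
      finrank F (LinearMap.ker (toEnd g - 1)) = finrank F (LinearMap.ker (T - 1)) ∧
      ∀ W' : Submodule F (Fin d ⊕ Fin d → F), TI (stdForm d) W' → W'.map (toEnd g) ≤ W' →
        ∃ W : Submodule F V, TI B W ∧ W.map T ≤ W ∧ finrank F W = finrank F W' := by
  obtain ⟨g, Φ, hΦ, hg⟩ := xfer d V B halt hnd hdim T hT
  exact ⟨g, ti_pull B (stdForm d) Φ hΦ T (toEnd g) hg⟩

/-- `r ∣ q^e + 1` when the order of `q` mod `r` is `2e`. -/
theorem ti_dvd_plus (r q e : ℕ) [Fact r.Prime] (hq : 0 < q) (he : 1 ≤ e)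
    (hord : orderOf ((q : ℕ) : ZMod r) = 2 * e) : r ∣ q ^ e + 1 := by
  have hr : r.Prime := Fact.out
  have h1 : r ∣ q ^ (2 * e) - 1 := (ord_dvd r q (2 * e) hq).mpr (by rw [hord])
  have h2 : ¬ r ∣ q ^ e - 1 := by
    rw [ord_dvd r q e hq, hord]
    intro h
    have := Nat.le_of_dvd (by omega) h
    omega
  have hqe : 1 ≤ q ^ e := Nat.one_le_pow _ _ hq
  have hfac : q ^ (2 * e) - 1 = (q ^ e - 1) * (q ^ e + 1) := by
    obtain ⟨a, ha⟩ : ∃ a, q ^ e = a + 1 := ⟨q ^ e - 1, by omega⟩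
    rw [two_mul, pow_add, ha]
    simp only [Nat.add_sub_cancel]
    have : (a + 1) * (a + 1) = a * (a + 1 + 1) + 1 := by ring
    rw [this, Nat.add_sub_cancel]
  rw [hfac] at h1
  exact (hr.dvd_mul.mp h1).resolve_left h2

variable (F : Type*) [Field F] [Fintype F]

theorem bad_ab (p : ℕ) [Fact p.Prime] [CharP F p] (r : ℕ) [Fact r.Prime] (hr2 : 2 < r)
    (hrp : r ≠ p) (i c : ℕ) (hi : i = orderOf ((Fintype.card F : ℕ) : ZMod r))
    (hc : c = if Even i then i else 2 * i) (d u e' : ℕ) (hu : 1 ≤ u)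
    (hdim : 2 * d = c * u + 2 * e') :
    ∃ g : Matrix.symplecticGroup (Fin d) F, toEnd g ^ r = 1 ∧ toEnd g ≠ 1 ∧
      finrank F (LinearMap.ker (toEnd g - 1)) = 2 * e' := by
  have hq0 : 0 < Fintype.card F := Fintype.card_pos
  obtain ⟨hrF, hrq⟩ := ti_char_facts (F := F) p r hrp
  obtain ⟨hi0, hir⟩ := ord_pos r (Fintype.card F) hrq
  rw [← hi] at hi0 hir
  have hstd : finrank F (Fin e' ⊕ Fin e' → F) = 2 * e' := by
    rw [Module.finrank_fintype_fun_eq_card, Fintype.card_sum, Fintype.card_fin]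
    ring
  by_cases hie : Even i
  · obtain ⟨e, he⟩ := hie
    have he1 : 1 ≤ e := by omega
    have hi2 : i = 2 * e := by omega
    have : NeZero (2 * e) := ⟨by omega⟩
    have hre : r ∣ Fintype.card F ^ e + 1 := ti_dvd_plus r _ e hq0 he1 (by rw [← hi, hi2])
    obtain ⟨B, T, halt, hnd, hT, hTr, hT1, hker⟩ := mod_even F p e he1 r hr2 hre u e' hu
    have hci : c = 2 * e := by
      rw [hc, if_pos ⟨e, he⟩, hi2]
    have hfr : finrank F ((Fin u → FiniteField.Extension F p (2 * e)) × (Fin e' ⊕ Fin e' → F))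
        = 2 * d := by
      rw [Module.finrank_prod, Module.finrank_pi_fintype, hstd, hdim, hci]
      simp [FiniteField.finrank_extension]
      ring
    obtain ⟨g, hg1, hg2, -⟩ := ti_xfer_bad d _ B T halt hnd hT hfr
    refine ⟨g, (hg1 r).mpr hTr, fun h => hT1 ?_, by rw [hg2, hker]⟩
    have h3 := (hg1 1).mp (by rw [pow_one]; exact h)
    rwa [pow_one] at h3
  · have hio : Odd i := Nat.not_even_iff_odd.mp hie
    have : NeZero i := ⟨by omega⟩
    have hri : r ∣ Fintype.card F ^ i - 1 := (ord_dvd r _ i hq0).mpr (by rw [← hi])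
    obtain ⟨B, T, halt, hnd, hT, hTr, hT1, hker⟩ := mod_odd F p i r hri u e' hu
    have hci : c = 2 * i := by
      rw [hc, if_neg hie]
    have hfr : finrank F ((Fin u → FiniteField.Extension F p i × FiniteField.Extension F p i) ×
        (Fin e' ⊕ Fin e' → F)) = 2 * d := by
      rw [Module.finrank_prod, Module.finrank_pi_fintype, hstd, hdim, hci]
      simp [FiniteField.finrank_extension]
      ring
    obtain ⟨g, hg1, hg2, -⟩ := ti_xfer_bad d _ B T halt hnd hT hfr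
    refine ⟨g, (hg1 r).mpr hTr, fun h => hT1 ?_, by rw [hg2, hker]⟩
    have h3 := (hg1 1).mp (by rw [pow_one]; exact h)
    rwa [pow_one] at h3

theorem bad_c (p : ℕ) [Fact p.Prime] [CharP F p] (r : ℕ) [Fact r.Prime] (hr2 : 2 < r)
    (hrp : r ≠ p) (i : ℕ) (hi : i = orderOf ((Fintype.card F : ℕ) : ZMod r)) (hie : Even i)
    (d u e' : ℕ) (hu : 1 ≤ u) (hut : u ≤ (r - 1) / i) (hdim : 2 * d = i * u + 2 * e') :
    ∃ g : Matrix.symplecticGroup (Fin d) F, toEnd g ^ r = 1 ∧ toEnd g ≠ 1 ∧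
      ∀ W : Submodule F (Fin d ⊕ Fin d → F), TI (stdForm d) W → W.map (toEnd g) ≤ W →
        finrank F W ≤ e' := by
  have hq0 : 0 < Fintype.card F := Fintype.card_pos
  obtain ⟨hrF, hrq⟩ := ti_char_facts (F := F) p r hrp
  obtain ⟨hi0, hir⟩ := ord_pos r (Fintype.card F) hrq
  rw [← hi] at hi0 hir
  have hstd : finrank F (Fin e' ⊕ Fin e' → F) = 2 * e' := by
    rw [Module.finrank_fintype_fun_eq_card, Fintype.card_sum, Fintype.card_fin]
    ring
  obtain ⟨e, he⟩ := hie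
  have he1 : 1 ≤ e := by omega
  have hi2 : i = 2 * e := by omega
  have : NeZero (2 * e) := ⟨by omega⟩
  have hord : orderOf ((Fintype.card F : ℕ) : ZMod r) = 2 * e := by rw [← hi, hi2]
  have hre : r ∣ Fintype.card F ^ e + 1 := ti_dvd_plus r _ e hq0 he1 hord
  obtain ⟨B, T, halt, hnd, hT, hTr, hT1, hW⟩ := mod_c F p e he1 r hr2 hrF hre hord u e' hu
    (by rw [← hi2]; exact hut)
  have hfr : finrank F ((Fin u → FiniteField.Extension F p (2 * e)) × (Fin e' ⊕ Fin e' → F))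
      = 2 * d := by
    rw [Module.finrank_prod, Module.finrank_pi_fintype, hstd, hdim, hi2]
    simp [FiniteField.finrank_extension]
    ring
  obtain ⟨g, hg1, -, hg3⟩ := ti_xfer_bad d _ B T halt hnd hT hfr
  refine ⟨g, (hg1 r).mpr hTr, fun h => hT1 ?_, fun W' h1 h2 => ?_⟩
  · have h3 := (hg1 1).mp (by rw [pow_one]; exact h)
    rwa [pow_one] at h3
  · obtain ⟨W, hW1, hW2, hW3⟩ := hg3 W' h1 h2
    rw [← hW3]
    exact hW W hW1 hW2

end Cfsg.Agent.Helper13.TIsp
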