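import Mathlib
import Cfsg.Agent.Helper13.TIDefs
import Cfsg.Agent.Helper13.TIChar
import Cfsg.Agent.Helper61.TICNTA
import Cfsg.Agent.Helper41.TICNTB
import Cfsg.Agent.Helper58.TICNTAR
import Cfsg.Agent.Helper51.TIORD
import Cfsg.Agent.Helper70.TISCAL
import Cfsg.Agent.Helper59.TIJBAD
import Cfsg.Agent.Helper51.TIB1A
import Cfsg.Agent.Helper51.TIARC
import Cfsg.Agent.Helper20.TIB2M
import Cfsg.Agent.Helper11.TIB3
import Cfsg.Agent.Helper13.TIBad
import Cfsg.Agent.Helper13.TIB1G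
import Cfsg.Agent.Helper13.TIB2P

set_option autoImplicit false

/-!
# S5955: final assembly (helper13)
-/

namespace Cfsg.Agent.Helper13.TIsp

open Module Polynomial
open Cfsg.Agent.Helper42.SpForm Cfsg.Agent.Helper42.SpGroup Cfsg.Agent.Helper42.SpModels
open Cfsg.Agent.Helper90.BG Cfsg.Agent.Helper30
open Cfsg.Agent.Helper11.TI5955
open Cfsg.Agent.Helper20.TI5955
open Cfsg.Agent.Helper41.TI5955
open Cfsg.Agent.Helper51.TI5955
open Cfsg.Agent.Helper58.TI5955
open Cfsg.Agent.Helper59.TI5955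
open Cfsg.Agent.Helper61.TI5955
open Cfsg.Agent.Helper70.TI5955

variable {F : Type*} [Field F]

theorem ti_toEnd_pow_scalar (d : ℕ) (k : ℕ) (x : Matrix.symplecticGroup (Fin d) F) (z : F)
    (hz : ((x ^ k : Matrix.symplecticGroup (Fin d) F) :
      Matrix (Fin d ⊕ Fin d) (Fin d ⊕ Fin d) F) = z • 1) :
    toEnd x ^ k = z • (1 : Module.End F (Fin d ⊕ Fin d → F)) := by
  rw [← toEnd_pow]
  show Matrix.toLin' ((x ^ k : Matrix.symplecticGroup (Fin d) F) :
      Matrix (Fin d ⊕ Fin d) (Fin d ⊕ Fin d) F) = _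
  rw [hz, map_smul, Matrix.toLin'_one]
  rfl

theorem ti_sq_one (z : F) (h : z * z = 1) : z = 1 ∨ z = -1 := by
  have h1 : (z - 1) * (z + 1) = 0 := by linear_combination h
  rcases mul_eq_zero.mp h1 with h2 | h2
  · left; linear_combination h2
  · right; linear_combination h2

variable [Fintype F]

theorem ti_cnt_main (p : ℕ) [Fact p.Prime] [CharP F p] (d m : ℕ) (hm : 1 ≤ m) (hmd : m ≤ d)
    (r : ℕ) [Fact r.Prime]
    (hr : r ∣ Nat.card {W : Submodule F (Fin d ⊕ Fin d → F) // Module.finrank F ↥W = m ∧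
      (∀ u ∈ W, ∀ v ∈ W, Cfsg.sympForm d F u v = 0)}) :
    r ≠ p ∧ ∃ j, j < m ∧ r ∣ Fintype.card F ^ (2 * (d - j)) - 1 := by
  obtain ⟨n, -, hn⟩ := FiniteField.card F p
  have h := cnt_ar p n (Fintype.card F) d m _ (Fact.out) n.pos hn hm hmd
    ((cnt_b F d m).symm.trans (cnt_a F d m hmd))
  refine ⟨?_, h.2 r Fact.out hr⟩
  rintro rfl
  exact h.1 hr

/-- (⟸) for odd `r`. -/
theorem ti_back_odd (p : ℕ) [Fact p.Prime] [CharP F p] (d m : ℕ) (hd : 1 ≤ d) (hmd : m ≤ d)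
    (r : ℕ) [Fact r.Prime] (hrp : r ≠ p) (hr2 : 2 < r) (i c : ℕ)
    (hi : i = orderOf ((Fintype.card F : ℕ) : ZMod r)) (hc : c = if Even i then i else 2 * i)
    (h1 : 2 * (m % i) ≤ (2 * d) % c) (h2 : Odd i ∨ (r - 1) / i + 2 * (m / i) ≤ (2 * d) / i)
    (x : Matrix.symplecticGroup (Fin d) F) (z : F)
    (hz : ((x ^ r : Matrix.symplecticGroup (Fin d) F) :
      Matrix (Fin d ⊕ Fin d) (Fin d ⊕ Fin d) F) = z • 1) :
    ∃ W : Submodule F (Fin d ⊕ Fin d → F), finrank F W = m ∧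
      (∀ u ∈ W, ∀ v ∈ W, Cfsg.sympForm d F u v = 0) ∧
      W.map (Matrix.toLin' (x : Matrix (Fin d ⊕ Fin d) (Fin d ⊕ Fin d) F)) ≤ W := by
  have hrpr : r.Prime := Fact.out
  have hrodd : Odd r := hrpr.odd_of_ne_two (by omega)
  obtain ⟨hrF, hrq⟩ := ti_char_facts (F := F) p r hrp
  obtain ⟨hi0, hir⟩ := ord_pos r (Fintype.card F) hrq
  rw [← hi] at hi0 hir
  have hzz := sp_scal d hd z (x ^ r) hz
  have hTr := ti_toEnd_pow_scalar d r x z hz
  obtain ⟨T, hT, hTr1, hTinv⟩ : ∃ T : Module.End F (Fin d ⊕ Fin d → F),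
      Preserves (stdForm d) T ∧ T ^ r = 1 ∧
      ∀ W : Submodule F (Fin d ⊕ Fin d → F), W.map T ≤ W → W.map (toEnd x) ≤ W := by
    rcases ti_sq_one z hzz with rfl | rfl
    · exact ⟨toEnd x, preserves_toEnd x, by rw [hTr, one_smul], fun W h => h⟩
    · refine ⟨-toEnd x, ?_, ?_, ?_⟩
      · intro u v
        have h5 := preserves_toEnd x u v
        simp only [LinearMap.neg_apply, map_neg, neg_neg]
        exact h5
      · have hpow : ∀ k : ℕ, (-toEnd x) ^ k = ((-1 : F) ^ k) • toEnd x ^ k := by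
          intro k
          induction k with
          | zero => simp
          | succ k ih =>
            rw [pow_succ, ih, pow_succ, pow_succ]
            apply LinearMap.ext
            intro v
            simp [Module.End.mul_apply]
        rw [hpow, hTr, Odd.neg_one_pow hrodd, smul_smul]
        norm_num
      · intro W h
        rintro _ ⟨w, hw, rfl⟩
        have h3 := h (Submodule.mem_map_of_mem hw)
        rw [LinearMap.neg_apply] at h3
        simpa using W.neg_mem h3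
  obtain ⟨e', u, b₀, hdim, ho, he, hb, hex⟩ := ti_b1g (stdForm d) (stdForm_self d)
    (stdForm_nondeg d) T hT r hr2 hrF hTr1 i hi
  have hdim' : 2 * d = 2 * e' + i * u := by
    rw [← hdim, Module.finrank_fintype_fun_eq_card, Fintype.card_sum, Fintype.card_fin]
    ring
  obtain ⟨b, m₀, hb', hm₀, hmeq⟩ := b1_arith r i c d m e' u b₀ hr2 hi0 hir hc hdim' ho he hb hmd
    h1 h2
  obtain ⟨W, hW1, hW2, hW3⟩ := hex b m₀ hb' hm₀
  refine ⟨W, by rw [hW1, hmeq], fun u hu v hv => ?_, hTinv W hW3⟩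
  rw [← bgSp_stdForm_eq]
  exact hW2 u hu v hv

/-- (⟸) for `r = 2`. -/
theorem ti_back_two (p : ℕ) [Fact p.Prime] [CharP F p] (hp2 : p ≠ 2) (d m : ℕ) (hd : 1 ≤ d)
    (hmd : m ≤ d) (hm : Even m ∨ Fintype.card F % 4 = 1)
    (x : Matrix.symplecticGroup (Fin d) F) (z : F)
    (hz : ((x ^ 2 : Matrix.symplecticGroup (Fin d) F) :
      Matrix (Fin d ⊕ Fin d) (Fin d ⊕ Fin d) F) = z • 1) :
    ∃ W : Submodule F (Fin d ⊕ Fin d → F), finrank F W = m ∧
      (∀ u ∈ W, ∀ v ∈ W, Cfsg.sympForm d F u v = 0) ∧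
      W.map (Matrix.toLin' (x : Matrix (Fin d ⊕ Fin d) (Fin d ⊕ Fin d) F)) ≤ W := by
  have hp : p.Prime := Fact.out
  have h2F : (2 : F) ≠ 0 := by
    intro h
    have h' : ((2 : ℕ) : F) = 0 := by exact_mod_cast h
    rw [CharP.cast_eq_zero_iff F p] at h'
    exact hp2 ((Nat.prime_dvd_prime_iff_eq hp Nat.prime_two).mp h')
  have hzz := sp_scal d hd z (x ^ 2) hz
  have hTr := ti_toEnd_pow_scalar d 2 x z hz
  have hdim : finrank F (Fin d ⊕ Fin d → F) = 2 * d := by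
    rw [Module.finrank_fintype_fun_eq_card, Fintype.card_sum, Fintype.card_fin]
    ring
  have hfin : ∀ W : Submodule F (Fin d ⊕ Fin d → F), (finrank F W = m ∧ TI (stdForm d) W ∧
      W.map (toEnd x) ≤ W) → finrank F W = m ∧
      (∀ u ∈ W, ∀ v ∈ W, Cfsg.sympForm d F u v = 0) ∧
      W.map (Matrix.toLin' (x : Matrix (Fin d ⊕ Fin d) (Fin d ⊕ Fin d) F)) ≤ W := by
    rintro W ⟨h1, h2, h3⟩
    refine ⟨h1, fun u hu v hv => ?_, h3⟩
    rw [← bgSp_stdForm_eq]
    exact h2 u hu v hv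
  rcases ti_sq_one z hzz with rfl | rfl
  · obtain ⟨W, hW⟩ := ti_b2p (stdForm d) (stdForm_self d) (stdForm_nondeg d) (toEnd x)
      (preserves_toEnd x) h2F (by rw [hTr, one_smul]) d m hdim hmd
    exact ⟨W, hfin W hW⟩
  · have hm' : Even m ∨ IsSquare (-1 : F) := by
      rcases hm with h | h
      · exact Or.inl h
      · right
        rw [FiniteField.isSquare_neg_one_iff]
        omega
    obtain ⟨W, hW⟩ := ti_b2m (stdForm d) (stdForm_self d) (stdForm_nondeg d) (toEnd x)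
      (preserves_toEnd x) h2F (by rw [hTr]; exact neg_one_smul F (1 : Module.End F (Fin d ⊕ Fin d → F))) d m hdim hmd hm'
    exact ⟨W, hfin W hW⟩

/-- (⟹) -/
theorem ti_fwd (p : ℕ) [Fact p.Prime] [CharP F p] (d m : ℕ) (hd : 1 ≤ d) (hm : 1 ≤ m)
    (hmd : m ≤ d) (r : ℕ) [Fact r.Prime]
    (hrΩ : r ∣ Nat.card {W : Submodule F (Fin d ⊕ Fin d → F) // Module.finrank F ↥W = m ∧
      (∀ u ∈ W, ∀ v ∈ W, Cfsg.sympForm d F u v = 0)})
    (i c : ℕ) (hi : i = orderOf ((Fintype.card F : ℕ) : ZMod r))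
    (hc : c = if Even i then i else 2 * i)
    (hL : ∀ x : Matrix.symplecticGroup (Fin d) F,
      (∃ z : F, ((x ^ r : Matrix.symplecticGroup (Fin d) F) :
        Matrix (Fin d ⊕ Fin d) (Fin d ⊕ Fin d) F) = z • 1) →
      (∀ z : F, (x : Matrix (Fin d ⊕ Fin d) (Fin d ⊕ Fin d) F) ≠ z • 1) →
      ∃ W : Submodule F (Fin d ⊕ Fin d → F), finrank F W = m ∧
        (∀ u ∈ W, ∀ v ∈ W, Cfsg.sympForm d F u v = 0) ∧
        W.map (Matrix.toLin' (x : Matrix (Fin d ⊕ Fin d) (Fin d ⊕ Fin d) F)) ≤ W) :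
    (r = 2 ∧ p ≠ 2 ∧ (Even m ∨ Fintype.card F % 4 = 1)) ∨
     (r ≠ p ∧ 2 < r ∧ i ≤ m ∧ 2 * (m % i) ≤ (2 * d) % c ∧
      (Odd i ∨ (r - 1) / i + 2 * (m / i) ≤ (2 * d) / i)) := by
  obtain ⟨hrp, j, hjm, hj⟩ := ti_cnt_main p d m hm hmd r hrΩ
  have hrpr : r.Prime := Fact.out
  have hq0 : 0 < Fintype.card F := Fintype.card_pos
  by_cases hr2 : r = 2
  · left
    have hp2 : p ≠ 2 := fun h => hrp (hr2.trans h.symm)
    refine ⟨hr2, hp2, ?_⟩
    by_contra hcon
    push Not at hcon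
    have hsq : ¬ IsSquare (-1 : F) := by
      rw [FiniteField.isSquare_neg_one_iff]
      have hodd : Fintype.card F % 2 = 1 :=
        FiniteField.odd_card_of_char_ne_two (by rwa [ringChar.eq F p])
      omega
    obtain ⟨x, hx2, hxns, hxe⟩ := sp_jbad d hd hsq
    obtain ⟨W, hWm, -, hWx⟩ := hL x ⟨-1, by rw [hr2]; exact hx2⟩ hxns
    have h3 := hxe W hWx
    rw [hWm] at h3
    exact hcon.1 h3
  · right
    have hr2' : 2 < r := lt_of_le_of_ne hrpr.two_le (Ne.symm hr2)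
    have hrodd : Odd r := hrpr.odd_of_ne_two hr2
    obtain ⟨hrF, hrq⟩ := ti_char_facts (F := F) p r hrp
    obtain ⟨hi0, hir⟩ := ord_pos r (Fintype.card F) hrq
    rw [← hi] at hi0 hir
    have hij : i ∣ 2 * (d - j) := by
      rw [hi]
      exact (ord_dvd r _ _ hq0).mp hj
    have hdj : 1 ≤ d - j := by omega
    have hcj : c ∣ 2 * (d - j) := by
      rw [hc]
      split_ifs with hie
      · exact hij
      · have hio : Odd i := Nat.not_even_iff_odd.mp hie
        have hcop : Nat.Coprime i 2 := Nat.Coprime.symm (Nat.coprime_two_left.mpr hio)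
        exact Nat.mul_dvd_mul_left 2 (hcop.dvd_of_dvd_mul_left hij)
    have hcpos : 0 < c := by
      rw [hc]
      split_ifs <;> omega
    have hcle : c ≤ 2 * d := (Nat.le_of_dvd (by omega) hcj).trans (by omega)
    have key : ∀ g : Matrix.symplecticGroup (Fin d) F, toEnd g ^ r = 1 → toEnd g ≠ 1 →
        ∃ W : Submodule F (Fin d ⊕ Fin d → F), finrank F W = m ∧ TI (stdForm d) W ∧
          W.map (toEnd g) ≤ W := by
      intro g h1 h2
      have hgr : g ^ r = 1 := toEnd_injective (by rw [toEnd_pow, h1, toEnd_one])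
      obtain ⟨W, hW1, hW2, hW3⟩ := hL g ⟨1, by rw [hgr]; simp⟩
        (sp_nonscalar d hd r hrodd g h1 h2)
      exact ⟨W, hW1, fun u hu v hv => by rw [bgSp_stdForm_eq]; exact hW2 u hu v hv, hW3⟩
    have key3 : ∀ g : Matrix.symplecticGroup (Fin d) F, toEnd g ^ r = 1 → toEnd g ≠ 1 →
        ∃ a, a ≤ m ∧ i ∣ m - a ∧ 2 * a ≤ finrank F (LinearMap.ker (toEnd g - 1)) := by
      intro g h1 h2
      obtain ⟨W, hW1, hW2, hW3⟩ := key g h1 h2
      obtain ⟨a, ha1, ha2, ha3⟩ := ti_b3 (stdForm d) (stdForm_self d) (stdForm_nondeg d)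
        (toEnd g) (preserves_toEnd g) r hrF h1 W hW2 hW3
      rw [hW1] at ha1 ha2
      exact ⟨a, ha1, hi ▸ ha2, ha3⟩
    have hA : i ≤ m := by
      by_contra hlt
      push Not at hlt
      obtain ⟨u₁, hu₁⟩ := hcj
      have hu1 : 1 ≤ u₁ := by
        rcases Nat.eq_zero_or_pos u₁ with h0 | h0
        · rw [h0, mul_zero] at hu₁
          omega
        · exact h0
      obtain ⟨g, hg1, hg2, hg3⟩ := bad_ab F p r hr2' hrp i c hi hc d u₁ j hu1 (by omega)
      obtain ⟨a, ha1, ha2, ha3⟩ := key3 g hg1 hg2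
      rw [hg3] at ha3
      have h0 : m - a = 0 := Nat.eq_zero_of_dvd_of_lt ha2 (by omega)
      omega
    have hB : 2 * (m % i) ≤ (2 * d) % c := by
      obtain ⟨e', he'⟩ : ∃ e', (2 * d) % c = 2 * e' := by
        have hceven : 2 ∣ c := by
          rw [hc]
          split_ifs with hie
          · exact hie.two_dvd
          · exact dvd_mul_right 2 i
        have h2 : 2 ∣ (2 * d) % c := (Nat.dvd_mod_iff hceven).mpr (dvd_mul_right 2 d)
        obtain ⟨e', he'⟩ := h2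
        exact ⟨e', he'⟩
      have hu : 1 ≤ (2 * d) / c := Nat.div_pos hcle hcpos
      obtain ⟨g, hg1, hg2, hg3⟩ := bad_ab F p r hr2' hrp i c hi hc d ((2 * d) / c) e' hu
        (by rw [← he']; exact (Nat.div_add_mod _ _).symm)
      obtain ⟨a, ha1, ha2, ha3⟩ := key3 g hg1 hg2
      rw [hg3, ← he'] at ha3
      have h4 : m % i ≤ a := by
        obtain ⟨k, hk⟩ := ha2
        have h5 : m = a + i * k := by omega
        rw [h5, Nat.add_mul_mod_self_left]
        exact Nat.mod_le _ _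
      omega
    refine ⟨hrp, hr2', hA, hB, ?_⟩
    rcases Nat.even_or_odd i with hie | hio
    · right
      have hci : c = i := by rw [hc, if_pos hie]
      have ht : 1 ≤ (r - 1) / i := Nat.div_pos (Nat.le_of_dvd (by omega) hir) hi0
      have hile : i ≤ 2 * d := hci ▸ hcle
      obtain ⟨u, hu⟩ : ∃ u, u = min ((2 * d) / i) ((r - 1) / i) := ⟨_, rfl⟩
      have hu1 : 1 ≤ u := by
        rw [hu]
        exact le_min (Nat.div_pos hile hi0) ht
      obtain ⟨e', he'⟩ : ∃ e', 2 * d = i * u + 2 * e' := by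
        have h1 : i * u ≤ 2 * d := by
          rw [hu]
          exact (Nat.mul_le_mul_left i (min_le_left _ _)).trans (Nat.mul_div_le _ _)
        obtain ⟨k, hk⟩ := hie
        refine ⟨d - k * u, ?_⟩
        rw [hk] at h1 ⊢
        have h6 : (k + k) * u = 2 * (k * u) := by ring
        rw [h6] at h1 ⊢
        omega
      obtain ⟨g, hg1, hg2, hg3⟩ := bad_c F p r hr2' hrp i hi hie d u e' hu1
        (by rw [hu]; exact min_le_right _ _) he'
      obtain ⟨W, hW1, hW2, hW3⟩ := key g hg1 hg2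
      have h7 := hg3 W hW2 hW3
      rw [hW1] at h7
      exact arith_c i d m ((r - 1) / i) e' u hi0 hA hu he' h7
    · left
      exact hio

end Cfsg.Agent.Helper13.TIsp
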