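import Mathlib
import Cfsg.Prelude.Def_GeometricClasses
import Cfsg.Agent.Helper13.TIMain

set_option autoImplicit false

/-!
# Orthogonal decompositions of the standard symplectic space (helper13, for S5961)

This file is also a hub: it imports all the S5955 pieces (`ti_orth`, `ti_compl`, `ti_fix`,
`ti_max`, `ti_lag`, `ti_bound`, `ti_b3`, `bad_ab`, `ord_dvd`, `sp_scal`, ...).
-/

namespace Cfsg.Agent.Helper13.TIsp

/-- The orthogonal decompositions of `F^{2d}` into `t` nondegenerate `a`-spaces. -/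
abbrev SpDec {F : Type*} [Field F] (d a : ℕ) {t : ℕ}
    (D : Fin t → Submodule F (Fin d ⊕ Fin d → F)) : Prop :=
  Cfsg.Geo.IsMDecomposition a D ∧
    (∀ j, ∀ u ∈ D j, u ≠ 0 → ∃ v ∈ D j, Cfsg.sympForm d F u v ≠ 0) ∧
    (∀ j j', j ≠ j' → ∀ u ∈ D j, ∀ v ∈ D j', Cfsg.sympForm d F u v = 0)

end Cfsg.Agent.Helper13.TIsp
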