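import Mathlib
import Cfsg.Agent.Helper13.TIDefs2

set_option autoImplicit false

/-!
# S5961: pieces PERP, OSUM, CONS (helper13)
-/

namespace Cfsg.Agent.Helper13.TIsp

open Module Polynomial
open Cfsg.Agent.Helper42.SpForm Cfsg.Agent.Helper42.SpGroup Cfsg.Agent.Helper42.SpModels
open Cfsg.Agent.Helper90.BG Cfsg.Agent.Helper30
open Cfsg.Agent.Helper11.TI5955 Cfsg.Agent.Helper58.TI5955 Cfsg.Agent.Helper59.TI5955
open Cfsg.Agent.Helper51.TI5955 Cfsg.Agent.Helper70.TI5955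

variable {F : Type*} [Field F] {V : Type*} [AddCommGroup V] [Module F V] [FiniteDimensional F V]
  (B : LinearMap.BilinForm F V)

theorem nd_perp (halt : ∀ v, B v v = 0) (T : Module.End F V) (hT : Preserves B T) (r : ℕ)
    (hr0 : 0 < r) (hTr : T ^ r = 1) (M M₁ : Submodule F V) (hM : NondegOn B M)
    (hM₁ : NondegOn B M₁) (hle : M₁ ≤ M) (hMT : M.map T ≤ M) (hM₁T : M₁.map T ≤ M₁) :
    ∃ P : Submodule F V, P ≤ M ∧ P.map T ≤ P ∧ NondegOn B P ∧ M₁ ⊓ P = ⊥ ∧ M₁ ⊔ P = M ∧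
      (∀ u ∈ M₁, ∀ v ∈ P, B u v = 0) ∧ (∀ u ∈ P, ∀ v ∈ M₁, B u v = 0) ∧
      finrank F P + finrank F M₁ = finrank F M := by
  have hinv : ∀ v, T ((T ^ (r - 1)) v) = v := by
    intro v
    have h : T * T ^ (r - 1) = 1 := by
      rw [← pow_succ', Nat.sub_add_cancel hr0, hTr]
    have h2 := congrArg (fun S : Module.End F V => S v) h
    simpa using h2
  obtain ⟨P, hP, hdim⟩ := ti_orth B halt M M₁ hM hle
  have hPM : P ≤ M := fun v hv => ((hP v).mp hv).1
  have hPo : ∀ u ∈ P, ∀ v ∈ M₁, B u v = 0 := fun u hu v hv => ((hP u).mp hu).2 v hv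
  have hoP : ∀ u ∈ M₁, ∀ v ∈ P, B u v = 0 := fun u hu v hv => by
    rw [skew_of_alt B halt, hPo v hv u hu, neg_zero]
  have hdisj : M₁ ⊓ P = ⊥ := by
    rw [eq_bot_iff]
    rintro v ⟨hv1, hv2⟩
    exact (Submodule.mem_bot F).mpr (hM₁ v hv1 (fun w hw => hPo v hv2 w hw))
  have hsup : M₁ ⊔ P = M := by
    apply Submodule.eq_of_le_of_finrank_eq (sup_le hle hPM)
    have h := Submodule.finrank_sup_add_finrank_inf_eq M₁ P
    rw [hdisj, finrank_bot] at h
    omega
  refine ⟨P, hPM, ?_, ?_, hdisj, hsup, hoP, hPo, hdim⟩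
  · rintro _ ⟨v, hv, rfl⟩
    obtain ⟨hvM, hvW⟩ := (hP v).mp hv
    refine (hP _).mpr ⟨hMT ⟨v, hvM, rfl⟩, fun w hw => ?_⟩
    have h1 : B (T v) w = B (T v) (T ((T ^ (r - 1)) w)) := by rw [hinv]
    rw [h1, hT]
    exact hvW _ (ti_pow_mem T M₁ hM₁T (r - 1) w hw)
  · intro v hv h
    apply hM v (hPM hv)
    intro w hw
    rw [← hsup] at hw
    obtain ⟨x, hx, y, hy, rfl⟩ := Submodule.mem_sup.mp hw
    rw [map_add, hPo v hv x hx, h y hy, add_zero]

theorem nd_sum (X Y : Submodule F V) (hX : NondegOn B X) (hY : NondegOn B Y)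
    (hXY : ∀ u ∈ X, ∀ v ∈ Y, B u v = 0) (hYX : ∀ u ∈ Y, ∀ v ∈ X, B u v = 0) :
    NondegOn B (X ⊔ Y) ∧ X ⊓ Y = ⊥ ∧ finrank F ↥(X ⊔ Y) = finrank F X + finrank F Y := by
  have hdisj : X ⊓ Y = ⊥ := by
    rw [eq_bot_iff]
    rintro v ⟨hv1, hv2⟩
    exact (Submodule.mem_bot F).mpr (hX v hv1 (fun w hw => hYX v hv2 w hw))
  refine ⟨?_, hdisj, ?_⟩
  · intro v hv h
    obtain ⟨x, hx, y, hy, rfl⟩ := Submodule.mem_sup.mp hv
    have hx0 : x = 0 := hX x hx (fun w hw => by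
      have h1 := h w (Submodule.mem_sup_left hw)
      rw [map_add, LinearMap.add_apply, hYX y hy w hw, add_zero] at h1
      exact h1)
    have hy0 : y = 0 := hY y hy (fun w hw => by
      have h1 := h w (Submodule.mem_sup_right hw)
      rw [map_add, LinearMap.add_apply, hXY x hx w hw, zero_add] at h1
      exact h1)
    rw [hx0, hy0, add_zero]
  · have h := Submodule.finrank_sup_add_finrank_inf_eq X Y
    rw [hdisj, finrank_bot] at h
    omega

omit [FiniteDimensional F V] in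
theorem cons_indep {t : ℕ} (M₁ M₂ : Submodule F V) (D : Fin t → Submodule F V)
    (hind : iSupIndep D) (hsup : iSup D = M₂) (hdisj : M₁ ⊓ M₂ = ⊥) :
    iSupIndep (Fin.cons M₁ D : Fin (t + 1) → Submodule F V) ∧
      iSup (Fin.cons M₁ D : Fin (t + 1) → Submodule F V) = M₁ ⊔ M₂ := by
  have hsupF : iSup (Fin.cons M₁ D : Fin (t + 1) → Submodule F V) = M₁ ⊔ M₂ := by
    rw [← hsup]
    apply le_antisymm
    · apply iSup_le
      intro j
      refine Fin.cases ?_ (fun j' => ?_) j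
      · rw [Fin.cons_zero]
        exact le_sup_left
      · rw [Fin.cons_succ]
        exact (le_iSup D j').trans le_sup_right
    · apply sup_le
      · exact le_iSup_of_le 0 (by rw [Fin.cons_zero])
      · apply iSup_le
        intro j'
        exact le_iSup_of_le j'.succ (by rw [Fin.cons_succ])
  refine ⟨?_, hsupF⟩
  rw [iSupIndep_def]
  intro j
  refine Fin.cases ?_ (fun j' => ?_) j
  · rw [Fin.cons_zero, disjoint_iff, eq_bot_iff]
    have hle : (⨆ k, ⨆ (_ : k ≠ 0), (Fin.cons M₁ D : Fin (t + 1) → Submodule F V) k) ≤ M₂ := by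
      apply iSup_le
      intro k
      apply iSup_le
      intro hk
      obtain ⟨k', rfl⟩ := Fin.exists_succ_eq.mpr hk
      rw [Fin.cons_succ, ← hsup]
      exact le_iSup D k'
    exact (inf_le_inf_left _ hle).trans (le_of_eq hdisj)
  · rw [Fin.cons_succ, disjoint_iff, eq_bot_iff]
    have hle : (⨆ k, ⨆ (_ : k ≠ j'.succ), (Fin.cons M₁ D : Fin (t + 1) → Submodule F V) k) ≤
        M₁ ⊔ ⨆ k', ⨆ (_ : k' ≠ j'), D k' := by
      apply iSup_le
      intro k
      apply iSup_le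
      refine Fin.cases ?_ (fun k' => ?_) k
      · intro _
        rw [Fin.cons_zero]
        exact le_sup_left
      · intro hk
        rw [Fin.cons_succ]
        have hk' : k' ≠ j' := fun h => hk (by rw [h])
        exact (le_iSup₂_of_le (f := fun k' (_ : k' ≠ j') => D k') k' hk' le_rfl).trans
          le_sup_right
    rintro x ⟨hx1, hx2⟩
    obtain ⟨m, hm, y, hy, hxy⟩ := Submodule.mem_sup.mp (hle hx2)
    have hyM₂ : y ∈ M₂ := by
      rw [← hsup]
      exact (iSup₂_le (fun k' _ => le_iSup D k')) hy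
    have hxM₂ : x ∈ M₂ := by
      rw [← hsup]
      exact le_iSup D j' hx1
    have hm0 : m = 0 := by
      have hmx : m = x - y := by rw [← hxy]; abel
      have h1 : m ∈ M₁ ⊓ M₂ := ⟨hm, by rw [hmx]; exact M₂.sub_mem hxM₂ hyM₂⟩
      rw [hdisj] at h1
      exact (Submodule.mem_bot F).mp h1
    rw [hm0, zero_add] at hxy
    have h2 := iSupIndep_def.mp hind j'
    rw [disjoint_iff] at h2
    have hx' : x ∈ D j' ⊓ ⨆ k', ⨆ (_ : k' ≠ j'), D k' := ⟨hx1, hxy ▸ hy⟩
    rw [h2] at hx'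
    exact hx'

end Cfsg.Agent.Helper13.TIsp
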