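import Mathlib
import Cfsg.Agent.Helper13.TIDefs2
import Cfsg.Agent.Helper59.TJRADDICH

set_option autoImplicit false

/-!
# S5961: piece PAIR (helper13)
-/

namespace Cfsg.Agent.Helper13.TIsp

open Module Polynomial
open Cfsg.Agent.Helper42.SpForm Cfsg.Agent.Helper42.SpGroup Cfsg.Agent.Helper42.SpModels
open Cfsg.Agent.Helper90.BG Cfsg.Agent.Helper30
open Cfsg.Agent.Helper11.TI5955 Cfsg.Agent.Helper58.TI5955 Cfsg.Agent.Helper59.TI5955
open Cfsg.Agent.Helper51.TI5955 Cfsg.Agent.Helper70.TI5955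
open Cfsg.Agent.Helper59.TI5961

variable {F : Type*} [Field F] {V : Type*} [AddCommGroup V] [Module F V] [FiniteDimensional F V]
  (B : LinearMap.BilinForm F V)

theorem hyp_pair [Fintype F] (halt : ∀ v, B v v = 0) (T : Module.End F V) (hT : Preserves B T)
    (r : ℕ) [Fact r.Prime] (hrF : (r : F) ≠ 0) (hTr : T ^ r = 1) (N : Submodule F V)
    (hNT : N.map T ≤ N) (hN : NondegOn B N) (hN0 : N ≠ ⊥)
    (hNk : N ⊓ LinearMap.ker (T - 1) = ⊥) :
    (∃ U₁ : Submodule F V, U₁ ≤ N ∧ U₁.map T ≤ U₁ ∧ NondegOn B U₁ ∧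
      finrank F U₁ = orderOf ((Fintype.card F : ℕ) : ZMod r)) ∨
    (∃ E₂ : Submodule F V, E₂ ≤ N ∧ E₂.map T ≤ E₂ ∧ NondegOn B E₂ ∧
      finrank F E₂ = 2 * orderOf ((Fintype.card F : ℕ) : ZMod r)) := by
  classical
  obtain ⟨i, hi⟩ : ∃ i, i = orderOf ((Fintype.card F : ℕ) : ZMod r) := ⟨_, rfl⟩
  rw [← hi]
  have hd : ∀ g : F[X], Irreducible g → g ∣ ∑ j ∈ Finset.range r, (X : F[X]) ^ j →
      g.natDegree = i := fun g hg hdvd => by
    rw [hi]
    exact Cfsg.Agent.Helper46.bgl_irr_factor_degree r hrF g hg hdvd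
  have hdvd := cyc_dvd T r i hrF hTr hd N hNT
  rw [hNk, finrank_bot, Nat.sub_zero] at hdvd
  have hNpos : 0 < finrank F N := by
    rw [Nat.pos_iff_ne_zero]
    intro h0
    exact hN0 (Submodule.finrank_eq_zero.mp h0)
  have hile : i ≤ finrank F N := Nat.le_of_dvd hNpos hdvd
  have hkill : ∀ v ∈ N, aeval T (∑ j ∈ Finset.range r, (X : F[X]) ^ j) v ∈
      (⊥ : Submodule F V) := by
    intro v hv
    have h2 : aeval T (∑ j ∈ Finset.range r, (X : F[X]) ^ j) v ∈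
        N ⊓ LinearMap.ker (T - 1) := by
      refine ⟨aeval_mem T N hNT _ hv, ?_⟩
      rw [SetLike.mem_coe, LinearMap.mem_ker, ← Module.End.mul_apply,
        sub_one_mul_aeval_phi T r hTr, LinearMap.zero_apply]
    rw [hNk] at h2
    exact h2
  obtain ⟨U₁, -, hU₁N, hU₁T, hU₁fr⟩ := chain_exists T ⊥ N bot_le (by simp) hNT
    (∑ j ∈ Finset.range r, (X : F[X]) ^ j) (phi_ne_zero r hrF) hkill i hd 1 (by simpa using hile)
  rw [finrank_bot, zero_add, mul_one] at hU₁fr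
  have hU₁k : U₁ ⊓ LinearMap.ker (T - 1) = ⊥ := by
    rw [eq_bot_iff]
    exact (inf_le_inf_right _ hU₁N).trans (le_of_eq hNk)
  rcases rad_dich B halt T hT r hrF hTr U₁ hU₁T hU₁k (by rw [hU₁fr, hi]) with hnd | hti
  · left
    exact ⟨U₁, hU₁N, hU₁T, hnd, hU₁fr⟩
  · right
    have hr0 : 0 < r := (Fact.out : r.Prime).pos
    have hinv : ∀ v, T ((T ^ (r - 1)) v) = v := by
      intro v
      have h : T * T ^ (r - 1) = 1 := by
        rw [← pow_succ', Nat.sub_add_cancel hr0, hTr]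
      have h2 := congrArg (fun S : Module.End F V => S v) h
      simpa using h2
    obtain ⟨P₁, hP₁, hP₁dim⟩ := ti_orth B halt N U₁ hN hU₁N
    have hP₁N : P₁ ≤ N := fun v hv => ((hP₁ v).mp hv).1
    have hU₁P₁ : U₁ ≤ P₁ := fun v hv => (hP₁ v).mpr ⟨hU₁N hv, fun w hw => hti v hv w hw⟩
    have hP₁T : P₁.map T ≤ P₁ := by
      rintro _ ⟨v, hv, rfl⟩
      obtain ⟨hvM, hvW⟩ := (hP₁ v).mp hv
      refine (hP₁ _).mpr ⟨hNT ⟨v, hvM, rfl⟩, fun w hw => ?_⟩
      have h1 : B (T v) w = B (T v) (T ((T ^ (r - 1)) w)) := by rw [hinv]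
      rw [h1, hT]
      exact hvW _ (ti_pow_mem T U₁ hU₁T (r - 1) w hw)
    obtain ⟨U₂, hU₂N, hU₂T, hPU, hPUsup⟩ := ti_compl T r hrF hTr P₁ N hP₁N hP₁T hNT
    have hU₂dim : finrank F U₂ = i := by
      have h := Submodule.finrank_sup_add_finrank_inf_eq P₁ U₂
      rw [hPU, hPUsup, finrank_bot] at h
      omega
    have hdisj : U₁ ⊓ U₂ = ⊥ := by
      rw [eq_bot_iff]
      exact (inf_le_inf_right _ hU₁P₁).trans (le_of_eq hPU)
    refine ⟨U₁ ⊔ U₂, sup_le hU₁N hU₂N, ?_, ?_, ?_⟩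
    · rw [Submodule.map_sup]
      exact sup_le_sup hU₁T hU₂T
    · intro v hv h
      obtain ⟨u₁, hu₁, u₂, hu₂, rfl⟩ := Submodule.mem_sup.mp hv
      have hu₂0 : u₂ = 0 := by
        have h3 : u₂ ∈ P₁ ⊓ U₂ := ⟨(hP₁ u₂).mpr ⟨hU₂N hu₂, fun w hw => by
          have h1 := h w (Submodule.mem_sup_left hw)
          rw [map_add, LinearMap.add_apply, hti u₁ hu₁ w hw, zero_add] at h1
          exact h1⟩, hu₂⟩
        rw [hPU] at h3
        exact (Submodule.mem_bot F).mp h3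
      rw [hu₂0, add_zero] at h ⊢
      apply hN u₁ (hU₁N hu₁)
      intro w hw
      rw [← hPUsup] at hw
      obtain ⟨x, hx, y, hy, rfl⟩ := Submodule.mem_sup.mp hw
      have h1 : B u₁ x = 0 := by
        rw [skew_of_alt B halt, ((hP₁ x).mp hx).2 u₁ hu₁, neg_zero]
      have h2 : B u₁ y = 0 := h y (Submodule.mem_sup_right hy)
      rw [map_add, h1, h2, add_zero]
    · have h := Submodule.finrank_sup_add_finrank_inf_eq U₁ U₂
      rw [hdisj, finrank_bot] at h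
      omega

end Cfsg.Agent.Helper13.TIsp
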