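import Mathlib
import Cfsg.Agent.Helper13.TIDefs2
import Cfsg.Agent.Helper13.TJBase

set_option autoImplicit false

/-!
# S5961: piece RECUR (helper13)
-/

namespace Cfsg.Agent.Helper13.TIsp

open Module Polynomial
open Cfsg.Agent.Helper42.SpForm Cfsg.Agent.Helper42.SpGroup Cfsg.Agent.Helper42.SpModels
open Cfsg.Agent.Helper90.BG Cfsg.Agent.Helper30
open Cfsg.Agent.Helper11.TI5955 Cfsg.Agent.Helper58.TI5955 Cfsg.Agent.Helper59.TI5955
open Cfsg.Agent.Helper51.TI5955 Cfsg.Agent.Helper70.TI5955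

variable {F : Type*} [Field F] {V : Type*} [AddCommGroup V] [Module F V] [FiniteDimensional F V]
  (B : LinearMap.BilinForm F V)

theorem dec_recur (halt : ∀ v, B v v = 0) (T : Module.End F V) (hT : Preserves B T) (r : ℕ)
    (hr0 : 0 < r) (hTr : T ^ r = 1) (C₀ D₀ : Submodule F V)
    (hCD : ∀ u ∈ C₀, ∀ v ∈ D₀, B u v = 0) (hDC : ∀ u ∈ D₀, ∀ v ∈ C₀, B u v = 0)
    (a c : ℕ) (hc : 0 < c) (hce : Even c) (hae : Even a)
    (hgC : ∀ N : Submodule F V, N ≤ C₀ → N.map T ≤ N → NondegOn B N → ∀ e₁ : ℕ,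
      2 * e₁ ≤ finrank F N → ∃ N₁ : Submodule F V, N₁ ≤ N ∧ N₁.map T ≤ N₁ ∧ NondegOn B N₁ ∧
        finrank F N₁ = 2 * e₁)
    (hgD : ∀ N : Submodule F V, N ≤ D₀ → N.map T ≤ N → NondegOn B N → ∀ h₁ : ℕ,
      c * h₁ ≤ finrank F N → ∃ N₁ : Submodule F V, N₁ ≤ N ∧ N₁.map T ≤ N₁ ∧ NondegOn B N₁ ∧
        finrank F N₁ = c * h₁) :
    ∀ (t : ℕ) (MC MD : Submodule F V) (h : ℕ), MC ≤ C₀ → MD ≤ D₀ → MC.map T ≤ MC →
      MD.map T ≤ MD → NondegOn B MC → NondegOn B MD → finrank F MD = c * h →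
      finrank F MC + finrank F MD = a * t → h ≤ t * (a / c) →
      ∃ D : Fin t → Submodule F V, (∀ j, finrank F (D j) = a) ∧ iSupIndep D ∧
        iSup D = MC ⊔ MD ∧ (∀ j j', j ≠ j' → ∀ u ∈ D j, ∀ v ∈ D j', B u v = 0) ∧
        ∀ j, (D j).map T ≤ D j := by
  intro t
  induction t with
  | zero =>
    intro MC MD h hMC hMD hMCT hMDT hMCnd hMDnd hMDdim hsum hh
    have h1 : MC = ⊥ := Submodule.finrank_eq_zero.mp (by omega)
    have h2 : MD = ⊥ := Submodule.finrank_eq_zero.mp (by omega)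
    refine ⟨fun j => Fin.elim0 j, fun j => Fin.elim0 j, fun j => Fin.elim0 j, ?_,
      fun j => Fin.elim0 j, fun j => Fin.elim0 j⟩
    rw [h1, h2, iSup_of_empty, bot_sup_eq]
  | succ t ih =>
    intro MC MD h hMC hMD hMCT hMDT hMCnd hMDnd hMDdim hsum hh
    obtain ⟨A, hA⟩ : ∃ A, A = a / c := ⟨_, rfl⟩
    rw [← hA] at hh
    have hcA : c * A ≤ a := by
      rw [hA]
      exact Nat.mul_div_le a c
    obtain ⟨h₁, hh₁⟩ : ∃ h₁, h₁ = min h A := ⟨_, rfl⟩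
    have hh₁h : h₁ ≤ h := by rw [hh₁]; exact min_le_left _ _
    have hh₁A : h₁ ≤ A := by rw [hh₁]; exact min_le_right _ _
    have hkey : h ≤ h₁ + t * A := by
      rcases le_total h A with hle | hle
      · rw [hh₁, min_eq_left hle]
        omega
      · rw [hh₁, min_eq_right hle]
        have h3 : (t + 1) * A = A + t * A := by ring
        omega
    have hch₁ : c * h₁ ≤ a := (Nat.mul_le_mul_left c hh₁A).trans hcA
    have hch₁h : c * h₁ ≤ c * h := Nat.mul_le_mul_left c hh₁h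
    have hchle : c * h ≤ c * h₁ + a * t := by
      have h3 : c * h ≤ c * (h₁ + t * A) := Nat.mul_le_mul_left c hkey
      have h4 : c * (h₁ + t * A) = c * h₁ + t * (c * A) := by ring
      have h5 : t * (c * A) ≤ t * a := Nat.mul_le_mul_left t hcA
      have h6 : t * a = a * t := Nat.mul_comm t a
      omega
    have hat1 : a * (t + 1) = a * t + a := by ring
    obtain ⟨e₁, he₁⟩ : ∃ e₁, a - c * h₁ = 2 * e₁ := by
      have h3 : Even (a - c * h₁) :=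
        (Nat.even_sub hch₁).mpr ⟨fun _ => hce.mul_right h₁, fun _ => hae⟩
      obtain ⟨e₁, he₁⟩ := h3
      exact ⟨e₁, by omega⟩
    have hMCdim : 2 * e₁ ≤ finrank F MC := by omega
    obtain ⟨N₁, hN₁le, hN₁T, hN₁nd, hN₁dim⟩ := hgD MD hMD hMDT hMDnd h₁ (by rw [hMDdim]; exact hch₁h)
    obtain ⟨X₁, hX₁le, hX₁T, hX₁nd, hX₁dim⟩ := hgC MC hMC hMCT hMCnd e₁ hMCdim
    obtain ⟨MC', hC'le, hC'T, hC'nd, hC'disj, hC'sup, hC'o1, hC'o2, hC'dim⟩ :=
      nd_perp B halt T hT r hr0 hTr MC X₁ hMCnd hX₁nd hX₁le hMCT hX₁T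
    obtain ⟨MD', hD'le, hD'T, hD'nd, hD'disj, hD'sup, hD'o1, hD'o2, hD'dim⟩ :=
      nd_perp B halt T hT r hr0 hTr MD N₁ hMDnd hN₁nd hN₁le hMDT hN₁T
    have hchsub : c * (h - h₁) = c * h - c * h₁ := Nat.mul_sub c h h₁
    obtain ⟨D', hfr', hind', hsup', horth', hinv'⟩ := ih MC' MD' (h - h₁) (hC'le.trans hMC)
      (hD'le.trans hMD) hC'T hD'T hC'nd hD'nd (by omega) (by omega) (by rw [← hA]; omega)
    have hXN1 : ∀ u ∈ X₁, ∀ v ∈ N₁, B u v = 0 := fun u hu v hv =>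
      hCD u (hMC (hX₁le hu)) v (hMD (hN₁le hv))
    have hXN2 : ∀ u ∈ N₁, ∀ v ∈ X₁, B u v = 0 := fun u hu v hv =>
      hDC u (hMD (hN₁le hu)) v (hMC (hX₁le hv))
    obtain ⟨hM₁nd, hM₁disj, hM₁dim⟩ := nd_sum B X₁ N₁ hX₁nd hN₁nd hXN1 hXN2
    have horthA : ∀ u ∈ X₁ ⊔ N₁, ∀ v ∈ MC' ⊔ MD', B u v = 0 := by
      intro u hu v hv
      obtain ⟨x, hx, n, hn, rfl⟩ := Submodule.mem_sup.mp hu
      obtain ⟨y, hy, m, hm, rfl⟩ := Submodule.mem_sup.mp hv
      simp only [map_add, LinearMap.add_apply]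
      rw [hC'o1 x hx y hy, hCD x (hMC (hX₁le hx)) m (hMD (hD'le hm)),
        hDC n (hMD (hN₁le hn)) y (hMC (hC'le hy)), hD'o1 n hn m hm]
      simp
    have horthB : ∀ u ∈ MC' ⊔ MD', ∀ v ∈ X₁ ⊔ N₁, B u v = 0 := by
      intro u hu v hv
      obtain ⟨y, hy, m, hm, rfl⟩ := Submodule.mem_sup.mp hu
      obtain ⟨x, hx, n, hn, rfl⟩ := Submodule.mem_sup.mp hv
      simp only [map_add, LinearMap.add_apply]
      rw [hC'o2 y hy x hx, hCD y (hMC (hC'le hy)) n (hMD (hN₁le hn)),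
        hDC m (hMD (hD'le hm)) x (hMC (hX₁le hx)), hD'o2 m hm n hn]
      simp
    have hdisj : (X₁ ⊔ N₁) ⊓ (MC' ⊔ MD') = ⊥ := by
      rw [eq_bot_iff]
      rintro v ⟨hv1, hv2⟩
      exact (Submodule.mem_bot F).mpr (hM₁nd v hv1 (fun w hw => horthB v hv2 w hw))
    obtain ⟨hindF, hsupF⟩ := cons_indep (X₁ ⊔ N₁) (MC' ⊔ MD') D' hind' hsup' hdisj
    have hD'sub : ∀ j, D' j ≤ MC' ⊔ MD' := fun j => by
      rw [← hsup']
      exact le_iSup D' j
    refine ⟨Fin.cons (X₁ ⊔ N₁) D', ?_, hindF, ?_, ?_, ?_⟩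
    · intro j
      refine Fin.cases ?_ (fun j' => ?_) j
      · rw [Fin.cons_zero, hM₁dim, hX₁dim, hN₁dim]
        omega
      · rw [Fin.cons_succ]
        exact hfr' j'
    · rw [hsupF, ← hC'sup, ← hD'sup]
      exact sup_sup_sup_comm _ _ _ _
    · intro j j'
      refine Fin.cases ?_ (fun j₁ => ?_) j <;> refine Fin.cases ?_ (fun j₂ => ?_) j'
      · intro hjj
        exact absurd rfl hjj
      · intro _ u hu v hv
        rw [Fin.cons_zero] at hu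
        rw [Fin.cons_succ] at hv
        exact horthA u hu v (hD'sub j₂ hv)
      · intro _ u hu v hv
        rw [Fin.cons_succ] at hu
        rw [Fin.cons_zero] at hv
        exact horthB u (hD'sub j₁ hu) v hv
      · intro hjj u hu v hv
        rw [Fin.cons_succ] at hu hv
        exact horth' j₁ j₂ (fun h => hjj (by rw [h])) u hu v hv
    · intro j
      refine Fin.cases ?_ (fun j' => ?_) j
      · rw [Fin.cons_zero, Submodule.map_sup]
        exact sup_le_sup hX₁T hN₁T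
      · rw [Fin.cons_succ]
        exact hinv' j'

end Cfsg.Agent.Helper13.TIsp
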