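import Mathlib
import Cfsg.Agent.Helper13.TIDefs2
import Cfsg.Agent.Helper58.TJAEA
import Cfsg.Agent.Helper39.TJATOMC
import Cfsg.Agent.Helper13.TJBase
import Cfsg.Agent.Helper13.TJRecur
import Cfsg.Agent.Helper13.TJPair

set_option autoImplicit false

/-!
# S5961: pieces ATOMD, GROW, DECOMP (helper13)
-/

namespace Cfsg.Agent.Helper13.TIsp

open Module Polynomial
open Cfsg.Agent.Helper42.SpForm Cfsg.Agent.Helper42.SpGroup Cfsg.Agent.Helper42.SpModels
open Cfsg.Agent.Helper90.BG Cfsg.Agent.Helper30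
open Cfsg.Agent.Helper11.TI5955 Cfsg.Agent.Helper58.TI5955 Cfsg.Agent.Helper59.TI5955
open Cfsg.Agent.Helper51.TI5955 Cfsg.Agent.Helper70.TI5955
open Cfsg.Agent.Helper39.TI5961
open Cfsg.Agent.Helper58.TI5961

theorem ti_ord_pos_of_ne {F : Type*} [Field F] [Fintype F] (r : ℕ) [Fact r.Prime]
    (hrF : (r : F) ≠ 0) : 0 < orderOf ((Fintype.card F : ℕ) : ZMod r) := by
  have hrpr : r.Prime := Fact.out
  obtain ⟨p, hp⟩ := CharP.exists F
  have hpp : p.Prime := by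
    rcases CharP.char_is_prime_or_zero F p with h | h
    · exact h
    · exfalso
      subst h
      have : CharZero F := CharP.charP_to_charZero F
      exact not_finite F
  have : Fact p.Prime := ⟨hpp⟩
  have hrq : ¬ r ∣ Fintype.card F := by
    intro h
    obtain ⟨n, -, hn⟩ := FiniteField.card F p
    rw [hn] at h
    have h3 := (Nat.prime_dvd_prime_iff_eq hrpr hpp).mp (hrpr.dvd_of_dvd_pow h)
    apply hrF
    rw [h3]
    exact CharP.cast_eq_zero F p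
  exact (ord_pos r _ hrq).1

variable {F : Type*} [Field F] {V : Type*} [AddCommGroup V] [Module F V] [FiniteDimensional F V]
  (B : LinearMap.BilinForm F V)

theorem atom_d [Fintype F] (halt : ∀ v, B v v = 0) (T : Module.End F V) (hT : Preserves B T)
    (r : ℕ) [Fact r.Prime] (hr2 : 2 < r) (hrF : (r : F) ≠ 0) (hTr : T ^ r = 1) (i c : ℕ)
    (hi : i = orderOf ((Fintype.card F : ℕ) : ZMod r)) (hc : c = if Even i then i else 2 * i)
    (N : Submodule F V) (hNT : N.map T ≤ N) (hN : NondegOn B N) (hN0 : N ≠ ⊥)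
    (hNk : N ⊓ LinearMap.ker (T - 1) = ⊥) :
    ∃ E : Submodule F V, E ≤ N ∧ E.map T ≤ E ∧ NondegOn B E ∧ finrank F E = c := by
  subst hi
  rcases hyp_pair B halt T hT r hrF hTr N hNT hN hN0 hNk with
    ⟨U₁, h1, h2, h3, h4⟩ | ⟨E₂, h1, h2, h3, h4⟩
  · have heven : Even (orderOf ((Fintype.card F : ℕ) : ZMod r)) := by
      rw [← h4]
      exact (ti_lag B halt U₁ h3).1
    exact ⟨U₁, h1, h2, h3, by rw [hc, if_pos heven, h4]⟩
  · by_cases hie : Even (orderOf ((Fintype.card F : ℕ) : ZMod r))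
    · have hEk : E₂ ⊓ LinearMap.ker (T - 1) = ⊥ := by
        rw [eq_bot_iff]
        exact (inf_le_inf_right _ h1).trans (le_of_eq hNk)
      obtain ⟨E, hE1, hE2, hE3, hE4⟩ := atom_even_hyp B halt T hT r hr2 hrF hTr hie E₂ h2 h3 hEk h4
      exact ⟨E, hE1.trans h1, hE2, hE3, by rw [hc, if_pos hie, hE4]⟩
    · exact ⟨E₂, h1, h2, h3, by rw [hc, if_neg hie, h4]⟩

theorem nd_grow (halt : ∀ v, B v v = 0) (T : Module.End F V) (hT : Preserves B T) (r : ℕ)
    (hr0 : 0 < r) (hTr : T ^ r = 1) (c₀ : ℕ) (hc₀ : 0 < c₀) (M₀ : Submodule F V)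
    (hatom : ∀ N : Submodule F V, N ≤ M₀ → N.map T ≤ N → NondegOn B N → N ≠ ⊥ →
      ∃ E : Submodule F V, E ≤ N ∧ E.map T ≤ E ∧ NondegOn B E ∧ finrank F E = c₀)
    (N : Submodule F V) (hNM : N ≤ M₀) (hNT : N.map T ≤ N) (hN : NondegOn B N) (h₁ : ℕ)
    (hh : c₀ * h₁ ≤ finrank F N) :
    ∃ N₁ : Submodule F V, N₁ ≤ N ∧ N₁.map T ≤ N₁ ∧ NondegOn B N₁ ∧ finrank F N₁ = c₀ * h₁ := by
  induction h₁ with
  | zero =>
    exact ⟨⊥, bot_le, by simp, fun v hv _ => (Submodule.mem_bot F).mp hv, by simp⟩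
  | succ h₁ ih =>
    have h0 : c₀ * (h₁ + 1) = c₀ * h₁ + c₀ := by ring
    obtain ⟨N₁, hN₁le, hN₁T, hN₁nd, hN₁dim⟩ := ih (by omega)
    obtain ⟨P, hPle, hPT, hPnd, hdisj, hsup, horth, horth', hPdim⟩ :=
      nd_perp B halt T hT r hr0 hTr N N₁ hN hN₁nd hN₁le hNT hN₁T
    have hP0 : P ≠ ⊥ := by
      rintro rfl
      rw [finrank_bot] at hPdim
      omega
    obtain ⟨E, hEle, hET, hEnd, hEdim⟩ := hatom P (hPle.trans hNM) hPT hPnd hP0
    obtain ⟨hnd', hdisj', hdim'⟩ := nd_sum B N₁ E hN₁nd hEnd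
      (fun u hu v hv => horth u hu v (hEle hv)) (fun u hu v hv => horth' u (hEle hu) v hv)
    refine ⟨N₁ ⊔ E, sup_le hN₁le (hEle.trans hPle), ?_, hnd', by rw [hdim', hN₁dim, hEdim, h0]⟩
    rw [Submodule.map_sup]
    exact sup_le_sup hN₁T hET

theorem dec_main [Fintype F] (halt : ∀ v, B v v = 0) (hnd : ∀ v, (∀ w, B v w = 0) → v = 0)
    (T : Module.End F V) (hT : Preserves B T) (r : ℕ) [Fact r.Prime] (hr2 : 2 < r)
    (hrF : (r : F) ≠ 0) (hTr : T ^ r = 1) (i c : ℕ)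
    (hi : i = orderOf ((Fintype.card F : ℕ) : ZMod r)) (hc : c = if Even i then i else 2 * i)
    (a t h : ℕ) (hae : Even a) (hdim : finrank F V = a * t)
    (hh : finrank F (LinearMap.range (T - 1)) = c * h) (hht : h ≤ t * (a / c)) :
    ∃ D : Fin t → Submodule F V, (∀ j, finrank F (D j) = a) ∧ iSupIndep D ∧ iSup D = ⊤ ∧
      (∀ j j', j ≠ j' → ∀ u ∈ D j, ∀ v ∈ D j', B u v = 0) ∧ ∀ j, (D j).map T ≤ D j := by
  classical
  have hrpr : r.Prime := Fact.out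
  have hr0 : 0 < r := hrpr.pos
  have hi0 : 0 < i := by
    rw [hi]
    exact ti_ord_pos_of_ne r hrF
  have hcpos : 0 < c := by
    rw [hc]
    split_ifs <;> omega
  have hceven : Even c := by
    rw [hc]
    split_ifs with hie
    · exact hie
    · exact even_two_mul i
  obtain ⟨hDT, hcompl, hCD, hDC, hCnd, hDnd⟩ := ti_fix B halt hnd T hT r hrF hTr
  have hfix : ∀ v ∈ LinearMap.ker (T - 1), T v = v := fun v hv => (mem_ker_sub_one T v).mp hv
  have hCT : (LinearMap.ker (T - 1)).map T ≤ LinearMap.ker (T - 1) := by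
    rintro _ ⟨v, hv, rfl⟩
    rw [hfix v hv]
    exact hv
  have hgC : ∀ N : Submodule F V, N ≤ LinearMap.ker (T - 1) → N.map T ≤ N → NondegOn B N →
      ∀ e₁ : ℕ, 2 * e₁ ≤ finrank F N → ∃ N₁ : Submodule F V, N₁ ≤ N ∧ N₁.map T ≤ N₁ ∧
        NondegOn B N₁ ∧ finrank F N₁ = 2 * e₁ := fun N hNle hNT hN e₁ he₁ =>
    nd_grow B halt T hT r hr0 hTr 2 (by norm_num) (LinearMap.ker (T - 1))
      (fun N' hN'le _ hN'nd hN'0 => by
        obtain ⟨E, hE1, hE2, hE3⟩ := atom_c B halt N' hN'nd hN'0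
        refine ⟨E, hE1, ?_, hE2, hE3⟩
        rintro _ ⟨v, hv, rfl⟩
        rw [hfix v (hN'le (hE1 hv))]
        exact hv) N hNle hNT hN e₁ he₁
  have hgD : ∀ N : Submodule F V, N ≤ LinearMap.range (T - 1) → N.map T ≤ N → NondegOn B N →
      ∀ h₁ : ℕ, c * h₁ ≤ finrank F N → ∃ N₁ : Submodule F V, N₁ ≤ N ∧ N₁.map T ≤ N₁ ∧
        NondegOn B N₁ ∧ finrank F N₁ = c * h₁ := fun N hNle hNT hN h₁ hh₁ =>
    nd_grow B halt T hT r hr0 hTr c hcpos (LinearMap.range (T - 1))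
      (fun N' hN'le hN'T hN'nd hN'0 =>
        atom_d B halt T hT r hr2 hrF hTr i c hi hc N' hN'T hN'nd hN'0 (by
          rw [eq_bot_iff]
          refine (inf_le_inf_right _ hN'le).trans (le_of_eq ?_)
          rw [inf_comm]
          exact hcompl.inf_eq_bot)) N hNle hNT hN h₁ hh₁
  have hfr := Submodule.finrank_add_eq_of_isCompl hcompl
  obtain ⟨D, h1, h2, h3, h4, h5⟩ := dec_recur B halt T hT r hr0 hTr (LinearMap.ker (T - 1))
    (LinearMap.range (T - 1)) hCD hDC a c hcpos hceven hae hgC hgD t (LinearMap.ker (T - 1))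
    (LinearMap.range (T - 1)) h le_rfl le_rfl hCT hDT hCnd hDnd hh (by rw [hfr, hdim]) hht
  exact ⟨D, h1, h2, by rw [h3]; exact hcompl.sup_eq_top, h4, h5⟩

end Cfsg.Agent.Helper13.TIsp
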