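import Mathlib
import Cfsg.Agent.Helper13.TIDefs2
import Cfsg.Agent.Helper31.TJCDVD
import Cfsg.Agent.Helper39.TJFIN1
import Cfsg.Agent.Helper39.TJKSUM
import Cfsg.Agent.Helper60.TJPERM
import Cfsg.Agent.Helper39.TJFREE
import Cfsg.Agent.Helper31.TJSPCARD
import Cfsg.Agent.Helper19.TJCAUCHY
import Cfsg.Agent.Helper13.TJDec

set_option autoImplicit false

/-!
# S5961: final assembly (helper13)
-/

namespace Cfsg.Agent.Helper13.TIsp

open Module Polynomial
open Cfsg.Agent.Helper42.SpForm Cfsg.Agent.Helper42.SpGroup Cfsg.Agent.Helper42.SpModels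
open Cfsg.Agent.Helper90.BG Cfsg.Agent.Helper30
open Cfsg.Agent.Helper11.TI5955 Cfsg.Agent.Helper58.TI5955 Cfsg.Agent.Helper59.TI5955
open Cfsg.Agent.Helper51.TI5955 Cfsg.Agent.Helper70.TI5955
open Cfsg.Agent.Helper19.TI5961
open Cfsg.Agent.Helper31.TI5961
open Cfsg.Agent.Helper39.TI5961
open Cfsg.Agent.Helper60.TI5961

/-- arithmetic: the bound on the number of `c`-blocks -/
theorem dec_arith (a t c h : ℕ) (hc : 0 < c) (hle : c * h ≤ a * t)
    (hk : (a * t) % c = t * (a % c)) : h ≤ t * (a / c) := by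
  have h1 : a * t = c * (t * (a / c)) + t * (a % c) := by
    have h2 := Nat.div_add_mod a c
    calc a * t = (c * (a / c) + a % c) * t := by rw [h2]
      _ = c * (t * (a / c)) + t * (a % c) := by ring
  have h3 : t * (a % c) < c := by
    rw [← hk]
    exact Nat.mod_lt _ hc
  by_contra hlt
  push Not at hlt
  have h4 : c * (t * (a / c) + 1) ≤ c * h := Nat.mul_le_mul_left c hlt
  have h5 : c * (t * (a / c) + 1) = c * (t * (a / c)) + c := by ring
  omega

variable {F : Type*} [Field F]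

theorem std_finrank (d : ℕ) : finrank F (Fin d ⊕ Fin d → F) = 2 * d := by
  rw [Module.finrank_fintype_fun_eq_card, Fintype.card_sum, Fintype.card_fin]
  ring

theorem std_nondegOn_top (d : ℕ) :
    NondegOn (stdForm d : LinearMap.BilinForm F (Fin d ⊕ Fin d → F)) ⊤ :=
  fun v _ h => stdForm_nondeg d v (fun w => h w Submodule.mem_top)

/-- from an abstract orthogonal decomposition to `SpDec` -/
theorem spDec_of (d a t : ℕ) (ha : 0 < a) (ht : 2 ≤ t)
    (D : Fin t → Submodule F (Fin d ⊕ Fin d → F)) (hfr : ∀ j, finrank F (D j) = a)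
    (hind : iSupIndep D) (hsup : iSup D = ⊤)
    (horth : ∀ j j', j ≠ j' → ∀ u ∈ D j, ∀ v ∈ D j', stdForm d u v = 0) : SpDec d a D := by
  refine ⟨⟨ht, ha, hfr, hind, hsup⟩, ?_, ?_⟩
  · intro j u hu hu0
    by_contra hcon
    push Not at hcon
    exact hu0 (dec_nondeg (stdForm d) (stdForm_nondeg d) D hsup horth j u hu
      (fun w hw => by rw [bgSp_stdForm_eq]; exact hcon w hw))
  · intro j j' hjj u hu v hv
    rw [← bgSp_stdForm_eq]
    exact horth j j' hjj u hu v hv

theorem spDec_nondegOn (d a t : ℕ) (D : Fin t → Submodule F (Fin d ⊕ Fin d → F))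
    (hD : SpDec d a D) (j : Fin t) : NondegOn (stdForm d) (D j) := by
  intro u hu h
  by_contra hu0
  obtain ⟨v, hv, hne⟩ := hD.2.1 j u hu hu0
  exact hne (by rw [← bgSp_stdForm_eq]; exact h v hv)

theorem map_eq_of_le_of_injective {V : Type*} [AddCommGroup V] [Module F V]
    [FiniteDimensional F V] (T : Module.End F V) (hinj : Function.Injective T)
    (W : Submodule F V) (h : W.map T ≤ W) : W.map T = W := by
  apply Submodule.eq_of_le_of_finrank_eq h
  exact (Submodule.equivMapOfInjective T hinj W).symm.finrank_eq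

theorem toEnd_injective_apply (d : ℕ) (x : Matrix.symplecticGroup (Fin d) F) :
    Function.Injective (toEnd x) := by
  intro u v huv
  have h1 : toEnd x⁻¹ (toEnd x u) = u := by
    rw [← Module.End.mul_apply, ← toEnd_mul, inv_mul_cancel, toEnd_one]
    rfl
  have h2 : toEnd x⁻¹ (toEnd x v) = v := by
    rw [← Module.End.mul_apply, ← toEnd_mul, inv_mul_cancel, toEnd_one]
    rfl
  rw [← h1, ← h2, huv]

variable [Fintype F]

/-- `range (T - 1)` has dimension `c * h`. -/
theorem range_dim (d : ℕ) (T : Module.End F (Fin d ⊕ Fin d → F)) (hT : Preserves (stdForm d) T)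
    (r : ℕ) [Fact r.Prime] (hrF : (r : F) ≠ 0) (hTr : T ^ r = 1) (i c : ℕ)
    (hi : i = orderOf ((Fintype.card F : ℕ) : ZMod r)) (hc : c = if Even i then i else 2 * i) :
    ∃ h, finrank F (LinearMap.range (T - 1)) = c * h ∧
      finrank F (LinearMap.range (T - 1)) + finrank F (LinearMap.ker (T - 1)) = 2 * d := by
  have h1 := c_dvd (stdForm d) (stdForm_self d) T hT r hrF hTr i c hi hc ⊤ le_top
    (std_nondegOn_top d)
  have h2 := LinearMap.finrank_range_add_finrank_ker (T - 1)
  rw [std_finrank] at h2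
  rw [top_inf_eq, finrank_top, std_finrank] at h1
  obtain ⟨h, hh⟩ := h1
  exact ⟨h, by omega, h2⟩

/-- (⟸) -/
theorem dec_back (p : ℕ) [Fact p.Prime] [CharP F p] (d a t : ℕ) (hd : 1 ≤ d)
    (hat : 2 * d = a * t) (ha : 2 ≤ a) (hae : Even a) (ht : 2 ≤ t) (r : ℕ) [Fact r.Prime]
    (hr2 : r ≠ 2) (hrp : r ≠ p) (i c : ℕ) (hi : i = orderOf ((Fintype.card F : ℕ) : ZMod r))
    (hc : c = if Even i then i else 2 * i) (hk : (2 * d) % c = t * (a % c))
    (x : Matrix.symplecticGroup (Fin d) F) (z : F)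
    (hz : ((x ^ r : Matrix.symplecticGroup (Fin d) F) :
      Matrix (Fin d ⊕ Fin d) (Fin d ⊕ Fin d) F) = z • 1) :
    ∃ D : Fin t → Submodule F (Fin d ⊕ Fin d → F), SpDec d a D ∧
      ∃ σ : Equiv.Perm (Fin t), ∀ j,
        (D j).map (Matrix.toLin' (x : Matrix (Fin d ⊕ Fin d) (Fin d ⊕ Fin d) F)) = D (σ j) := by
  have hrpr : r.Prime := Fact.out
  have hr2' : 2 < r := lt_of_le_of_ne hrpr.two_le (Ne.symm hr2)
  have hrodd : Odd r := hrpr.odd_of_ne_two hr2
  obtain ⟨hrF, hrq⟩ := ti_char_facts (F := F) p r hrp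
  obtain ⟨hi0, hir⟩ := ord_pos r (Fintype.card F) hrq
  rw [← hi] at hi0 hir
  have hcpos : 0 < c := by
    rw [hc]
    split_ifs <;> omega
  have hzz := sp_scal d hd z (x ^ r) hz
  have hTr := ti_toEnd_pow_scalar d r x z hz
  obtain ⟨T, hT, hTr1, hTinv⟩ : ∃ T : Module.End F (Fin d ⊕ Fin d → F),
      Preserves (stdForm d) T ∧ T ^ r = 1 ∧
      ∀ W : Submodule F (Fin d ⊕ Fin d → F), W.map T ≤ W → W.map (toEnd x) ≤ W := by
    rcases ti_sq_one z hzz with rfl | rfl
    · exact ⟨toEnd x, preserves_toEnd x, by rw [hTr, one_smul], fun W h => h⟩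
    · refine ⟨-toEnd x, ?_, ?_, ?_⟩
      · intro u v
        have h5 := preserves_toEnd x u v
        simp only [LinearMap.neg_apply, map_neg, neg_neg]
        exact h5
      · have hpow : ∀ k : ℕ, (-toEnd x) ^ k = ((-1 : F) ^ k) • toEnd x ^ k := by
          intro k
          induction k with
          | zero => simp
          | succ k ih =>
            rw [pow_succ, ih, pow_succ, pow_succ]
            apply LinearMap.ext
            intro v
            simp [Module.End.mul_apply]
        rw [hpow, hTr, Odd.neg_one_pow hrodd, smul_smul]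
        norm_num
      · intro W h
        rintro _ ⟨w, hw, rfl⟩
        have h3 := h (Submodule.mem_map_of_mem hw)
        rw [LinearMap.neg_apply] at h3
        simpa using W.neg_mem h3
  obtain ⟨h, hh, hrk⟩ := range_dim d T hT r hrF hTr1 i c hi hc
  have hht : h ≤ t * (a / c) := dec_arith a t c h hcpos (by rw [← hh, ← hat]; omega)
    (by rw [← hat]; exact hk)
  obtain ⟨D, hfr, hind, hsup, horth, hinv⟩ := dec_main (stdForm d) (stdForm_self d)
    (stdForm_nondeg d) T hT r hr2' hrF hTr1 i c hi hc a t h hae (by rw [std_finrank, hat]) hh hht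
  refine ⟨D, spDec_of d a t (by omega) ht D hfr hind hsup horth, 1, fun j => ?_⟩
  exact map_eq_of_le_of_injective (toEnd x) (toEnd_injective_apply d x) (D j) (hTinv _ (hinv j))

/-- (⟹) -/
theorem dec_fwd (p : ℕ) [Fact p.Prime] [CharP F p] (d a t : ℕ) (hd : 1 ≤ d)
    (hat : 2 * d = a * t) (ha : 2 ≤ a) (hae : Even a) (ht : 2 ≤ t) (r : ℕ) [Fact r.Prime]
    (hr2 : r ≠ 2) (hrp : r ≠ p)
    (hΩ : r ∣ Nat.card {D : Fin t → Submodule F (Fin d ⊕ Fin d → F) // SpDec d a D} /
      Nat.factorial t)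
    (i c : ℕ) (hi : i = orderOf ((Fintype.card F : ℕ) : ZMod r))
    (hc : c = if Even i then i else 2 * i)
    (hL : ∀ x : Matrix.symplecticGroup (Fin d) F,
      (∃ z : F, ((x ^ r : Matrix.symplecticGroup (Fin d) F) :
        Matrix (Fin d ⊕ Fin d) (Fin d ⊕ Fin d) F) = z • 1) →
      (∀ z : F, (x : Matrix (Fin d ⊕ Fin d) (Fin d ⊕ Fin d) F) ≠ z • 1) →
      ∃ D : Fin t → Submodule F (Fin d ⊕ Fin d → F), SpDec d a D ∧
        ∃ σ : Equiv.Perm (Fin t), ∀ j,
          (D j).map (Matrix.toLin' (x : Matrix (Fin d ⊕ Fin d) (Fin d ⊕ Fin d) F)) = D (σ j)) :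
    c ≤ a ∧ (2 * d) % c = t * (a % c) := by
  classical
  have hrpr : r.Prime := Fact.out
  have hr2' : 2 < r := lt_of_le_of_ne hrpr.two_le (Ne.symm hr2)
  have hrodd : Odd r := hrpr.odd_of_ne_two hr2
  obtain ⟨hrF, hrq⟩ := ti_char_facts (F := F) p r hrp
  obtain ⟨hi0, hir⟩ := ord_pos r (Fintype.card F) hrq
  rw [← hi] at hi0 hir
  have hcpos : 0 < c := by
    rw [hc]
    split_ifs <;> omega
  have hceven : 2 ∣ c := by
    rw [hc]
    split_ifs with hie
    · exact hie.two_dvd
    · exact dvd_mul_right 2 i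
  have hcr : c ≤ r - 1 := by
    apply Nat.le_of_dvd (by omega)
    rw [hc]
    split_ifs with hie
    · exact hir
    · have hio : Odd i := Nat.not_even_iff_odd.mp hie
      have h2r : 2 ∣ r - 1 := by
        obtain ⟨k, hk⟩ := hrodd
        exact ⟨k, by omega⟩
      exact Nat.Coprime.mul_dvd_of_dvd_of_dvd (Nat.coprime_two_left.mpr hio) h2r hir
  -- the set of decompositions is nonempty
  have hne : Nonempty {D : Fin t → Submodule F (Fin d ⊕ Fin d → F) // SpDec d a D} := by
    obtain ⟨D, hfr, hind, hsup, horth, -⟩ := dec_main (stdForm d) (stdForm_self d)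
      (stdForm_nondeg d) (1 : Module.End F (Fin d ⊕ Fin d → F)) (preserves_one _) r hr2' hrF
      (one_pow r) i c hi hc a t 0 hae (by rw [std_finrank, hat])
      (by rw [sub_self, LinearMap.range_zero, finrank_bot, mul_zero]) (Nat.zero_le _)
    exact ⟨⟨D, spDec_of d a t (by omega) ht D hfr hind hsup horth⟩⟩
  -- an element of order r
  have hfin : Finite {D : Fin t → Submodule F (Fin d ⊕ Fin d → F) // SpDec d a D} :=
    Finite.of_injective (fun D => D.1) Subtype.val_injective
  have hNpos : 0 < Nat.card {D : Fin t → Submodule F (Fin d ⊕ Fin d → F) // SpDec d a D} :=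
    Nat.card_pos
  have hrN : r ∣ Nat.card {D : Fin t → Submodule F (Fin d ⊕ Fin d → F) // SpDec d a D} := by
    have h1 := Nat.div_mul_cancel (sp_fact_dvd (F := F) d a t)
    rw [← h1]
    exact Dvd.dvd.mul_right hΩ _
  obtain ⟨g₀, hg₀r, hg₀1⟩ := sp_cauchy d r (dvd_trans hrN (sp_card_dvd d a t hne))
  -- c ≤ 2d
  have hc2d : c ≤ 2 * d := by
    obtain ⟨h, hh, hrk⟩ := range_dim d (toEnd g₀) (preserves_toEnd g₀) r hrF hg₀r i c hi hc
    have hh0 : h ≠ 0 := by
      rintro rfl
      rw [mul_zero] at hh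
      have h1 : LinearMap.range (toEnd g₀ - 1) = ⊥ := Submodule.finrank_eq_zero.mp hh
      apply hg₀1
      have h2 : toEnd g₀ - 1 = 0 := LinearMap.range_eq_bot.mp h1
      exact sub_eq_zero.mp h2
    have h3 : c * 1 ≤ c * h := Nat.mul_le_mul_left c (by omega)
    omega
  -- analysis of a bad element
  have key : ∀ g : Matrix.symplecticGroup (Fin d) F, toEnd g ^ r = 1 → toEnd g ≠ 1 →
      (a ≤ finrank F (LinearMap.ker (toEnd g - 1)) ∧
        a * (r - 1) ≤ finrank F (LinearMap.range (toEnd g - 1))) ∨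
      (∃ D : Fin t → Submodule F (Fin d ⊕ Fin d → F), iSup D = ⊤ ∧
        (∀ j, finrank F (D j ⊓ LinearMap.ker (toEnd g - 1) : Submodule F (Fin d ⊕ Fin d → F))
          ≤ a) ∧
        (∀ j, c ∣ a - finrank F
          (D j ⊓ LinearMap.ker (toEnd g - 1) : Submodule F (Fin d ⊕ Fin d → F))) ∧
        (∀ j, finrank F (D j ⊓ LinearMap.ker (toEnd g - 1) : Submodule F (Fin d ⊕ Fin d → F))
          = a → D j ≤ LinearMap.ker (toEnd g - 1)) ∧
        ∑ j, finrank F (D j ⊓ LinearMap.ker (toEnd g - 1) : Submodule F (Fin d ⊕ Fin d → F))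
          ≤ finrank F (LinearMap.ker (toEnd g - 1))) := by
    intro g h1 h2
    have hgr : g ^ r = 1 := toEnd_injective (by rw [toEnd_pow, h1, toEnd_one])
    obtain ⟨D, hD, σ, hσ⟩ := hL g ⟨1, by rw [hgr]; simp⟩ (sp_nonscalar d hd r hrodd g h1 h2)
    by_cases hσ1 : σ = 1
    · right
      subst hσ1
      have hinv : ∀ j, (D j).map (toEnd g) ≤ D j := fun j => le_of_eq (hσ j)
      refine ⟨D, hD.1.iSup_eq_top, fun j => ?_, fun j => ?_, fun j hj => ?_,
        ker_sum_le D hD.1.indep _⟩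
      · rw [← hD.1.finrank_eq j]
        exact Submodule.finrank_mono inf_le_left
      · have h3 := c_dvd (stdForm d) (stdForm_self d) (toEnd g) (preserves_toEnd g) r hrF h1 i c
          hi hc (D j) (hinv j) (spDec_nondegOn d a t D hD j)
        rwa [hD.1.finrank_eq j] at h3
      · have h4 : D j ⊓ LinearMap.ker (toEnd g - 1) = D j :=
          Submodule.eq_of_le_of_finrank_eq inf_le_left (by rw [hj, hD.1.finrank_eq j])
        rw [← h4]
        exact inf_le_right
    · left
      exact perm_bounds (toEnd g) r h1 D a hD.1.finrank_eq hD.1.indep σ hσ hσ1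
  have hca : c ≤ a := by
    by_contra hlt
    push Not at hlt
    obtain ⟨c', hc'⟩ := hceven
    obtain ⟨g, hg1, hg2, hg3⟩ := bad_ab F p r hr2' hrp i c hi hc d 1 (d - c') (by omega)
      (by omega)
    have hrk := LinearMap.finrank_range_add_finrank_ker (toEnd g - 1)
    rw [std_finrank, hg3] at hrk
    rcases key g hg1 hg2 with ⟨-, h5⟩ | ⟨D, hsup, hle, hdvd, hfull, -⟩
    · have h6 : a * (r - 1) ≤ r - 1 := by omega
      have h7 : 2 * (r - 1) ≤ a * (r - 1) := Nat.mul_le_mul_right _ ha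
      omega
    · have hall : ∀ j, D j ≤ LinearMap.ker (toEnd g - 1) := by
        intro j
        apply hfull j
        have h8 := Nat.eq_zero_of_dvd_of_lt (hdvd j) (by omega)
        have h9 := hle j
        omega
      have htop : (⊤ : Submodule F (Fin d ⊕ Fin d → F)) ≤ LinearMap.ker (toEnd g - 1) := by
        rw [← hsup]
        exact iSup_le hall
      have h10 : finrank F (LinearMap.ker (toEnd g - 1)) = 2 * d := by
        rw [top_le_iff.mp htop, finrank_top, std_finrank]
      omega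
  refine ⟨hca, ?_⟩
  obtain ⟨e', he'⟩ : ∃ e', (2 * d) % c = 2 * e' := by
    have h2 : 2 ∣ (2 * d) % c := (Nat.dvd_mod_iff hceven).mpr (dvd_mul_right 2 d)
    obtain ⟨e', he'⟩ := h2
    exact ⟨e', he'⟩
  have hu : 1 ≤ (2 * d) / c := Nat.div_pos hc2d hcpos
  obtain ⟨g, hg1, hg2, hg3⟩ := bad_ab F p r hr2' hrp i c hi hc d ((2 * d) / c) e' hu
    (by rw [← he']; exact (Nat.div_add_mod _ _).symm)
  have hklt : (2 * d) % c < c := Nat.mod_lt _ hcpos
  have hmod : (2 * d) % c = (t * (a % c)) % c := by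
    rw [hat]
    have h2 := Nat.div_add_mod a c
    have h3 : a * t = c * ((a / c) * t) + t * (a % c) := by
      calc a * t = (c * (a / c) + a % c) * t := by rw [h2]
        _ = c * ((a / c) * t) + t * (a % c) := by ring
    rw [h3, Nat.mul_add_mod]
  rcases key g hg1 hg2 with ⟨h5, -⟩ | ⟨D, hsup, hle, hdvd, hfull, hsum⟩
  · rw [hg3, ← he'] at h5
    omega
  · rw [hg3, ← he'] at hsum
    have hge : ∀ j, a % c ≤ finrank F
        (D j ⊓ LinearMap.ker (toEnd g - 1) : Submodule F (Fin d ⊕ Fin d → F)) := by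
      intro j
      obtain ⟨k, hk⟩ := hdvd j
      have h6 := hle j
      have h7 : a = finrank F
          (D j ⊓ LinearMap.ker (toEnd g - 1) : Submodule F (Fin d ⊕ Fin d → F)) + c * k := by
        omega
      have h8 : a % c = finrank F
          (D j ⊓ LinearMap.ker (toEnd g - 1) : Submodule F (Fin d ⊕ Fin d → F)) % c := by
        conv_lhs => rw [h7]
        exact Nat.add_mul_mod_self_left _ _ _
      rw [h8]
      exact Nat.mod_le _ _
    have h9 : t * (a % c) ≤ ∑ j : Fin t, finrank F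
        (D j ⊓ LinearMap.ker (toEnd g - 1) : Submodule F (Fin d ⊕ Fin d → F)) := by
      have h10 := Finset.sum_le_sum (s := Finset.univ) (fun j _ => hge j)
      rw [Finset.sum_const, Finset.card_univ, Fintype.card_fin, smul_eq_mul] at h10
      exact h10
    rw [hmod]
    exact Nat.mod_eq_of_lt (by omega)

end Cfsg.Agent.Helper13.TIsp
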