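import Mathlib
import Cfsg.Agent.Helper13.TJMain

set_option autoImplicit false

/-!
# S5956: hub (helper13).  Imports all of the S5955 / S5961 machinery and defines `JT`.
-/

namespace Cfsg.Agent.Helper13.TIsp

/-- The invariant subspace `Z` has Jordan type `l` for the (nilpotent) endomorphism `N`:
`dim (Z ∩ ker N ^ k) = ∑_{a ∈ l} min a k` for all `k`. -/
def JT {F : Type*} [Field F] {V : Type*} [AddCommGroup V] [Module F V]
    (N : Module.End F V) (Z : Submodule F V) (l : Multiset ℕ) : Prop :=
  ∀ k : ℕ, Module.finrank F ↥(Z ⊓ LinearMap.ker (N ^ k)) = (l.map (fun a => min a k)).sum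

end Cfsg.Agent.Helper13.TIsp
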