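import Mathlib
import Cfsg.Agent.Helper13.TKDefs
import Cfsg.Agent.Helper58.TKTRANSFIX

set_option autoImplicit false

/-!
# S5956: piece NDSUBCARD (helper13)
-/

namespace Cfsg.Agent.Helper13.TIsp

open Module Polynomial
open Cfsg.Agent.Helper42.SpForm Cfsg.Agent.Helper42.SpGroup Cfsg.Agent.Helper42.SpModels
open Cfsg.Agent.Helper90.BG Cfsg.Agent.Helper30
open Cfsg.Agent.Helper11.TI5955 Cfsg.Agent.Helper58.TI5955 Cfsg.Agent.Helper59.TI5955
open Cfsg.Agent.Helper51.TI5955 Cfsg.Agent.Helper70.TI5955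
open Cfsg.Agent.Helper39.TI5961 Cfsg.Agent.Helper58.TI5961 Cfsg.Agent.Helper59.TI5961
open Cfsg.Agent.Helper60.TI5961 Cfsg.Agent.Helper31.TI5961 Cfsg.Agent.Helper19.TI5961
open Cfsg.Agent.Helper58.TI5956

variable {F : Type*} [Field F]

theorem toEnd_inv_apply (d : ℕ) (g : Matrix.symplecticGroup (Fin d) F) (v : Fin d ⊕ Fin d → F) :
    toEnd g⁻¹ (toEnd g v) = v := by
  have h1 : toEnd g⁻¹ * toEnd g = 1 := by rw [← toEnd_mul, inv_mul_cancel, toEnd_one]
  exact LinearMap.congr_fun h1 v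

/-- the subgroup of `Sp` fixing `K^⊥` pointwise -/
def fixPerp (d : ℕ) (K : Submodule F (Fin d ⊕ Fin d → F)) :
    Subgroup (Matrix.symplecticGroup (Fin d) F) where
  carrier := {g | ∀ v, (∀ u ∈ K, stdForm d u v = 0) → toEnd g v = v}
  mul_mem' := by
    intro g h hg hh v hv
    rw [toEnd_mul, Module.End.mul_apply, hh v hv, hg v hv]
  one_mem' := by
    intro v _
    rw [toEnd_one]
    rfl
  inv_mem' := by
    intro g hg v hv
    have h1 := toEnd_inv_apply d g v
    rw [hg v hv] at h1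
    exact h1

theorem nd_sub_card [Fintype F] (p : ℕ) [Fact p.Prime] [CharP F p] (r : ℕ) [Fact r.Prime]
    (hr2 : 2 < r) (hrp : r ≠ p) (i c : ℕ) (hi : i = orderOf ((Fintype.card F : ℕ) : ZMod r))
    (hc : c = if Even i then i else 2 * i) (d m : ℕ) (K : Submodule F (Fin d ⊕ Fin d → F))
    (hK : NondegOn (stdForm d) K) (hKc : finrank F K < c)
    (W₀ : Submodule F (Fin d ⊕ Fin d → F))
    (hW₀ : (finrank F W₀ = m ∧ NondegOn (stdForm d) W₀) ∧ W₀ ≤ K) :
    ¬ r ∣ Nat.card {W : Submodule F (Fin d ⊕ Fin d → F) //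
      (finrank F W = m ∧ NondegOn (stdForm d) W) ∧ W ≤ K} := by
  classical
  have hrpr : r.Prime := Fact.out
  obtain ⟨hrF, hrq⟩ := ti_char_facts (F := F) p r hrp
  haveI : Finite (Matrix.symplecticGroup (Fin d) F) := Subtype.finite
  -- the complement of K
  obtain ⟨P, -, -, hPnd, hdisj, hsup, hKP, hPK, hPdim⟩ := nd_perp (stdForm d) (stdForm_self d)
    (1 : Module.End F (Fin d ⊕ Fin d → F)) (preserves_one _) 1 Nat.one_pos (one_pow 1) ⊤ K
    (std_nondegOn_top d) hK le_top le_top (by rintro _ ⟨v, hv, rfl⟩; exact hv)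
  rw [finrank_top, std_finrank] at hPdim
  have hbij : ∀ g : Matrix.symplecticGroup (Fin d) F, Function.Bijective (toEnd g) := by
    intro g
    refine ⟨Function.LeftInverse.injective (toEnd_inv_apply d g), ?_⟩
    have h2 := toEnd_inv_apply d g⁻¹
    rw [inv_inv] at h2
    exact Function.RightInverse.surjective h2
  have hfixP : ∀ g ∈ fixPerp d K, ∀ y ∈ P, toEnd g y = y := by
    intro g hg y hy
    exact hg y (fun u hu => hKP u hu y hy)
  -- elements of the subgroup preserve K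
  have hKinv : ∀ g ∈ fixPerp d K, ∀ w ∈ K, toEnd g w ∈ K := by
    intro g hg w hw
    have h1 : toEnd g w ∈ K ⊔ P := by rw [hsup]; exact Submodule.mem_top
    obtain ⟨k, hk, y, hy, hky⟩ := Submodule.mem_sup.mp h1
    have hy0 : y = 0 := by
      apply hPnd y hy
      intro y' hy'
      have h3 : stdForm d (toEnd g w) y' = 0 := by
        rw [← hfixP g hg y' hy', preserves_toEnd g]
        exact hKP w hw y' hy'
      rw [← hky, map_add, LinearMap.add_apply, hKP k hk y' hy', zero_add] at h3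
      exact h3
    rw [hy0, add_zero] at hky
    rw [← hky]
    exact hk
  -- the action
  have hpres : ∀ g ∈ fixPerp d K, ∀ W : Submodule F (Fin d ⊕ Fin d → F),
      ((finrank F W = m ∧ NondegOn (stdForm d) W) ∧ W ≤ K) →
      ((finrank F (W.map (toEnd g)) = m ∧ NondegOn (stdForm d) (W.map (toEnd g))) ∧
        W.map (toEnd g) ≤ K) := by
    rintro g hg W ⟨⟨hW1, hW2⟩, hW3⟩
    refine ⟨⟨?_, ?_⟩, ?_⟩
    · rw [← hW1]
      exact (Submodule.equivMapOfInjective (toEnd g) (hbij g).1 W).symm.finrank_eq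
    · rintro _ ⟨u₀, hu₀, rfl⟩ hall
      have h1 : u₀ = 0 := by
        apply hW2 u₀ hu₀
        intro w hw
        rw [← preserves_toEnd g]
        exact hall _ (Submodule.mem_map_of_mem hw)
      rw [h1, map_zero]
    · rintro _ ⟨w, hw, rfl⟩
      exact hKinv g hg w (hW3 hw)
  letI inst : MulAction (fixPerp d K) {W : Submodule F (Fin d ⊕ Fin d → F) //
      (finrank F W = m ∧ NondegOn (stdForm d) W) ∧ W ≤ K} :=
    { smul := fun g W => ⟨W.1.map (toEnd g.1), hpres g.1 g.2 W.1 W.2⟩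
      one_smul := by
        intro W
        apply Subtype.ext
        show W.1.map (toEnd (1 : Matrix.symplecticGroup (Fin d) F)) = W.1
        rw [toEnd_one]
        exact Submodule.map_id _
      mul_smul := by
        intro g h W
        apply Subtype.ext
        show W.1.map (toEnd (g.1 * h.1)) = (W.1.map (toEnd h.1)).map (toEnd g.1)
        rw [toEnd_mul]
        exact Submodule.map_comp _ _ _ }
  haveI : MulAction.IsPretransitive (fixPerp d K) {W : Submodule F (Fin d ⊕ Fin d → F) //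
      (finrank F W = m ∧ NondegOn (stdForm d) W) ∧ W ≤ K} := by
    refine ⟨fun W W' => ?_⟩
    obtain ⟨g, hg1, hg2⟩ := sp_trans_fix d K W.1 W'.1 hK W.2.1.2 W'.2.1.2 W.2.2 W'.2.2
      (by rw [W.2.1.1, W'.2.1.1])
    exact ⟨⟨g, hg2⟩, Subtype.ext hg1⟩
  have hdvd : Nat.card {W : Submodule F (Fin d ⊕ Fin d → F) //
      (finrank F W = m ∧ NondegOn (stdForm d) W) ∧ W ≤ K} ∣ Nat.card (fixPerp d K) := by
    rw [← MulAction.index_stabilizer_of_transitive (G := fixPerp d K)
      (x := (⟨W₀, hW₀⟩ : {W : Submodule F (Fin d ⊕ Fin d → F) //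
      (finrank F W = m ∧ NondegOn (stdForm d) W) ∧ W ≤ K}))]
    exact Subgroup.index_dvd_card _
  intro hr
  have hr' : r ∣ Nat.card (fixPerp d K) := dvd_trans hr hdvd
  obtain ⟨g, hg⟩ := exists_prime_orderOf_dvd_card' r hr'
  have hgr : g.1 ^ r = 1 := by
    have h1 : g ^ r = 1 := by rw [← hg]; exact pow_orderOf_eq_one g
    have h3 := congrArg Subtype.val h1
    simpa using h3
  have hTr : toEnd g.1 ^ r = 1 := by rw [← toEnd_pow, hgr, toEnd_one]
  have h1 := c_dvd (stdForm d) (stdForm_self d) (toEnd g.1) (preserves_toEnd g.1) r hrF hTr i c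
    hi hc ⊤ le_top (std_nondegOn_top d)
  rw [top_inf_eq, finrank_top, std_finrank] at h1
  have hPle : P ≤ LinearMap.ker (toEnd g.1 - 1) := by
    intro y hy
    exact (mem_ker_sub_one (toEnd g.1) y).mpr (hfixP g.1 g.2 y hy)
  have h4 := Submodule.finrank_mono hPle
  have h5 : finrank F (LinearMap.ker (toEnd g.1 - 1)) ≤ 2 * d := by
    rw [← std_finrank (F := F) d]
    exact Submodule.finrank_le _
  have h6 := Nat.eq_zero_of_dvd_of_lt h1 (by omega)
  have h7 : LinearMap.ker (toEnd g.1 - 1) = ⊤ := by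
    apply Submodule.eq_top_of_finrank_eq
    rw [std_finrank]
    omega
  have h8 : toEnd g.1 - 1 = 0 := LinearMap.ker_eq_top.mp h7
  have h9 : toEnd g.1 = toEnd 1 := by rw [toEnd_one]; exact sub_eq_zero.mp h8
  have h10 : g = 1 := Subtype.ext (toEnd_injective h9)
  rw [h10, orderOf_one] at hg
  exact hrpr.ne_one hg.symm

end Cfsg.Agent.Helper13.TIsp
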