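import Mathlib
import Cfsg.Agent.Helper13.TKDefs
import Cfsg.Agent.Helper34.TKATOMINV
import Cfsg.Agent.Helper99.TKSEL2
import Cfsg.Agent.Helper37.TKBAD2M
import Cfsg.Agent.Helper60.TKBAD2D
import Cfsg.Agent.Helper72.TKSTRUCT
import Cfsg.Agent.Helper72.TKMODELALL
import Cfsg.Agent.Helper37.TKJTADD
import Cfsg.Agent.Helper37.TKMSEXT
import Cfsg.Agent.Helper37.TKDARITH
import Cfsg.Agent.Helper37.TKFIXCONGR
import Cfsg.Agent.Helper13.TKNDSUBCARD

set_option autoImplicit false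

/-!
# S5956: assemblies (helper13)
-/

namespace Cfsg.Agent.Helper13.TIsp

open Module Polynomial
open Cfsg.Agent.Helper42.SpForm Cfsg.Agent.Helper42.SpGroup Cfsg.Agent.Helper42.SpModels
open Cfsg.Agent.Helper90.BG Cfsg.Agent.Helper30
open Cfsg.Agent.Helper11.TI5955 Cfsg.Agent.Helper58.TI5955 Cfsg.Agent.Helper59.TI5955
open Cfsg.Agent.Helper51.TI5955 Cfsg.Agent.Helper70.TI5955
open Cfsg.Agent.Helper39.TI5961 Cfsg.Agent.Helper58.TI5961 Cfsg.Agent.Helper59.TI5961
open Cfsg.Agent.Helper60.TI5961 Cfsg.Agent.Helper31.TI5961 Cfsg.Agent.Helper19.TI5961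
open Cfsg.Agent.Helper34.TI5956
open Cfsg.Agent.Helper37.TI5956
open Cfsg.Agent.Helper60.TI5956
open Cfsg.Agent.Helper72.TI5956
open Cfsg.Agent.Helper99.TI5956

variable {F : Type*} [Field F]

theorem nd_iff (d : ℕ) (W : Submodule F (Fin d ⊕ Fin d → F)) :
    NondegOn (stdForm d) W ↔ (∀ u ∈ W, u ≠ 0 → ∃ v ∈ W, Cfsg.sympForm d F u v ≠ 0) := by
  constructor
  · intro h u hu hu0
    by_contra hcon
    push Not at hcon
    exact hu0 (h u hu (fun w hw => by rw [bgSp_stdForm_eq]; exact hcon w hw))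
  · intro h u hu hall
    by_contra hu0
    obtain ⟨v, hv, hne⟩ := h u hu hu0
    exact hne (by rw [← bgSp_stdForm_eq]; exact hall v hv)

theorem neg_toEnd_pow (d : ℕ) (x : Matrix.symplecticGroup (Fin d) F) (k : ℕ) :
    (-toEnd x) ^ k = ((-1 : F) ^ k) • toEnd x ^ k := by
  induction k with
  | zero => simp
  | succ k ih =>
    rw [pow_succ, ih, pow_succ, pow_succ]
    apply LinearMap.ext
    intro v
    simp [Module.End.mul_apply]

/-- reduction to `T ^ r = 1` for odd `r` -/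
theorem red_odd (d : ℕ) (hd : 1 ≤ d) (r : ℕ) (hrodd : Odd r)
    (x : Matrix.symplecticGroup (Fin d) F) (z : F)
    (hz : ((x ^ r : Matrix.symplecticGroup (Fin d) F) :
      Matrix (Fin d ⊕ Fin d) (Fin d ⊕ Fin d) F) = z • 1) :
    ∃ T : Module.End F (Fin d ⊕ Fin d → F), Preserves (stdForm d) T ∧ T ^ r = 1 ∧
      (T = toEnd x ∨ T = -toEnd x) ∧
      ∀ W : Submodule F (Fin d ⊕ Fin d → F), W.map T ≤ W → W.map (toEnd x) ≤ W := by
  have hzz := sp_scal d hd z (x ^ r) hz
  have hTr := ti_toEnd_pow_scalar d r x z hz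
  rcases ti_sq_one z hzz with rfl | rfl
  · exact ⟨toEnd x, preserves_toEnd x, by rw [hTr, one_smul], Or.inl rfl, fun W h => h⟩
  · refine ⟨-toEnd x, ?_, ?_, Or.inr rfl, ?_⟩
    · intro u v
      have h5 := preserves_toEnd x u v
      simp only [LinearMap.neg_apply, map_neg, neg_neg]
      exact h5
    · rw [neg_toEnd_pow, hTr, Odd.neg_one_pow hrodd, smul_smul]
      norm_num
    · intro W h
      rintro _ ⟨w, hw, rfl⟩
      have h3 := h (Submodule.mem_map_of_mem hw)
      rw [LinearMap.neg_apply] at h3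
      simpa using W.neg_mem h3

section fin

variable [Fintype F]

/-- case (d), (⟸) -/
theorem d_back (p : ℕ) [Fact p.Prime] [CharP F p] (d m : ℕ) (hd : 1 ≤ d) (hme : Even m)
    (hm2d : m ≤ 2 * d) (r : ℕ) [Fact r.Prime] (hr2 : 2 < r) (hrp : r ≠ p) (i c : ℕ)
    (hi : i = orderOf ((Fintype.card F : ℕ) : ZMod r)) (hc : c = if Even i then i else 2 * i)
    (hcm : c ≤ m) (hk : m % c ≤ (2 * d) % c)
    (x : Matrix.symplecticGroup (Fin d) F) (z : F)
    (hz : ((x ^ r : Matrix.symplecticGroup (Fin d) F) :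
      Matrix (Fin d ⊕ Fin d) (Fin d ⊕ Fin d) F) = z • 1) :
    ∃ W : Submodule F (Fin d ⊕ Fin d → F), finrank F W = m ∧ NondegOn (stdForm d) W ∧
      W.map (toEnd x) ≤ W := by
  have hrpr : r.Prime := Fact.out
  have hrodd : Odd r := hrpr.odd_of_ne_two (by omega)
  have hr0 : 0 < r := hrpr.pos
  obtain ⟨hrF, hrq⟩ := ti_char_facts (F := F) p r hrp
  obtain ⟨hi0, hir⟩ := ord_pos r (Fintype.card F) hrq
  rw [← hi] at hi0 hir
  have hcpos : 0 < c := by
    rw [hc]
    split_ifs <;> omega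
  have hceven : Even c := by
    rw [hc]
    split_ifs with hie
    · exact hie
    · exact even_two_mul i
  obtain ⟨T, hT, hTr, -, hTinv⟩ := red_odd d hd r hrodd x z hz
  obtain ⟨hDT, hcompl, hCD, hDC, hCnd, hDnd⟩ :=
    ti_fix (stdForm d) (stdForm_self d) (stdForm_nondeg d) T hT r hrF hTr
  obtain ⟨h, hh, hrk⟩ := range_dim d T hT r hrF hTr i c hi hc
  obtain ⟨h₁, e₁, hh₁, he₁, hsum⟩ := d_arith c m (2 * d) h hcpos hceven hme hcm hm2d
    (by omega) hk
  have hfix : ∀ v ∈ LinearMap.ker (T - 1), T v = v := fun v hv => (mem_ker_sub_one T v).mp hv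
  have hCT : (LinearMap.ker (T - 1)).map T ≤ LinearMap.ker (T - 1) := by
    rintro _ ⟨v, hv, rfl⟩
    rw [hfix v hv]
    exact hv
  obtain ⟨WR, hWR1, hWR2, hWR3, hWR4⟩ := nd_grow (stdForm d) (stdForm_self d) T hT r hr0 hTr c
    hcpos (LinearMap.range (T - 1))
    (fun N hNle hNT hNnd hN0 => atom_d (stdForm d) (stdForm_self d) T hT r hr2 hrF hTr i c hi hc
      N hNT hNnd hN0 (by
        rw [eq_bot_iff]
        intro v hv
        have h1 : v ∈ LinearMap.ker (T - 1) ⊓ LinearMap.range (T - 1) := ⟨hv.2, hNle hv.1⟩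
        rw [hcompl.inf_eq_bot] at h1
        exact h1))
    (LinearMap.range (T - 1)) le_rfl hDT hDnd h₁ (by rw [hh]; exact Nat.mul_le_mul_left c hh₁)
  obtain ⟨WK, hWK1, hWK2, hWK3, hWK4⟩ := nd_grow (stdForm d) (stdForm_self d) T hT r hr0 hTr 2
    (by norm_num) (LinearMap.ker (T - 1))
    (fun N hNle _ hNnd hN0 => by
      obtain ⟨E, hE1, hE2, hE3⟩ := atom_c (stdForm d) (stdForm_self d) N hNnd hN0
      refine ⟨E, hE1, ?_, hE2, hE3⟩
      rintro _ ⟨v, hv, rfl⟩
      rw [hfix v (hNle (hE1 hv))]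
      exact hv)
    (LinearMap.ker (T - 1)) le_rfl hCT hCnd e₁ (by omega)
  obtain ⟨hnd', -, hdim'⟩ := nd_sum (stdForm d) WK WR hWK3 hWR3
    (fun u hu v hv => hCD u (hWK1 hu) v (hWR1 hv)) (fun u hu v hv => hDC u (hWR1 hu) v (hWK1 hv))
  refine ⟨WK ⊔ WR, by rw [hdim', hWK4, hWR4]; omega, hnd', hTinv _ ?_⟩
  rw [Submodule.map_sup]
  exact sup_le_sup hWK2 hWR2

/-- a nondegenerate subspace of given even dimension inside a nondegenerate `K` -/
theorem nd_sub_exists {V : Type*} [AddCommGroup V] [Module F V] [FiniteDimensional F V]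
    (B : LinearMap.BilinForm F V) (halt : ∀ v, B v v = 0) (K : Submodule F V) (hK : NondegOn B K)
    (e : ℕ) (he : 2 * e ≤ finrank F K) :
    ∃ W : Submodule F V, W ≤ K ∧ NondegOn B W ∧ finrank F W = 2 * e := by
  obtain ⟨W, h1, -, h3, h4⟩ := nd_grow B halt (1 : Module.End F V) (preserves_one B) 1
    Nat.one_pos (one_pow 1) 2 (by norm_num) K
    (fun N _ _ hNnd hN0 => by
      obtain ⟨E, hE1, hE2, hE3⟩ := atom_c B halt N hNnd hN0
      refine ⟨E, hE1, ?_, hE2, hE3⟩
      rintro _ ⟨v, hv, rfl⟩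
      exact hv)
    K le_rfl (by rintro _ ⟨v, hv, rfl⟩; exact hv) hK e he
  exact ⟨W, h1, h3, h4⟩

/-- case (d), (⟹) -/
theorem d_fwd (p : ℕ) [Fact p.Prime] [CharP F p] (d m : ℕ) (hd : 1 ≤ d) (hme : Even m)
    (hm2d : m < 2 * d) (r : ℕ) [Fact r.Prime] (hr2 : 2 < r) (hrp : r ≠ p)
    (hΩ : r ∣ Nat.card {W : Submodule F (Fin d ⊕ Fin d → F) //
      finrank F W = m ∧ NondegOn (stdForm d) W})
    (i c : ℕ) (hi : i = orderOf ((Fintype.card F : ℕ) : ZMod r))
    (hc : c = if Even i then i else 2 * i)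
    (hL : ∀ x : Matrix.symplecticGroup (Fin d) F,
      (∃ z : F, ((x ^ r : Matrix.symplecticGroup (Fin d) F) :
        Matrix (Fin d ⊕ Fin d) (Fin d ⊕ Fin d) F) = z • 1) →
      (∀ z : F, (x : Matrix (Fin d ⊕ Fin d) (Fin d ⊕ Fin d) F) ≠ z • 1) →
      ∃ W : Submodule F (Fin d ⊕ Fin d → F), finrank F W = m ∧ NondegOn (stdForm d) W ∧
        W.map (toEnd x) ≤ W) :
    c ≤ m ∧ m % c ≤ (2 * d) % c := by
  classical
  have hrpr : r.Prime := Fact.out
  have hrodd : Odd r := hrpr.odd_of_ne_two (by omega)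
  obtain ⟨hrF, hrq⟩ := ti_char_facts (F := F) p r hrp
  obtain ⟨hi0, hir⟩ := ord_pos r (Fintype.card F) hrq
  rw [← hi] at hi0 hir
  have hcpos : 0 < c := by
    rw [hc]
    split_ifs <;> omega
  have hceven : 2 ∣ c := by
    rw [hc]
    split_ifs with hie
    · exact hie.two_dvd
    · exact dvd_mul_right 2 i
  have hkeven : 2 ∣ (2 * d) % c := (Nat.dvd_mod_iff hceven).mpr (dvd_mul_right 2 d)
  have hklt : (2 * d) % c < c := Nat.mod_lt _ hcpos
  obtain ⟨m', hm'⟩ := hme
  -- the bad element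
  have hbad : c ≤ 2 * d → ∃ g : Matrix.symplecticGroup (Fin d) F, toEnd g ^ r = 1 ∧
      toEnd g ≠ 1 ∧ finrank F (LinearMap.ker (toEnd g - 1)) = (2 * d) % c := by
    intro hc2d
    obtain ⟨e', he'⟩ := hkeven
    have hu : 1 ≤ 2 * d / c := (Nat.one_le_div_iff hcpos).mpr hc2d
    obtain ⟨g, hg1, hg2, hg3⟩ := bad_ab F p r hr2 hrp i c hi hc d (2 * d / c) e' hu
      (by have := Nat.div_add_mod (2 * d) c; omega)
    exact ⟨g, hg1, hg2, by rw [hg3, he']⟩
  -- analysis of invariant subspaces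
  have hana : ∀ g : Matrix.symplecticGroup (Fin d) F, toEnd g ^ r = 1 →
      ∀ W : Submodule F (Fin d ⊕ Fin d → F), finrank F W = m → NondegOn (stdForm d) W →
      W.map (toEnd g) ≤ W →
      c ∣ m - finrank F (W ⊓ LinearMap.ker (toEnd g - 1) : Submodule F (Fin d ⊕ Fin d → F)) := by
    intro g hg W hW1 hW2 hW3
    have h3 := c_dvd (stdForm d) (stdForm_self d) (toEnd g) (preserves_toEnd g) r hrF hg i c
      hi hc W hW3 hW2
    rwa [hW1] at h3
  -- step 1: counting
  have hcnt : (2 * d) % c < m := by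
    by_contra hge
    push Not at hge
    obtain ⟨K, hK, hKc, hKm, hrK⟩ : ∃ K : Submodule F (Fin d ⊕ Fin d → F),
        NondegOn (stdForm d) K ∧ finrank F K < c ∧ m ≤ finrank F K ∧
        r ∣ Nat.card {W : Submodule F (Fin d ⊕ Fin d → F) //
          (finrank F W = m ∧ NondegOn (stdForm d) W) ∧ W ≤ K} := by
      by_cases hc2d : c ≤ 2 * d
      · obtain ⟨g, hg1, hg2, hg3⟩ := hbad hc2d
        obtain ⟨-, -, -, -, hCnd, -⟩ := ti_fix (stdForm d) (stdForm_self d) (stdForm_nondeg d)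
          (toEnd g) (preserves_toEnd g) r hrF hg1
        refine ⟨LinearMap.ker (toEnd g - 1), hCnd, by rw [hg3]; exact hklt, by rw [hg3]; exact hge,
          ?_⟩
        have h1 := fix_congr d m r g hg1
        have h2 := (h1.dvd_iff (dvd_refl r)).mp hΩ
        have h3 : Nat.card {W : Submodule F (Fin d ⊕ Fin d → F) //
            (finrank F W = m ∧ NondegOn (stdForm d) W) ∧ W.map (toEnd g) ≤ W} =
            Nat.card {W : Submodule F (Fin d ⊕ Fin d → F) //
            (finrank F W = m ∧ NondegOn (stdForm d) W) ∧ W ≤ LinearMap.ker (toEnd g - 1)} := by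
          apply Nat.card_congr
          apply Equiv.subtypeEquivRight
          intro W
          constructor
          · rintro ⟨⟨hW1, hW2⟩, hW3⟩
            refine ⟨⟨hW1, hW2⟩, ?_⟩
            have h4 := hana g hg1 W hW1 hW2 hW3
            have h5 : finrank F (W ⊓ LinearMap.ker (toEnd g - 1) :
                Submodule F (Fin d ⊕ Fin d → F)) ≤ finrank F W :=
              Submodule.finrank_mono inf_le_left
            have h6 := Nat.eq_zero_of_dvd_of_lt h4 (by omega)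
            have h7 : W ⊓ LinearMap.ker (toEnd g - 1) = W :=
              Submodule.eq_of_le_of_finrank_eq inf_le_left (by omega)
            rw [← h7]
            exact inf_le_right
          · rintro ⟨⟨hW1, hW2⟩, hW3⟩
            refine ⟨⟨hW1, hW2⟩, ?_⟩
            rintro _ ⟨w, hw, rfl⟩
            rw [(mem_ker_sub_one (toEnd g) w).mp (hW3 hw)]
            exact hw
        rw [← h3]
        exact h2
      · push Not at hc2d
        refine ⟨⊤, std_nondegOn_top d, by rw [finrank_top, std_finrank]; exact hc2d,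
          by rw [finrank_top, std_finrank]; omega, ?_⟩
        have h3 : Nat.card {W : Submodule F (Fin d ⊕ Fin d → F) //
            (finrank F W = m ∧ NondegOn (stdForm d) W) ∧ W ≤ ⊤} =
            Nat.card {W : Submodule F (Fin d ⊕ Fin d → F) //
            finrank F W = m ∧ NondegOn (stdForm d) W} := by
          apply Nat.card_congr
          apply Equiv.subtypeEquivRight
          intro W
          exact and_iff_left le_top
        rw [h3]
        exact hΩ
    obtain ⟨W₀, hW₀1, hW₀2, hW₀3⟩ := nd_sub_exists (stdForm d) (stdForm_self d) K hK m'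
      (by omega)
    exact nd_sub_card p r hr2 hrp i c hi hc d m K hK hKc W₀ ⟨⟨by omega, hW₀2⟩, hW₀1⟩ hrK
  -- step 2
  have hc2d : c ≤ 2 * d := by
    by_contra hlt
    push Not at hlt
    rw [Nat.mod_eq_of_lt hlt] at hcnt
    omega
  obtain ⟨g, hg1, hg2, hg3⟩ := hbad hc2d
  have hgr : g ^ r = 1 := toEnd_injective (by rw [toEnd_pow, hg1, toEnd_one])
  obtain ⟨W, hW1, hW2, hW3⟩ := hL g ⟨1, by rw [hgr]; simp⟩ (sp_nonscalar d hd r hrodd g hg1 hg2)
  have h4 := hana g hg1 W hW1 hW2 hW3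
  have h5 : finrank F (W ⊓ LinearMap.ker (toEnd g - 1) : Submodule F (Fin d ⊕ Fin d → F)) ≤
      finrank F W := Submodule.finrank_mono inf_le_left
  have h6 : finrank F (W ⊓ LinearMap.ker (toEnd g - 1) : Submodule F (Fin d ⊕ Fin d → F)) ≤
      finrank F (LinearMap.ker (toEnd g - 1)) := Submodule.finrank_mono inf_le_right
  rw [hW1] at h5
  rw [hg3] at h6
  obtain ⟨j, hj⟩ := h4
  have h7 : m = finrank F (W ⊓ LinearMap.ker (toEnd g - 1) : Submodule F (Fin d ⊕ Fin d → F)) +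
      c * j := by omega
  have h8 : m % c = finrank F (W ⊓ LinearMap.ker (toEnd g - 1) :
      Submodule F (Fin d ⊕ Fin d → F)) := by
    conv_lhs => rw [h7]
    rw [Nat.add_mul_mod_self_left]
    exact Nat.mod_eq_of_lt (by omega)
  refine ⟨?_, by rw [h8]; exact h6⟩
  by_contra hlt
  push Not at hlt
  have hj0 : j = 0 := by
    by_contra hj0
    have h9 : c * 1 ≤ c * j := Nat.mul_le_mul_left c (by omega)
    omega
  subst hj0
  omega

end fin

section cases

/-- case (c): `r = 2 ≠ p` -/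
theorem c_back (d m : ℕ) (hd : 1 ≤ d) (hme : Even m) (hm2d : m ≤ 2 * d) (h2 : (2 : F) ≠ 0)
    (x : Matrix.symplecticGroup (Fin d) F) (z : F)
    (hz : ((x ^ 2 : Matrix.symplecticGroup (Fin d) F) :
      Matrix (Fin d ⊕ Fin d) (Fin d ⊕ Fin d) F) = z • 1) :
    ∃ W : Submodule F (Fin d ⊕ Fin d → F), finrank F W = m ∧ NondegOn (stdForm d) W ∧
      W.map (toEnd x) ≤ W := by
  have hzz := sp_scal d hd z (x ^ 2) hz
  have hTr := ti_toEnd_pow_scalar d 2 x z hz
  have hT2 : toEnd x ^ 2 = 1 ∨ toEnd x ^ 2 = -1 := by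
    rcases ti_sq_one z hzz with rfl | rfl
    · left; rw [hTr, one_smul]
    · right
      rw [hTr]
      apply LinearMap.ext
      intro v
      simp
  have hT4 : toEnd x ^ 4 = 1 := by
    have h4 : toEnd x ^ 4 = (toEnd x ^ 2) ^ 2 := by rw [← pow_mul]
    rw [h4]
    rcases hT2 with h | h
    · rw [h, one_pow]
    · rw [h, pow_two]
      apply LinearMap.ext
      intro v
      simp
  obtain ⟨m', hm'⟩ := hme
  obtain ⟨W, -, h2', h3, h4⟩ := nd_grow (stdForm d) (stdForm_self d) (toEnd x) (preserves_toEnd x)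
    4 (by norm_num) hT4 2 (by norm_num) ⊤
    (fun N _ hNT hNnd hN0 => atom_inv (stdForm d) (stdForm_self d) h2 (toEnd x)
      (preserves_toEnd x) hT2 N hNT hNnd hN0)
    ⊤ le_rfl le_top (std_nondegOn_top d) m' (by rw [finrank_top, std_finrank]; omega)
  exact ⟨W, by omega, h3, h2'⟩

theorem neg_one_eq_one_of_two (h2 : (2 : F) = 0) : (-1 : F) = 1 := by
  linear_combination (-1 : F) * h2

/-- case (b), (⟸) -/
theorem b_back (d m : ℕ) (hd : 1 ≤ d) (hme : Even m) (hm2d : m ≤ 2 * d) (h2 : (2 : F) = 0)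
    (hcond : (2 * d) % 4 = 2 ∨ m % 4 = 0)
    (x : Matrix.symplecticGroup (Fin d) F) (z : F)
    (hz : ((x ^ 2 : Matrix.symplecticGroup (Fin d) F) :
      Matrix (Fin d ⊕ Fin d) (Fin d ⊕ Fin d) F) = z • 1) :
    ∃ W : Submodule F (Fin d ⊕ Fin d → F), finrank F W = m ∧ NondegOn (stdForm d) W ∧
      W.map (toEnd x) ≤ W := by
  have hzz := sp_scal d hd z (x ^ 2) hz
  have hTr := ti_toEnd_pow_scalar d 2 x z hz
  have hT2 : toEnd x ^ 2 = 1 := by
    rcases ti_sq_one z hzz with rfl | rfl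
    · rw [hTr, one_smul]
    · rw [hTr, neg_one_eq_one_of_two h2, one_smul]
  obtain ⟨W, -, h2', h3, h4⟩ := sel_two (stdForm d) (stdForm_self d) h2 (toEnd x)
    (preserves_toEnd x) hT2 ⊤ le_top (std_nondegOn_top d) m hme
    (by rw [finrank_top, std_finrank]; exact hm2d)
    (by rw [finrank_top, std_finrank]; exact hcond.symm)
  exact ⟨W, h4, h3, h2'⟩

/-- case (b), (⟹) -/
theorem b_fwd (d m : ℕ) (hd : 2 ≤ d) (hme : Even m) (h2 : (2 : F) = 0)
    (hL : ∀ x : Matrix.symplecticGroup (Fin d) F,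
      (∃ z : F, ((x ^ 2 : Matrix.symplecticGroup (Fin d) F) :
        Matrix (Fin d ⊕ Fin d) (Fin d ⊕ Fin d) F) = z • 1) →
      (∀ z : F, (x : Matrix (Fin d ⊕ Fin d) (Fin d ⊕ Fin d) F) ≠ z • 1) →
      ∃ W : Submodule F (Fin d ⊕ Fin d → F), finrank F W = m ∧ NondegOn (stdForm d) W ∧
        W.map (toEnd x) ≤ W) :
    (2 * d) % 4 = 2 ∨ m % 4 = 0 := by
  by_contra hcon
  push Not at hcon
  obtain ⟨hc1, hc2⟩ := hcon
  have hde : Even d := by
    rw [Nat.even_iff]
    omega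
  obtain ⟨g, hg1, hg2, hg3, hg4⟩ := bad_two_model (F := F) d (by omega) hde h2
  have hgr : g ^ 2 = 1 := toEnd_injective (by rw [toEnd_pow, hg1, toEnd_one])
  have hns : ∀ z : F, (g : Matrix (Fin d ⊕ Fin d) (Fin d ⊕ Fin d) F) ≠ z • 1 := by
    intro z hgz
    have hzz := sp_scal d (by omega) z g hgz
    have hz1 : z = 1 := by
      rcases ti_sq_one z hzz with h | h
      · exact h
      · rw [h, neg_one_eq_one_of_two h2]
    apply hg2
    have h5 : g = 1 := by
      apply Subtype.ext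
      rw [hgz, hz1, one_smul]
      rfl
    rw [h5, toEnd_one]
  obtain ⟨W, hW1, hW2, hW3⟩ := hL g ⟨1, by rw [hgr]; simp⟩ hns
  have h6 := bad_two_dvd (stdForm d) (stdForm_self d) (stdForm_nondeg d) h2 (toEnd g)
    (preserves_toEnd g) hg1 hg3 hg4 W hW3 hW2
  rw [hW1] at h6
  obtain ⟨m', hm'⟩ := hme
  omega

/-- the dimension of a subspace from its Jordan type -/
theorem jt_sum {V : Type*} [AddCommGroup V] [Module F V] (N : Module.End F V) (p : ℕ)
    (hN : N ^ p = 0) (Z : Submodule F V) (l : Multiset ℕ) (hl : JT N Z l)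
    (hp : ∀ a ∈ l, a ≤ p) : finrank F Z = l.sum := by
  have h1 := hl p
  rw [hN, LinearMap.ker_zero, inf_top_eq] at h1
  rw [h1]
  have h2 : l.map (fun a => min a p) = l.map (fun a => a) :=
    Multiset.map_congr rfl (fun a ha => min_eq_left (hp a ha))
  rw [h2, Multiset.map_id']

theorem sub_one_pow_char (p : ℕ) [Fact p.Prime] [CharP F p] (d : ℕ) (hd : 1 ≤ d)
    (T : Module.End F (Fin d ⊕ Fin d → F)) (hT : T ^ p = 1) : (T - 1) ^ p = 0 := by
  have : Nonempty (Fin d ⊕ Fin d) := ⟨Sum.inl ⟨0, hd⟩⟩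
  have : Nontrivial (Fin d ⊕ Fin d → F) := inferInstance
  have hinj : Function.Injective (algebraMap F (Module.End F (Fin d ⊕ Fin d → F))) := by
    intro c c' h
    obtain ⟨v, hv⟩ := exists_ne (0 : Fin d ⊕ Fin d → F)
    have h1 := congrArg (fun g : Module.End F (Fin d ⊕ Fin d → F) => g v) h
    simp only [Module.algebraMap_end_apply] at h1
    exact smul_left_injective F hv h1
  haveI : CharP (Module.End F (Fin d ⊕ Fin d → F)) p := charP_of_injective_algebraMap hinj p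
  rw [sub_pow_char_of_commute p (Commute.one_right T), hT, one_pow, sub_self]

/-- case (a), (⟸) -/
theorem p_back (p : ℕ) [Fact p.Prime] [CharP F p] (hp2 : 2 < p) (d m : ℕ) (hd : 1 ≤ d)
    (hPC : ∀ μ : Multiset ℕ, (∀ a ∈ μ, 0 < a ∧ a ≤ p) → (∀ a : ℕ, Odd a → Even (μ.count a)) →
      μ.sum = 2 * d → ∃ ν : Multiset ℕ, ν ≤ μ ∧ ν.sum = m ∧ ∀ a : ℕ, Odd a → Even (ν.count a))
    (x : Matrix.symplecticGroup (Fin d) F) (z : F)
    (hz : ((x ^ p : Matrix.symplecticGroup (Fin d) F) :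
      Matrix (Fin d ⊕ Fin d) (Fin d ⊕ Fin d) F) = z • 1) :
    ∃ W : Submodule F (Fin d ⊕ Fin d → F), finrank F W = m ∧ NondegOn (stdForm d) W ∧
      W.map (toEnd x) ≤ W := by
  have hpp : p.Prime := Fact.out
  have hpodd : Odd p := hpp.odd_of_ne_two (by omega)
  have h2 : (2 : F) ≠ 0 := by
    intro h
    have h3 : ((2 : ℕ) : F) = 0 := by exact_mod_cast h
    have h4 := (CharP.cast_eq_zero_iff F p 2).mp h3
    have h5 := Nat.le_of_dvd (by norm_num) h4
    omega
  obtain ⟨T, hT, hTp, -, hTinv⟩ := red_odd d hd p hpodd x z hz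
  have hNp := sub_one_pow_char p d hd T hTp
  obtain ⟨μ, hJT, hpos, hpar, hsel⟩ := struct_p (stdForm d) (stdForm_self d) h2 T hT p hpp.pos
    hTp p hNp ⊤ le_top (std_nondegOn_top d)
  have hsum : μ.sum = 2 * d := by
    rw [← jt_sum (T - 1) p hNp ⊤ μ hJT (fun a ha => (hpos a ha).2), finrank_top, std_finrank]
  obtain ⟨ν, hle, hνs, hνp⟩ := hPC μ hpos hpar hsum
  obtain ⟨W, -, hW2, hW3, hW4⟩ := hsel ν hle hνp
  exact ⟨W, by rw [hW4, hνs], hW3, hTinv W hW2⟩

/-- case (a), (⟹) -/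
theorem p_fwd (p : ℕ) [Fact p.Prime] [CharP F p] (hp2 : 2 < p) (d m : ℕ) (hd : 1 ≤ d)
    (hme : Even m) (hm2d : m ≤ 2 * d)
    (hL : ∀ x : Matrix.symplecticGroup (Fin d) F,
      (∃ z : F, ((x ^ p : Matrix.symplecticGroup (Fin d) F) :
        Matrix (Fin d ⊕ Fin d) (Fin d ⊕ Fin d) F) = z • 1) →
      (∀ z : F, (x : Matrix (Fin d ⊕ Fin d) (Fin d ⊕ Fin d) F) ≠ z • 1) →
      ∃ W : Submodule F (Fin d ⊕ Fin d → F), finrank F W = m ∧ NondegOn (stdForm d) W ∧
        W.map (toEnd x) ≤ W)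
    (μ : Multiset ℕ) (hμ : ∀ a ∈ μ, 0 < a ∧ a ≤ p) (hodd : ∀ a : ℕ, Odd a → Even (μ.count a))
    (hsum : μ.sum = 2 * d) :
    ∃ ν : Multiset ℕ, ν ≤ μ ∧ ν.sum = m ∧ ∀ a : ℕ, Odd a → Even (ν.count a) := by
  classical
  have hpp : p.Prime := Fact.out
  have hpodd : Odd p := hpp.odd_of_ne_two (by omega)
  have h2 : (2 : F) ≠ 0 := by
    intro h
    have h3 : ((2 : ℕ) : F) = 0 := by exact_mod_cast h
    have h4 := (CharP.cast_eq_zero_iff F p 2).mp h3
    have h5 := Nat.le_of_dvd (by norm_num) h4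
    omega
  by_cases hall : ∀ a ∈ μ, a = 1
  · have h1 : μ = Multiset.replicate (Multiset.card μ) 1 := Multiset.eq_replicate.mpr ⟨rfl, hall⟩
    have h3 : Multiset.card μ = 2 * d := by
      rw [h1, Multiset.sum_replicate, smul_eq_mul, mul_one] at hsum
      exact hsum
    refine ⟨Multiset.replicate m 1, ?_, by rw [Multiset.sum_replicate, smul_eq_mul, mul_one], ?_⟩
    · rw [h1, Multiset.replicate_le_replicate, h3]
      exact hm2d
    · intro a _
      rw [Multiset.count_replicate]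
      split_ifs
      · exact hme
      · exact Even.zero
  · push Not at hall
    obtain ⟨a₀, ha₀, ha₀1⟩ := hall
    obtain ⟨g, hg, hJT⟩ := model_all (F := F) p h2 μ hμ hodd d hsum
    have hNp := sub_one_pow_char p d hd (toEnd g) hg
    have hne : toEnd g ≠ 1 := by
      intro h1
      have h3 := hJT 1
      rw [h1, sub_self, pow_one, LinearMap.ker_zero, inf_top_eq, finrank_top, std_finrank] at h3
      have h4 : μ.map (fun a => min a 1) = μ.map (fun _ => 1) :=
        Multiset.map_congr rfl (fun a ha => min_eq_right (hμ a ha).1)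
      rw [h4, Multiset.map_const', Multiset.sum_replicate, smul_eq_mul, mul_one] at h3
      obtain ⟨μ', rfl⟩ := Multiset.exists_cons_of_mem ha₀
      rw [Multiset.sum_cons] at hsum
      rw [Multiset.card_cons] at h3
      have h5 : Multiset.card μ' • 1 ≤ μ'.sum := Multiset.card_nsmul_le_sum
        (fun a ha => (hμ a (Multiset.mem_cons_of_mem ha)).1)
      rw [smul_eq_mul, mul_one] at h5
      have h6 := (hμ a₀ (Multiset.mem_cons_self a₀ μ')).1
      omega
    have hgr : g ^ p = 1 := toEnd_injective (by rw [toEnd_pow, hg, toEnd_one])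
    obtain ⟨W, hW1, hW2, hW3⟩ := hL g ⟨1, by rw [hgr]; simp⟩ (sp_nonscalar d hd p hpodd g hg hne)
    obtain ⟨P, -, hPT, hPnd, hdisj, hsup, -, -, -⟩ := nd_perp (stdForm d) (stdForm_self d) (toEnd g)
      (preserves_toEnd g) p hpp.pos hg ⊤ W (std_nondegOn_top d) hW2 le_top le_top hW3
    obtain ⟨ν, hJν, hposν, hparν, -⟩ := struct_p (stdForm d) (stdForm_self d) h2 (toEnd g)
      (preserves_toEnd g) p hpp.pos hg p hNp W hW3 hW2
    obtain ⟨ν', hJν', hposν', -, -⟩ := struct_p (stdForm d) (stdForm_self d) h2 (toEnd g)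
      (preserves_toEnd g) p hpp.pos hg p hNp P hPT hPnd
    have hinv : ∀ Z : Submodule F (Fin d ⊕ Fin d → F), Z.map (toEnd g) ≤ Z →
        ∀ v ∈ Z, (toEnd g - 1) v ∈ Z := by
      intro Z hZ v hv
      rw [LinearMap.sub_apply, Module.End.one_apply]
      exact Z.sub_mem (hZ (Submodule.mem_map_of_mem hv)) hv
    have hadd := jt_add (toEnd g - 1) W P (hinv W hW3) (hinv P hPT) hdisj ν ν' hJν hJν'
    rw [hsup] at hadd
    have heq : ν + ν' = μ := by
      apply ms_min_ext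
      · intro a ha
        rcases Multiset.mem_add.mp ha with h | h
        · exact (hposν a h).1
        · exact (hposν' a h).1
      · exact fun a ha => (hμ a ha).1
      · intro k
        rw [← hadd k, ← hJT k]
    refine ⟨ν, by rw [← heq]; exact Multiset.le_add_right ν ν', ?_, hparν⟩
    rw [← jt_sum (toEnd g - 1) p hNp W ν hJν (fun a ha => (hposν a ha).2), hW1]

end cases

end Cfsg.Agent.Helper13.TIsp
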