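import Mathlib
import Cfsg.Agent.Helper13.TKMain
import Cfsg.Agent.Helper13.WittHerm
import Cfsg.Agent.Helper13.HermBasis
import Cfsg.Agent.Helper44.UnitaryOrder
import Cfsg.Agent.Helper42.SpStruct

set_option autoImplicit false

/-!
# S5954: hub (helper13).  Imports the S5955 / S5961 / S5956 machinery, the Hermitian Witt lemma,
orthonormal bases, and helper44's unitary counting; defines `UPres`, `UNd`, `stdH`, `UAll`.
-/

namespace Cfsg.Agent.Helper13.TIu

variable {F : Type*} [Field F] {σ : F →+* F} {V : Type*} [AddCommGroup V] [Module F V]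

/-- `T` is an isometry of the sesquilinear form `B` (semilinear in the first argument). -/
def UPres (B : V →ₛₗ[σ] V →ₗ[F] F) (T : Module.End F V) : Prop :=
  ∀ u v, B (T u) (T v) = B u v

/-- `B` is nondegenerate on the subspace `W`. -/
def UNd (B : V →ₛₗ[σ] V →ₗ[F] F) (W : Submodule F V) : Prop :=
  ∀ v ∈ W, (∀ w ∈ W, B v w = 0) → v = 0

/-- The standard Hermitian form `stdH σ n x y = ∑ i, y i * σ (x i)` on `Fin n → F`. -/
abbrev stdH (σ : F →+* F) (n : ℕ) : (Fin n → F) →ₛₗ[σ] (Fin n → F) →ₗ[F] F :=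
  Cfsg.Agent.Helper44.hBg σ (Fin n)

theorem stdH_apply (σ : F →+* F) (n : ℕ) (x y : Fin n → F) :
    stdH σ n x y = ∑ i, y i * σ (x i) := rfl

theorem stdH_symm (σ : F →+* F) (hσ2 : ∀ a, σ (σ a) = a) (n : ℕ) : (stdH σ n).IsSymm :=
  Cfsg.Agent.Helper44.hBg_isSymm σ hσ2 (Fin n)

theorem stdH_nd_top (σ : F →+* F) (n : ℕ) : UNd (stdH σ n) ⊤ := by
  intro v _ h
  exact (Cfsg.Agent.Helper44.hBg_nondegenerate σ (Fin n)).1 v (fun w => h w Submodule.mem_top)

/-- Every admissible isometry `T` of `stdH σ n` (determinant `1`, `T ^ r` scalar, `T` not scalar)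
fixes a nondegenerate `m`-space. -/
def UAll (σ : F →+* F) (n m r : ℕ) : Prop :=
  ∀ T : Module.End F (Fin n → F), UPres (stdH σ n) T → LinearMap.det T = 1 →
    (∃ z : F, T ^ r = z • (1 : Module.End F (Fin n → F))) →
    (∀ z : F, T ≠ z • (1 : Module.End F (Fin n → F))) →
    ∃ W : Submodule F (Fin n → F), Module.finrank F W = m ∧ UNd (stdH σ n) W ∧ W.map T ≤ W

end Cfsg.Agent.Helper13.TIu
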