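import Mathlib

set_option autoImplicit false

namespace Cfsg.Agent.Helper13

open Matrix

section tricount
variable {F : Type*} [Field F]

theorem card_lt_pairs (n : ℕ) :
    Fintype.card {p : Fin n × Fin n // p.2 < p.1} = n * (n - 1) / 2 := by
  rw [Fintype.card_subtype, Finset.card_filter, ← Finset.univ_product_univ, Finset.sum_product]
  have h1 : ∀ i : Fin n, ∑ j : Fin n, (if j < i then 1 else 0) = (i : ℕ) := by
    intro i
    rw [← Finset.card_filter]
    have h2 : Finset.univ.filter (fun j : Fin n => j < i) = Finset.Iio i := by ext; simp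
    rw [h2, Fin.card_Iio]
  simp only [h1]
  rw [Fin.sum_univ_eq_sum_range (fun i => i) n, Finset.sum_range_id]

/-- lower triangular matrices with non-zero diagonal, parametrised by diagonal and strictly
lower entries. -/
def lowerTriEquiv (n : ℕ) :
    {M : Matrix (Fin n) (Fin n) F // (∀ i j, i < j → M i j = 0) ∧ ∀ i, M i i ≠ 0} ≃
      (Fin n → Fˣ) × ({p : Fin n × Fin n // p.2 < p.1} → F) where
  toFun M := (fun i => Units.mk0 (M.1 i i) (M.2.2 i), fun p => M.1 p.1.1 p.1.2)
  invFun x := ⟨fun i j => if h : j < i then x.2 ⟨(i, j), h⟩ else if i = j then (x.1 i : F) else 0, by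
      constructor
      · intro i j hij
        simp [not_lt.mpr hij.le, hij.ne]
      · intro i
        simp⟩
  left_inv M := by
    apply Subtype.ext
    ext i j
    simp only
    split_ifs with h1 h2
    · rfl
    · subst h2; rfl
    · have : i < j := lt_of_le_of_ne (not_lt.mp h1) h2
      exact (M.2.1 i j this).symm
  right_inv x := by
    refine Prod.ext ?_ ?_
    · funext i; apply Units.ext; simp
    · funext ⟨⟨i, j⟩, h⟩
      have h' : j < i := h
      simp [h']

/-- invertible lower triangular matrices as a subtype of `GL`. -/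
noncomputable def glLowerEquiv (n : ℕ) :
    {g : GL (Fin n) F // ∀ i j : Fin n, i < j → (g : Matrix (Fin n) (Fin n) F) i j = 0} ≃
    {M : Matrix (Fin n) (Fin n) F // (∀ i j, i < j → M i j = 0) ∧ ∀ i, M i i ≠ 0} where
  toFun g := ⟨g.1.1, g.2, by
    have hdet : (g.1.1).det ≠ 0 := ((Matrix.isUnit_iff_isUnit_det _).mp g.1.isUnit).ne_zero
    rw [Matrix.det_of_isLowerTriangular _
      (fun i j h => g.2 i j (OrderDual.toDual_lt_toDual.mp h))] at hdet
    intro i
    exact Finset.prod_ne_zero_iff.mp hdet i (Finset.mem_univ i)⟩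
  invFun M := ⟨Matrix.GeneralLinearGroup.mkOfDetNeZero M.1 (by
    rw [Matrix.det_of_isLowerTriangular _
      (fun i j h => M.2.1 i j (OrderDual.toDual_lt_toDual.mp h))]
    exact Finset.prod_ne_zero_iff.mpr (fun i _ => M.2.2 i)), M.2.1⟩
  left_inv g := Subtype.ext (Units.ext rfl)
  right_inv M := rfl

theorem card_gl_lower [Fintype F] {q : ℕ} (hF : Fintype.card F = q) (n : ℕ) :
    Nat.card {g : GL (Fin n) F // ∀ i j : Fin n, i < j → (g : Matrix (Fin n) (Fin n) F) i j = 0} =
      q ^ (n * (n - 1) / 2) * (q - 1) ^ n := by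
  classical
  rw [Nat.card_congr ((glLowerEquiv n).trans (lowerTriEquiv n)), Nat.card_prod, Nat.card_fun,
    Nat.card_fun, Nat.card_units, Nat.card_eq_fintype_card, Nat.card_eq_fintype_card,
    Nat.card_eq_fintype_card, hF, Fintype.card_fin, card_lt_pairs, mul_comm]

end tricount

end Cfsg.Agent.Helper13
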