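import Mathlib
import Cfsg.Prelude.Def_ClassicalGeometry
import Cfsg.Agent.Helper13.SpBlocks
import Cfsg.Agent.Helper13.TriCount

set_option autoImplicit false

namespace Cfsg.Agent.Helper13

open Matrix

section spborel
variable {F : Type*} [Field F] {m : ℕ}

theorem upper_tail_zero (A : Matrix (Fin m) (Fin m) F) (hup : ∀ i j : Fin m, j < i → A i j = 0)
    (hd : ∀ i, A i i ≠ 0) (w : Fin m → F) (k : ℕ)
    (h : ∀ i : Fin m, k < (i : ℕ) → (A *ᵥ w) i = 0) : ∀ i : Fin m, k < (i : ℕ) → w i = 0 := by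
  have key : ∀ d : ℕ, ∀ i : Fin m, m ≤ (i : ℕ) + d → k < (i : ℕ) → w i = 0 := by
    intro d
    induction d with
    | zero => intro i hi _; have := i.2; omega
    | succ d ih =>
      intro i hi hk
      have h1 := h i hk
      rw [Matrix.mulVec, dotProduct, Finset.sum_eq_single i] at h1
      · exact (mul_eq_zero.mp h1).resolve_left (hd i)
      · intro j _ hji
        rcases lt_or_gt_of_ne hji with hlt | hgt
        · rw [hup i j hlt, zero_mul]
        · have hij : (i : ℕ) < (j : ℕ) := hgt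
          rw [ih j (by omega) (by omega), mul_zero]
      · intro hni; exact absurd (Finset.mem_univ i) hni
  intro i hk
  exact key m i (by omega) hk

theorem upper_diag_ne_zero (A : Matrix (Fin m) (Fin m) F)
    (hup : ∀ i j : Fin m, j < i → A i j = 0) (hdet : A.det ≠ 0) : ∀ i, A i i ≠ 0 := by
  rw [Matrix.det_of_isUpperTriangular (fun i j h => hup i j h)] at hdet
  intro i
  exact Finset.prod_ne_zero_iff.mp hdet i (Finset.mem_univ i)

/-- the Borel subgroup of `Sp`: lower-left block zero and upper-left block upper triangular. -/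
theorem sp_borel_iff (g : symplecticGroup (Fin m) F) :
    g ∈ (⨅ k : Fin m, stabilizing (spToMat m F)
      {v : Fin m ⊕ Fin m → F | (∀ i : Fin m, (k : ℕ) < (i : ℕ) → v (Sum.inl i) = 0) ∧
        ∀ i : Fin m, v (Sum.inr i) = 0}) ↔
    (g : Matrix (Fin m ⊕ Fin m) (Fin m ⊕ Fin m) F).toBlocks₂₁ = 0 ∧
      ∀ i j : Fin m, j < i → (g : Matrix (Fin m ⊕ Fin m) (Fin m ⊕ Fin m) F).toBlocks₁₁ i j = 0 := by
  rw [Subgroup.mem_iInf]
  constructor
  · intro hg
    constructor
    · ext i j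
      let k : Fin m := ⟨m - 1, by have := j.2; omega⟩
      have hv : (Pi.single (Sum.inl j) (1 : F) : Fin m ⊕ Fin m → F) ∈
          {v : Fin m ⊕ Fin m → F | (∀ i : Fin m, (k : ℕ) < (i : ℕ) → v (Sum.inl i) = 0) ∧
            ∀ i : Fin m, v (Sum.inr i) = 0} := by
        refine ⟨fun i' hi' => ?_, fun i' => by simp⟩
        exfalso
        have := i'.2
        simp only [k] at hi'
        omega
      have h2 := ((hg k) _).mp hv
      have h3 := h2.2 i
      change ((g : Matrix (Fin m ⊕ Fin m) (Fin m ⊕ Fin m) F) *ᵥ Pi.single (Sum.inl j) 1) (Sum.inr i) = 0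
        at h3
      rw [Matrix.mulVec_single_one] at h3
      exact h3
    · intro i j hji
      have hv : (Pi.single (Sum.inl j) (1 : F) : Fin m ⊕ Fin m → F) ∈
          {v : Fin m ⊕ Fin m → F | (∀ i : Fin m, (j : ℕ) < (i : ℕ) → v (Sum.inl i) = 0) ∧
            ∀ i : Fin m, v (Sum.inr i) = 0} := by
        refine ⟨fun i' hi' => ?_, fun i' => by simp⟩
        have : i' ≠ j := by
          intro h; rw [h] at hi'; omega
        simp [this]
      have h2 := ((hg j) _).mp hv
      have h3 := h2.1 i hji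
      change ((g : Matrix (Fin m ⊕ Fin m) (Fin m ⊕ Fin m) F) *ᵥ Pi.single (Sum.inl j) 1) (Sum.inl i) = 0
        at h3
      rw [Matrix.mulVec_single_one] at h3
      exact h3
  · rintro ⟨hC, hup⟩ k v
    have hAD := sp_upper_blocks g hC
    have hDA : ((g : Matrix (Fin m ⊕ Fin m) (Fin m ⊕ Fin m) F).toBlocks₁₁)ᵀ *
        (g : Matrix (Fin m ⊕ Fin m) (Fin m ⊕ Fin m) F).toBlocks₂₂ = 1 := by
      have := congrArg Matrix.transpose hAD
      rw [Matrix.transpose_mul, Matrix.transpose_transpose, Matrix.transpose_one] at this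
      exact _root_.mul_eq_one_comm.mp this
    have hdiag := upper_diag_ne_zero _ hup (Matrix.det_ne_zero_of_right_inverse hAD)
    show ((∀ i : Fin m, (k : ℕ) < (i : ℕ) → v (Sum.inl i) = 0) ∧ ∀ i : Fin m, v (Sum.inr i) = 0) ↔
      ((∀ i : Fin m, (k : ℕ) < (i : ℕ) →
        ((g : Matrix (Fin m ⊕ Fin m) (Fin m ⊕ Fin m) F) *ᵥ v) (Sum.inl i) = 0) ∧
        ∀ i : Fin m, ((g : Matrix (Fin m ⊕ Fin m) (Fin m ⊕ Fin m) F) *ᵥ v) (Sum.inr i) = 0)
    simp only [mulVec_inl_eq, mulVec_inr_eq, hC, Matrix.zero_mulVec, Pi.zero_apply, zero_add]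
    constructor
    · rintro ⟨h1, h2⟩
      have hv2 : v ∘ Sum.inr = 0 := funext h2
      rw [hv2]
      simp only [Matrix.mulVec_zero, Pi.zero_apply, add_zero, implies_true, and_true]
      intro i hi
      rw [Matrix.mulVec, dotProduct]
      apply Finset.sum_eq_zero
      intro j _
      by_cases hj : (k : ℕ) < (j : ℕ)
      · simp [h1 j hj]
      · rw [hup i j (by show (j : ℕ) < (i : ℕ); omega), zero_mul]
    · rintro ⟨h1, h2⟩
      have hv2 : v ∘ Sum.inr = 0 := by
        have h0 : (g : Matrix (Fin m ⊕ Fin m) (Fin m ⊕ Fin m) F).toBlocks₂₂ *ᵥ (v ∘ Sum.inr) = 0 :=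
          funext h2
        have := congrArg
          (fun w => ((g : Matrix (Fin m ⊕ Fin m) (Fin m ⊕ Fin m) F).toBlocks₁₁)ᵀ *ᵥ w) h0
        simp only [Matrix.mulVec_mulVec, hDA, Matrix.one_mulVec, Matrix.mulVec_zero] at this
        exact this
      refine ⟨?_, fun i => congrFun hv2 i⟩
      rw [hv2] at h1
      simp only [Matrix.mulVec_zero, Pi.zero_apply, add_zero] at h1
      exact upper_tail_zero _ hup hdiag (v ∘ Sum.inl) k h1

theorem card_lt_pairs' (n : ℕ) :
    Fintype.card {p : Fin n × Fin n // p.2 < p.1} = ∑ i ∈ Finset.range n, i := by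
  rw [Fintype.card_subtype, Finset.card_filter, ← Finset.univ_product_univ, Finset.sum_product]
  have h1 : ∀ i : Fin n, ∑ j : Fin n, (if j < i then 1 else 0) = (i : ℕ) := by
    intro i
    rw [← Finset.card_filter]
    have h2 : Finset.univ.filter (fun j : Fin n => j < i) = Finset.Iio i := by ext; simp
    rw [h2, Fin.card_Iio]
  simp only [h1]
  rw [Fin.sum_univ_eq_sum_range (fun i => i) n]

theorem card_le_pairs' (n : ℕ) :
    Fintype.card {p : Fin n × Fin n // p.2 ≤ p.1} = ∑ i ∈ Finset.range (n + 1), i := by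
  rw [Fintype.card_subtype, Finset.card_filter, ← Finset.univ_product_univ, Finset.sum_product]
  have h1 : ∀ i : Fin n, ∑ j : Fin n, (if j ≤ i then 1 else 0) = (i : ℕ) + 1 := by
    intro i
    rw [← Finset.card_filter]
    have h2 : Finset.univ.filter (fun j : Fin n => j ≤ i) = Finset.Iic i := by ext; simp
    rw [h2, Fin.card_Iic]
  simp only [h1]
  rw [Fin.sum_univ_eq_sum_range (fun i => i + 1) n, Finset.sum_range_succ' (fun i => i) n]
  simp

theorem tri_add (n : ℕ) :
    (∑ i ∈ Finset.range n, i) + ∑ i ∈ Finset.range (n + 1), i = n ^ 2 := by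
  rw [Finset.sum_range_succ]
  have h := Finset.sum_range_id_mul_two n
  cases n with
  | zero => simp
  | succ k =>
    simp only [Nat.add_sub_cancel] at h
    nlinarith [h]

/-- symmetric matrices, parametrised by the entries on and below the diagonal. -/
def symmEquiv (n : ℕ) :
    {S : Matrix (Fin n) (Fin n) F // Sᵀ = S} ≃ ({p : Fin n × Fin n // p.2 ≤ p.1} → F) where
  toFun S := fun p => S.1 p.1.1 p.1.2
  invFun s := ⟨Matrix.of
      (fun i j => if h : j ≤ i then s ⟨(i, j), h⟩ else s ⟨(j, i), le_of_not_ge h⟩), by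
    ext i j
    rw [Matrix.transpose_apply, Matrix.of_apply, Matrix.of_apply]
    by_cases h1 : j ≤ i
    · by_cases h2 : i ≤ j
      · have : i = j := le_antisymm h2 h1
        subst this; rfl
      · rw [dif_neg h2, dif_pos h1]
    · have h2 : i ≤ j := le_of_not_ge h1
      rw [dif_pos h2, dif_neg h1]⟩
  left_inv S := by
    apply Subtype.ext
    ext i j
    simp only [Matrix.of_apply]
    by_cases h1 : j ≤ i
    · rw [dif_pos h1]
    · rw [dif_neg h1]
      have := congrFun (congrFun S.2 i) j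
      rw [Matrix.transpose_apply] at this
      exact this
  right_inv s := by
    funext ⟨⟨i, j⟩, h⟩
    have h' : j ≤ i := h
    simp [h']

/-- upper triangular to lower triangular by transposition. -/
def upperLowerEquiv (n : ℕ) :
    {A : Matrix (Fin n) (Fin n) F // (∀ i j, j < i → A i j = 0) ∧ ∀ i, A i i ≠ 0} ≃
    {M : Matrix (Fin n) (Fin n) F // (∀ i j, i < j → M i j = 0) ∧ ∀ i, M i i ≠ 0} where
  toFun A := ⟨A.1ᵀ, fun i j h => A.2.1 j i h, fun i => A.2.2 i⟩
  invFun M := ⟨M.1ᵀ, fun i j h => M.2.1 j i h, fun i => M.2.2 i⟩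
  left_inv A := Subtype.ext (Matrix.transpose_transpose _)
  right_inv M := Subtype.ext (Matrix.transpose_transpose _)

/-- the Borel subgroup of `Sp_2m` is in bijection with pairs (upper triangular invertible,
symmetric). -/
noncomputable def spBorelEquiv (m : ℕ) :
    ↥(⨅ k : Fin m, stabilizing (spToMat m F)
      {v : Fin m ⊕ Fin m → F | (∀ i : Fin m, (k : ℕ) < (i : ℕ) → v (Sum.inl i) = 0) ∧
        ∀ i : Fin m, v (Sum.inr i) = 0}) ≃
    {A : Matrix (Fin m) (Fin m) F // (∀ i j, j < i → A i j = 0) ∧ ∀ i, A i i ≠ 0} ×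
      {S : Matrix (Fin m) (Fin m) F // Sᵀ = S} where
  toFun g :=
    (⟨(g.1 : Matrix (Fin m ⊕ Fin m) (Fin m ⊕ Fin m) F).toBlocks₁₁,
      ((sp_borel_iff g.1).mp g.2).2,
      upper_diag_ne_zero _ ((sp_borel_iff g.1).mp g.2).2
        (Matrix.det_ne_zero_of_right_inverse (sp_upper_blocks g.1 ((sp_borel_iff g.1).mp g.2).1))⟩,
     ⟨((g.1 : Matrix (Fin m ⊕ Fin m) (Fin m ⊕ Fin m) F).toBlocks₁₁)⁻¹ *
        (g.1 : Matrix (Fin m ⊕ Fin m) (Fin m ⊕ Fin m) F).toBlocks₁₂, by
      have hC := ((sp_borel_iff g.1).mp g.2).1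
      have hAD := sp_upper_blocks g.1 hC
      have hu := Matrix.isUnit_det_of_right_inverse hAD
      have h1 := Matrix.fromBlocks_toBlocks (g.1 : Matrix (Fin m ⊕ Fin m) (Fin m ⊕ Fin m) F)
      have h2 := g.1.2
      rw [← h1, hC, sp_mem_fromBlocks_iff] at h2
      have hBA := h2.1
      have hut : IsUnit ((g.1 : Matrix (Fin m ⊕ Fin m) (Fin m ⊕ Fin m) F).toBlocks₁₁)ᵀ.det := by
        rw [Matrix.det_transpose]; exact hu
      rw [Matrix.transpose_mul, Matrix.transpose_nonsing_inv]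
      have e1 : ((g.1 : Matrix (Fin m ⊕ Fin m) (Fin m ⊕ Fin m) F).toBlocks₁₁)⁻¹ *
          ((g.1 : Matrix (Fin m ⊕ Fin m) (Fin m ⊕ Fin m) F).toBlocks₁₂ *
            ((g.1 : Matrix (Fin m ⊕ Fin m) (Fin m ⊕ Fin m) F).toBlocks₁₁)ᵀ) =
          ((g.1 : Matrix (Fin m ⊕ Fin m) (Fin m ⊕ Fin m) F).toBlocks₁₂)ᵀ := by
        rw [hBA, Matrix.nonsing_inv_mul_cancel_left _ _ hu]
      rw [← e1, Matrix.mul_assoc, Matrix.mul_assoc, Matrix.mul_nonsing_inv _ hut, Matrix.mul_one]⟩)
  invFun p := ⟨⟨Matrix.fromBlocks p.1.1 (p.1.1 * p.2.1) 0 (p.1.1⁻¹)ᵀ, by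
      have hdet : p.1.1.det ≠ 0 := by
        rw [Matrix.det_of_isUpperTriangular (fun i j h => p.1.2.1 i j h)]
        exact Finset.prod_ne_zero_iff.mpr (fun i _ => p.1.2.2 i)
      have hu : IsUnit p.1.1.det := isUnit_iff_ne_zero.mpr hdet
      rw [sp_mem_fromBlocks_iff]
      refine ⟨?_, ?_, ?_⟩
      · rw [Matrix.transpose_mul, p.2.2, Matrix.mul_assoc]
      · rw [Matrix.transpose_transpose, Matrix.mul_nonsing_inv _ hu]; simp
      · simp⟩, by
      rw [sp_borel_iff]
      exact ⟨rfl, p.1.2.1⟩⟩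
  left_inv g := by
    apply Subtype.ext
    apply Subtype.ext
    have hC := ((sp_borel_iff g.1).mp g.2).1
    have hAD := sp_upper_blocks g.1 hC
    have hu := Matrix.isUnit_det_of_right_inverse hAD
    have h1 := Matrix.fromBlocks_toBlocks (g.1 : Matrix (Fin m ⊕ Fin m) (Fin m ⊕ Fin m) F)
    show Matrix.fromBlocks _ (_ * (_⁻¹ * _)) 0 (_⁻¹)ᵀ = _
    rw [Matrix.mul_nonsing_inv_cancel_left _ _ hu, Matrix.inv_eq_right_inv hAD,
      Matrix.transpose_transpose]
    conv_rhs => rw [← h1, hC]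
  right_inv p := by
    have hdet : p.1.1.det ≠ 0 := by
      rw [Matrix.det_of_isUpperTriangular (fun i j h => p.1.2.1 i j h)]
      exact Finset.prod_ne_zero_iff.mpr (fun i _ => p.1.2.2 i)
    have hu : IsUnit p.1.1.det := isUnit_iff_ne_zero.mpr hdet
    refine Prod.ext (Subtype.ext rfl) (Subtype.ext ?_)
    show (p.1.1)⁻¹ * (p.1.1 * p.2.1) = p.2.1
    rw [Matrix.nonsing_inv_mul_cancel_left _ _ hu]

theorem card_sp_borel [Fintype F] {q : ℕ} (hF : Fintype.card F = q) (m : ℕ) :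
    Nat.card ↥(⨅ k : Fin m, stabilizing (spToMat m F)
      {v : Fin m ⊕ Fin m → F | (∀ i : Fin m, (k : ℕ) < (i : ℕ) → v (Sum.inl i) = 0) ∧
        ∀ i : Fin m, v (Sum.inr i) = 0}) = q ^ (m ^ 2) * (q - 1) ^ m := by
  classical
  rw [Nat.card_congr ((spBorelEquiv m).trans
    (Equiv.prodCongr ((upperLowerEquiv m).trans (lowerTriEquiv m)) (symmEquiv m))),
    Nat.card_prod, Nat.card_prod, Nat.card_fun, Nat.card_fun, Nat.card_fun, Nat.card_units]
  simp only [Nat.card_eq_fintype_card, hF, Fintype.card_fin, card_lt_pairs', card_le_pairs']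
  rw [← tri_add m, pow_add]
  ring

end spborel

end Cfsg.Agent.Helper13
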