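import Mathlib
import Cfsg.Prelude.Def_ClassicalGeometry
import Cfsg.Agent.Helper13.Symp

set_option autoImplicit false

namespace Cfsg.Agent.Helper13

open Matrix

section spweyl
variable {F : Type*} [Field F] {m : ℕ}

/-- the involution of the index set swapping the two halves. -/
def tauP (m : ℕ) : Equiv.Perm (Fin m ⊕ Fin m) := Equiv.sumComm (Fin m) (Fin m)

theorem tauP_inl (i : Fin m) : tauP m (Sum.inl i) = Sum.inr i := rfl

theorem tauP_inr (i : Fin m) : tauP m (Sum.inr i) = Sum.inl i := rfl

theorem tauP_tauP (a : Fin m ⊕ Fin m) : tauP m (tauP m a) = a := by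
  rcases a with i | i <;> rfl

theorem tauP_ne (a : Fin m ⊕ Fin m) : tauP m a ≠ a := by
  rcases a with i | i <;> simp [tauP]

/-- the sign `J a (τ a)`. -/
def sgnJ (F : Type*) [Field F] (m : ℕ) : Fin m ⊕ Fin m → F := Sum.elim (fun _ => -1) (fun _ => 1)

theorem sgnJ_tauP (a : Fin m ⊕ Fin m) : sgnJ F m (tauP m a) = - sgnJ F m a := by
  rcases a with i | i <;> simp [sgnJ, tauP]

theorem sgnJ_mul_self (a : Fin m ⊕ Fin m) : sgnJ F m a * sgnJ F m a = 1 := by
  rcases a with i | i <;> simp [sgnJ]

theorem sgnJ_ne_zero (a : Fin m ⊕ Fin m) : sgnJ F m a ≠ 0 := by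
  intro h
  have := sgnJ_mul_self (F := F) a
  rw [h, zero_mul] at this
  exact zero_ne_one this

theorem J_apply_eq (a b : Fin m ⊕ Fin m) :
    J (Fin m) F a b = if b = tauP m a then sgnJ F m a else 0 := by
  rcases a with i | i <;> rcases b with j | j
  · simp [J, tauP]
  · simp only [J, tauP, sgnJ, Matrix.fromBlocks_apply₁₂, Matrix.neg_apply, Matrix.one_apply,
      Equiv.sumComm_apply, Sum.swap_inl, Sum.inr.injEq, Sum.elim_inl]
    by_cases hij : i = j
    · rw [if_pos hij, if_pos hij.symm]
    · rw [if_neg hij, if_neg (Ne.symm hij), neg_zero]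
  · simp only [J, tauP, sgnJ, Matrix.fromBlocks_apply₂₁, Matrix.one_apply,
      Equiv.sumComm_apply, Sum.swap_inr, Sum.inl.injEq, Sum.elim_inr]
    by_cases hij : i = j
    · rw [if_pos hij, if_pos hij.symm]
    · rw [if_neg hij, if_neg (Ne.symm hij)]
  · simp [J, tauP]

/-- monomial matrix with permutation `π` and coefficients `d`. -/
def monoMat (π : Equiv.Perm (Fin m ⊕ Fin m)) (d : Fin m ⊕ Fin m → F) :
    Matrix (Fin m ⊕ Fin m) (Fin m ⊕ Fin m) F :=
  Matrix.of fun a b => if a = π b then d b else 0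

theorem monoMat_apply (π : Equiv.Perm (Fin m ⊕ Fin m)) (d : Fin m ⊕ Fin m → F)
    (a b : Fin m ⊕ Fin m) : monoMat π d a b = if a = π b then d b else 0 := rfl

theorem monoMat_one_apply (d : Fin m ⊕ Fin m → F) (a b : Fin m ⊕ Fin m) :
    monoMat 1 d a b = if a = b then d b else 0 := rfl

/-- `g` is monomial with pattern `π`. -/
def Pat (g : Matrix (Fin m ⊕ Fin m) (Fin m ⊕ Fin m) F) (π : Equiv.Perm (Fin m ⊕ Fin m)) : Prop :=
  ∀ a b, g a b ≠ 0 → a = π b

theorem pat_monoMat (π : Equiv.Perm (Fin m ⊕ Fin m)) (d : Fin m ⊕ Fin m → F) :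
    Pat (monoMat π d) π := by
  intro a b h
  by_contra hab
  exact h (by rw [monoMat_apply, if_neg hab])

theorem pat_eq_monoMat (g : Matrix (Fin m ⊕ Fin m) (Fin m ⊕ Fin m) F)
    (π : Equiv.Perm (Fin m ⊕ Fin m)) (h : Pat g π) : g = monoMat π (fun b => g (π b) b) := by
  ext a b
  rw [monoMat_apply]
  split_ifs with hab
  · rw [hab]
  · by_contra h'
    exact hab (h a b h')

theorem pat_mul (g h : Matrix (Fin m ⊕ Fin m) (Fin m ⊕ Fin m) F)
    (π ρ : Equiv.Perm (Fin m ⊕ Fin m)) (hg : Pat g π) (hh : Pat h ρ) : Pat (g * h) (π * ρ) := by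
  intro a b hab
  rw [Matrix.mul_apply] at hab
  obtain ⟨k, _, hk⟩ := Finset.exists_ne_zero_of_sum_ne_zero hab
  have h1 : g a k ≠ 0 := left_ne_zero_of_mul hk
  have h2 : h k b ≠ 0 := right_ne_zero_of_mul hk
  rw [hg a k h1, hh k b h2]
  rfl

theorem monoMat_J (π : Equiv.Perm (Fin m ⊕ Fin m)) (d : Fin m ⊕ Fin m → F) :
    (monoMat π d)ᵀ * J (Fin m) F * monoMat π d =
      Matrix.of fun b b' => d b * J (Fin m) F (π b) (π b') * d b' := by
  ext b b'
  simp only [Matrix.mul_apply, Matrix.transpose_apply, monoMat_apply, Matrix.of_apply]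
  rw [Finset.sum_eq_single (π b')]
  · rw [Finset.sum_eq_single (π b)]
    · simp
    · intro a _ ha
      simp [ha]
    · intro h; exact absurd (Finset.mem_univ _) h
  · intro a' _ ha'
    simp [ha']
  · intro h; exact absurd (Finset.mem_univ _) h

theorem monoMat_mem_sp_iff (π : Equiv.Perm (Fin m ⊕ Fin m)) (d : Fin m ⊕ Fin m → F) :
    monoMat π d ∈ symplecticGroup (Fin m) F ↔
      ∀ b b', d b * J (Fin m) F (π b) (π b') * d b' = J (Fin m) F b b' := by
  rw [SymplecticGroup.mem_iff', monoMat_J]
  constructor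
  · intro h b b'
    exact congrFun (congrFun h b) b'
  · intro h
    ext b b'
    exact h b b'

/-- A symplectic monomial matrix has nonzero coefficients and its permutation commutes with
`tauP`. -/
theorem pat_sp (g : Matrix (Fin m ⊕ Fin m) (Fin m ⊕ Fin m) F)
    (hg : g ∈ symplecticGroup (Fin m) F) (π : Equiv.Perm (Fin m ⊕ Fin m)) (h : Pat g π) :
    (∀ b, g (π b) b ≠ 0) ∧ (∀ b, π (tauP m b) = tauP m (π b)) ∧
      (∀ b, g (π b) b * sgnJ F m (π b) * g (π (tauP m b)) (tauP m b) = sgnJ F m b) := by
  have heq := pat_eq_monoMat g π h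
  rw [heq, monoMat_mem_sp_iff] at hg
  have key : ∀ b, g (π b) b * J (Fin m) F (π b) (π (tauP m b)) * g (π (tauP m b)) (tauP m b)
      = sgnJ F m b := by
    intro b
    have := hg b (tauP m b)
    rw [this, J_apply_eq, if_pos rfl]
  have hJ : ∀ b, J (Fin m) F (π b) (π (tauP m b)) ≠ 0 := by
    intro b hz
    have := key b
    rw [hz, mul_zero, zero_mul] at this
    exact sgnJ_ne_zero b this.symm
  have hcomm : ∀ b, π (tauP m b) = tauP m (π b) := by
    intro b
    have := hJ b
    rw [J_apply_eq] at this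
    by_contra hne
    exact this (if_neg hne)
  refine ⟨?_, hcomm, ?_⟩
  · intro b hz
    have := key b
    rw [hz, zero_mul, zero_mul] at this
    exact sgnJ_ne_zero b this.symm
  · intro b
    have := key b
    rw [J_apply_eq, if_pos (hcomm b)] at this
    exact this

theorem pat_unique (g : Matrix (Fin m ⊕ Fin m) (Fin m ⊕ Fin m) F)
    (hg : g ∈ symplecticGroup (Fin m) F) (π ρ : Equiv.Perm (Fin m ⊕ Fin m)) (h : Pat g π)
    (h' : Pat g ρ) : π = ρ := by
  ext b
  have h1 := (pat_sp g hg π h).1 b
  exact h' (π b) b h1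

/-- Every permutation commuting with `tauP` is the pattern of a symplectic matrix. -/
theorem exists_sp_pat (π : Equiv.Perm (Fin m ⊕ Fin m))
    (hπ : ∀ b, π (tauP m b) = tauP m (π b)) :
    ∃ g : Matrix (Fin m ⊕ Fin m) (Fin m ⊕ Fin m) F, g ∈ symplecticGroup (Fin m) F ∧ Pat g π := by
  let d : Fin m ⊕ Fin m → F :=
    Sum.elim (fun _ => 1) (fun i => - sgnJ F m (π (Sum.inl i)))
  refine ⟨monoMat π d, ?_, pat_monoMat π d⟩
  rw [monoMat_mem_sp_iff]
  intro b b'
  rw [J_apply_eq, J_apply_eq]
  by_cases hb : b' = tauP m b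
  · subst hb
    rw [if_pos (hπ b), if_pos rfl]
    rcases b with i | i
    · show (1 : F) * sgnJ F m (π (Sum.inl i)) * (- sgnJ F m (π (Sum.inl i))) = sgnJ F m (Sum.inl i)
      have := sgnJ_mul_self (F := F) (π (Sum.inl i))
      have h2 : sgnJ F m (Sum.inl i : Fin m ⊕ Fin m) = -1 := rfl
      rw [h2]
      linear_combination -this
    · show (- sgnJ F m (π (Sum.inl i))) * sgnJ F m (π (Sum.inr i)) * 1 = sgnJ F m (Sum.inr i)
      have h3 : π (Sum.inr i) = tauP m (π (Sum.inl i)) := hπ (Sum.inl i)
      rw [h3, sgnJ_tauP]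
      have := sgnJ_mul_self (F := F) (π (Sum.inl i))
      have h2 : sgnJ F m (Sum.inr i : Fin m ⊕ Fin m) = 1 := rfl
      rw [h2]
      linear_combination this
  · have : π b' ≠ tauP m (π b) := by
      rw [← hπ b]
      intro h
      exact hb (π.injective h)
    rw [if_neg this, if_neg hb, mul_zero, zero_mul]

/-- the set of diagonal symplectic matrices. -/
def diagSet (F : Type*) [Field F] (m : ℕ) : Set (symplecticGroup (Fin m) F) :=
  {g | ∀ a b, a ≠ b → g.1 a b = 0}

theorem mem_diagSet_iff_pat (g : symplecticGroup (Fin m) F) : g ∈ diagSet F m ↔ Pat g.1 1 := by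
  constructor
  · intro h a b hab
    by_contra hne
    exact hab (h a b hne)
  · intro h a b hab
    by_contra hne
    exact hab (h a b hne)

theorem mul_diag_apply (M D : Matrix (Fin m ⊕ Fin m) (Fin m ⊕ Fin m) F)
    (hD : ∀ a b, a ≠ b → D a b = 0) (a b : Fin m ⊕ Fin m) : (M * D) a b = M a b * D b b := by
  rw [Matrix.mul_apply, Finset.sum_eq_single b]
  · intro k _ hk
    rw [hD k b hk, mul_zero]
  · intro h; exact absurd (Finset.mem_univ _) h

theorem diag_mul_apply (M D : Matrix (Fin m ⊕ Fin m) (Fin m ⊕ Fin m) F)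
    (hD : ∀ a b, a ≠ b → D a b = 0) (a b : Fin m ⊕ Fin m) : (D * M) a b = D a a * M a b := by
  rw [Matrix.mul_apply, Finset.sum_eq_single a]
  · intro k _ hk
    rw [hD a k (Ne.symm hk), zero_mul]
  · intro h; exact absurd (Finset.mem_univ _) h

/-- a symplectic monomial matrix normalises the diagonal torus. -/
theorem pat_mem_normalizer [Finite F] (g : symplecticGroup (Fin m) F)
    (π : Equiv.Perm (Fin m ⊕ Fin m)) (h : Pat g.1 π) :
    g ∈ Subgroup.normalizer (diagSet F m) := by
  apply Subgroup.mem_normalizer_fintype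
  intro n hn a c hac
  set hh : symplecticGroup (Fin m) F := g * n * g⁻¹ with hhdef
  have e1 : hh * g = g * n := by rw [hhdef]; group
  have e2 : hh.1 * g.1 = g.1 * n.1 := congrArg Subtype.val e1
  have e3 := congrFun (congrFun e2 a) (π.symm c)
  rw [mul_diag_apply _ _ hn] at e3
  have hz : g.1 a (π.symm c) = 0 := by
    by_contra hne
    have := h a _ hne
    rw [Equiv.apply_symm_apply] at this
    exact hac this
  rw [hz, zero_mul, Matrix.mul_apply, Finset.sum_eq_single c] at e3
  · have hnz := (pat_sp g.1 g.2 π h).1 (π.symm c)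
    rw [Equiv.apply_symm_apply] at hnz
    rcases mul_eq_zero.mp e3 with h1 | h1
    · exact h1
    · exact absurd h1 hnz
  · intro k _ hk
    have : g.1 k (π.symm c) = 0 := by
      by_contra hne
      have := h k _ hne
      rw [Equiv.apply_symm_apply] at this
      exact hk this
    rw [this, mul_zero]
  · intro h'; exact absurd (Finset.mem_univ _) h'

/-- torus elements separating two indices (needs `4 ≤ |F|`). -/
theorem exists_diag_sep [Fintype F] (hq : 4 ≤ Fintype.card F) (a a' : Fin m ⊕ Fin m)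
    (haa : a ≠ a') : ∃ t ∈ diagSet F m, t.1 a a ≠ t.1 a' a' := by
  classical
  obtain ⟨x, hx⟩ : ∃ x : F, x ∉ ({0, 1, -1} : Finset F) := by
    by_contra hall
    push Not at hall
    have h0 : (Finset.univ : Finset F) ⊆ {0, 1, -1} := fun x _ => hall x
    have h1 := Finset.card_le_card h0
    rw [Finset.card_univ] at h1
    have h2 : ({0, 1, -1} : Finset F).card ≤ 3 := Finset.card_le_three
    omega
  simp only [Finset.mem_insert, Finset.mem_singleton, not_or] at hx
  obtain ⟨hx0, hx1, hxm1⟩ := hx
  have hxinv : x ≠ x⁻¹ := by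
    intro h
    have h2 : x * x = 1 := by
      nth_rewrite 2 [h]
      exact mul_inv_cancel₀ hx0
    have h3 : (x - 1) * (x + 1) = 0 := by linear_combination h2
    rcases mul_eq_zero.mp h3 with h4 | h4
    · exact hx1 (sub_eq_zero.mp h4)
    · exact hxm1 (eq_neg_of_add_eq_zero_left h4)
  let d : Fin m ⊕ Fin m → F := fun c => if c = a then x else if c = tauP m a then x⁻¹ else 1
  have hda : d a = x := by simp [d]
  have hdta : d (tauP m a) = x⁻¹ := by simp [d, tauP_ne]
  have hdd : ∀ b, d b * d (tauP m b) = 1 := by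
    intro b
    by_cases hb : b = a
    · rw [hb, hda, hdta, mul_inv_cancel₀ hx0]
    · by_cases hb2 : b = tauP m a
      · rw [hb2, tauP_tauP, hda, hdta, inv_mul_cancel₀ hx0]
      · have h1 : d b = 1 := by simp [d, hb, hb2]
        have h2 : d (tauP m b) = 1 := by
          have e1 : tauP m b ≠ a := by
            intro h; apply hb2; rw [← h, tauP_tauP]
          have e2 : tauP m b ≠ tauP m a := by
            intro h; exact hb ((tauP m).injective h)
          simp [d, e1, e2]
        rw [h1, h2, mul_one]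
  have hmem : monoMat 1 d ∈ symplecticGroup (Fin m) F := by
    rw [monoMat_mem_sp_iff]
    intro b b'
    simp only [Equiv.Perm.coe_one, id_eq]
    rw [J_apply_eq]
    by_cases hb : b' = tauP m b
    · subst hb
      rw [if_pos rfl]
      linear_combination (sgnJ F m b) * hdd b
    · rw [if_neg hb, mul_zero, zero_mul]
  refine ⟨⟨monoMat 1 d, hmem⟩, ?_, ?_⟩
  · intro b b' hbb
    show monoMat 1 d b b' = 0
    rw [monoMat_one_apply, if_neg hbb]
  · show monoMat 1 d a a ≠ monoMat 1 d a' a'
    rw [monoMat_one_apply, monoMat_one_apply, if_pos rfl, if_pos rfl, hda]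
    by_cases h1 : a' = tauP m a
    · rw [h1, hdta]; exact hxinv
    · have : d a' = 1 := by simp [d, Ne.symm haa, h1]
      rw [this]; exact hx1

/-- an element of the normaliser of the diagonal torus is monomial (needs `4 ≤ |F|`). -/
theorem pat_of_normalizer [Fintype F] (hq : 4 ≤ Fintype.card F)
    (g : symplecticGroup (Fin m) F) (hg : g ∈ Subgroup.normalizer (diagSet F m)) :
    ∃ π : Equiv.Perm (Fin m ⊕ Fin m), Pat g.1 π := by
  classical
  have hcol : ∀ a a' b, g.1 a b ≠ 0 → g.1 a' b ≠ 0 → a = a' := by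
    intro a a' b h1 h2
    by_contra haa
    obtain ⟨t, ht, hsep⟩ := exists_diag_sep hq a a' haa
    have hn : g⁻¹ * t * g ∈ diagSet F m := (Subgroup.mem_set_normalizer_iff''.mp hg t).mp ht
    set n : symplecticGroup (Fin m) F := g⁻¹ * t * g with hndef
    have e1 : g * n = t * g := by rw [hndef]; group
    have e2 : g.1 * n.1 = t.1 * g.1 := congrArg Subtype.val e1
    have ea := congrFun (congrFun e2 a) b
    have ea' := congrFun (congrFun e2 a') b
    rw [mul_diag_apply _ _ hn, diag_mul_apply _ _ ht] at ea ea'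
    have r1 : n.1 b b = t.1 a a := by
      have : g.1 a b * (n.1 b b - t.1 a a) = 0 := by linear_combination ea
      rcases mul_eq_zero.mp this with h | h
      · exact absurd h h1
      · exact sub_eq_zero.mp h
    have r2 : n.1 b b = t.1 a' a' := by
      have : g.1 a' b * (n.1 b b - t.1 a' a') = 0 := by linear_combination ea'
      rcases mul_eq_zero.mp this with h | h
      · exact absurd h h2
      · exact sub_eq_zero.mp h
    exact hsep (r1.symm.trans r2)
  have hrow : ∀ a b b', g.1 a b ≠ 0 → g.1 a b' ≠ 0 → b = b' := by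
    intro a b b' h1 h2
    by_contra hbb
    obtain ⟨t, ht, hsep⟩ := exists_diag_sep hq b b' hbb
    have hn : g * t * g⁻¹ ∈ diagSet F m := (Subgroup.mem_set_normalizer_iff.mp hg t).mp ht
    set n : symplecticGroup (Fin m) F := g * t * g⁻¹ with hndef
    have e1 : n * g = g * t := by rw [hndef]; group
    have e2 : n.1 * g.1 = g.1 * t.1 := congrArg Subtype.val e1
    have ea := congrFun (congrFun e2 a) b
    have ea' := congrFun (congrFun e2 a) b'
    rw [mul_diag_apply _ _ ht, diag_mul_apply _ _ hn] at ea ea'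
    have r1 : n.1 a a = t.1 b b := by
      have : g.1 a b * (n.1 a a - t.1 b b) = 0 := by linear_combination ea
      rcases mul_eq_zero.mp this with h | h
      · exact absurd h h1
      · exact sub_eq_zero.mp h
    have r2 : n.1 a a = t.1 b' b' := by
      have : g.1 a b' * (n.1 a a - t.1 b' b') = 0 := by linear_combination ea'
      rcases mul_eq_zero.mp this with h | h
      · exact absurd h h2
      · exact sub_eq_zero.mp h
    exact hsep (r1.symm.trans r2)
  have hex : ∀ b, ∃ a, g.1 a b ≠ 0 := by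
    intro b
    by_contra hall
    push Not at hall
    have e1 : g⁻¹ * g = 1 := inv_mul_cancel g
    have e2 : (g⁻¹).1 * g.1 = 1 := congrArg Subtype.val e1
    have e3 := congrFun (congrFun e2 b) b
    rw [Matrix.mul_apply, Matrix.one_apply_eq] at e3
    rw [Finset.sum_eq_zero (fun k _ => by rw [hall k, mul_zero])] at e3
    exact zero_ne_one e3
  choose f hf using hex
  have hinj : Function.Injective f := by
    intro b b' hbb
    apply hrow (f b) b b' (hf b)
    rw [hbb]; exact hf b'
  have hbij : Function.Bijective f := Finite.injective_iff_bijective.mp hinj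
  refine ⟨Equiv.ofBijective f hbij, ?_⟩
  intro a b hab
  exact hcol a (f b) b hab (hf b)

/-- the diagonal torus of `Sp_2m(q)` has order `(q - 1) ^ m`. -/
theorem card_diagSet [Fintype F] {q : ℕ} (hF : Fintype.card F = q) (m : ℕ) :
    Nat.card (diagSet F m) = (q - 1) ^ m := by
  classical
  have hne : ∀ t : diagSet F m, ∀ b, t.1.1 b b ≠ 0 := by
    intro t b
    exact (pat_sp t.1.1 t.1.2 1 ((mem_diagSet_iff_pat t.1).mp t.2)).1 b
  let f : diagSet F m → (Fin m → Fˣ) :=
    fun t i => Units.mk0 (t.1.1 (Sum.inl i) (Sum.inl i)) (hne t _)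
  have hinj : Function.Injective f := by
    intro t t' htt
    apply Subtype.ext
    apply Subtype.ext
    ext a b
    by_cases hab : a = b
    · subst hab
      have h1 : ∀ i, t.1.1 (Sum.inl i) (Sum.inl i) = t'.1.1 (Sum.inl i) (Sum.inl i) :=
        fun i => congrArg Units.val (congrFun htt i)
      rcases a with i | i
      · exact h1 i
      · have r := (pat_sp t.1.1 t.1.2 1 ((mem_diagSet_iff_pat t.1).mp t.2)).2.2 (Sum.inl i)
        have r' := (pat_sp t'.1.1 t'.1.2 1 ((mem_diagSet_iff_pat t'.1).mp t'.2)).2.2 (Sum.inl i)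
        simp only [Equiv.Perm.coe_one, id_eq, tauP_inl] at r r'
        rw [h1 i] at r
        have hs := sgnJ_ne_zero (F := F) (Sum.inl i : Fin m ⊕ Fin m)
        have hd := hne t' (Sum.inl i)
        have h3 : t'.1.1 (Sum.inl i) (Sum.inl i) * sgnJ F m (Sum.inl i) *
            (t.1.1 (Sum.inr i) (Sum.inr i) - t'.1.1 (Sum.inr i) (Sum.inr i)) = 0 := by
          linear_combination r - r'
        rcases mul_eq_zero.mp h3 with h | h
        · exact absurd h (mul_ne_zero hd hs)
        · exact sub_eq_zero.mp h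
    · rw [t.2 a b hab, t'.2 a b hab]
  have hsurj : Function.Surjective f := by
    intro u
    let d : Fin m ⊕ Fin m → F := Sum.elim (fun i => (u i : F)) (fun i => (((u i)⁻¹ : Fˣ) : F))
    have hmem : monoMat 1 d ∈ symplecticGroup (Fin m) F := by
      rw [monoMat_mem_sp_iff]
      intro b b'
      simp only [Equiv.Perm.coe_one, id_eq]
      rw [J_apply_eq]
      by_cases hb : b' = tauP m b
      · subst hb
        rw [if_pos rfl]
        have hdd : d b * d (tauP m b) = 1 := by
          rcases b with i | i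
          · show (u i : F) * (((u i)⁻¹ : Fˣ) : F) = 1
            rw [← Units.val_mul, mul_inv_cancel, Units.val_one]
          · show (((u i)⁻¹ : Fˣ) : F) * (u i : F) = 1
            rw [← Units.val_mul, inv_mul_cancel, Units.val_one]
        linear_combination (sgnJ F m b) * hdd
      · rw [if_neg hb, mul_zero, zero_mul]
    refine ⟨⟨⟨monoMat 1 d, hmem⟩, ?_⟩, ?_⟩
    · intro b b' hbb
      show monoMat 1 d b b' = 0
      rw [monoMat_one_apply, if_neg hbb]
    · funext i
      apply Units.ext
      show monoMat 1 d (Sum.inl i) (Sum.inl i) = u i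
      rw [monoMat_one_apply, if_pos rfl]
      rfl
  rw [Nat.card_congr (Equiv.ofBijective f ⟨hinj, hsurj⟩), Nat.card_fun, Nat.card_units,
    Nat.card_eq_fintype_card, Nat.card_eq_fintype_card, hF, Fintype.card_fin]

/-- the centraliser of the fixed-point-free involution `tauP` has order `2 ^ m * m!`. -/
theorem card_centralizer_tauP (m : ℕ) :
    Nat.card (Subgroup.centralizer ({tauP m} : Set (Equiv.Perm (Fin m ⊕ Fin m)))) =
      2 ^ m * Nat.factorial m := by
  classical
  rw [Equiv.Perm.nat_card_centralizer]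
  rcases Nat.eq_zero_or_pos m with rfl | hm
  · have : tauP 0 = 1 := Subsingleton.elim _ _
    rw [this, Equiv.Perm.cycleType_one]
    simp
  · have hsq : tauP m ^ 2 = 1 := by
      ext a
      rw [pow_two]
      exact tauP_tauP a
    have hne : tauP m ≠ 1 := by
      intro h
      have := congrArg (fun σ : Equiv.Perm (Fin m ⊕ Fin m) => σ (Sum.inl ⟨0, hm⟩)) h
      exact tauP_ne _ this
    have hord : orderOf (tauP m) = 2 := orderOf_eq_prime hsq hne
    have hprime : (orderOf (tauP m)).Prime := by rw [hord]; exact Nat.prime_two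
    obtain ⟨n, hn⟩ := Equiv.Perm.cycleType_prime_order hprime
    rw [hord] at hn
    have hsum := Equiv.Perm.sum_cycleType (tauP m)
    have hsupp : (tauP m).support = Finset.univ := by
      ext a
      simp [Equiv.Perm.mem_support, tauP_ne]
    rw [hsupp, Finset.card_univ, Fintype.card_sum, Fintype.card_fin, hn, Multiset.sum_replicate,
      smul_eq_mul] at hsum
    have hnm : n + 1 = m := by omega
    rw [hn, hnm, Multiset.sum_replicate, Multiset.prod_replicate, Fintype.card_sum,
      Fintype.card_fin, Multiset.toFinset_replicate, if_neg (by omega), Finset.prod_singleton,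
      Multiset.count_replicate_self, smul_eq_mul]
    have : m + m - m * 2 = 0 := by omega
    rw [this]
    simp

theorem mem_span_single_iff (i : Fin m ⊕ Fin m) (v : Fin m ⊕ Fin m → F) :
    v ∈ Submodule.span F {(Pi.single i (1 : F) : Fin m ⊕ Fin m → F)} ↔ ∀ a, a ≠ i → v a = 0 := by
  rw [Submodule.mem_span_singleton]
  constructor
  · rintro ⟨c, rfl⟩ a ha
    rw [Pi.smul_apply, Pi.single_apply, if_neg ha, smul_zero]
  · intro h
    refine ⟨v i, ?_⟩
    funext a
    rw [Pi.smul_apply, Pi.single_apply, smul_eq_mul]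
    by_cases ha : a = i
    · rw [if_pos ha, mul_one, ha]
    · rw [if_neg ha, mul_zero, h a ha]

/-- the symplectic matrices stabilising all coordinate axes are the diagonal ones. -/
theorem mem_stab_axes_iff (g : symplecticGroup (Fin m) F) :
    (∀ i : Fin m ⊕ Fin m, g ∈ Cfsg.stabilizing (Cfsg.spToMat m F)
      ((Submodule.span F {(Pi.single i (1 : F) : Fin m ⊕ Fin m → F)} :
        Submodule F (Fin m ⊕ Fin m → F)) : Set (Fin m ⊕ Fin m → F))) ↔ g ∈ diagSet F m := by
  constructor
  · intro hg a b hab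
    have h1 := (hg b (Pi.single b 1)).mp
      (Submodule.subset_span (Set.mem_singleton _))
    have h2 : g.1 *ᵥ (Pi.single b 1) ∈
        Submodule.span F {(Pi.single b (1 : F) : Fin m ⊕ Fin m → F)} := h1
    rw [mem_span_single_iff, Matrix.mulVec_single_one] at h2
    exact h2 a hab
  · intro hg i v
    have hne : ∀ b, g.1 b b ≠ 0 :=
      (pat_sp g.1 g.2 1 ((mem_diagSet_iff_pat g).mp hg)).1
    have hmv : ∀ a, (g.1 *ᵥ v) a = g.1 a a * v a := by
      intro a
      rw [Matrix.mulVec, dotProduct, Finset.sum_eq_single a]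
      · intro k _ hk
        rw [hg a k (Ne.symm hk), zero_mul]
      · intro h; exact absurd (Finset.mem_univ _) h
    show v ∈ Submodule.span F {(Pi.single i (1 : F) : Fin m ⊕ Fin m → F)} ↔
      g.1 *ᵥ v ∈ Submodule.span F {(Pi.single i (1 : F) : Fin m ⊕ Fin m → F)}
    rw [mem_span_single_iff, mem_span_single_iff]
    constructor
    · intro h a ha
      rw [hmv, h a ha, mul_zero]
    · intro h a ha
      have := h a ha
      rw [hmv] at this
      rcases mul_eq_zero.mp this with h1 | h1
      · exact absurd h1 (hne a)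
      · exact h1

/-- Weyl group of type `C_m`: the normaliser of the diagonal torus of `Sp_2m(q)`, `q ≥ 4`, has
order `2 ^ m * m! * (q - 1) ^ m`. -/
theorem card_normalizer_diagSet [Fintype F] {q : ℕ} (hF : Fintype.card F = q) (hq : 4 ≤ q)
    (m : ℕ) :
    Nat.card (Subgroup.normalizer (diagSet F m)) = 2 ^ m * Nat.factorial m * (q - 1) ^ m := by
  classical
  have hq' : 4 ≤ Fintype.card F := by omega
  have hpat : ∀ g : Subgroup.normalizer (diagSet F m), ∃ π, Pat g.1.1 π :=
    fun g => pat_of_normalizer hq' g.1 g.2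
  choose φ hφ using hpat
  have hone : Pat (1 : Matrix (Fin m ⊕ Fin m) (Fin m ⊕ Fin m) F) 1 := by
    intro a b hab
    by_contra h
    exact hab (Matrix.one_apply_ne h)
  let Φ : Subgroup.normalizer (diagSet F m) →* Equiv.Perm (Fin m ⊕ Fin m) :=
    { toFun := φ
      map_one' := pat_unique _ (1 : symplecticGroup (Fin m) F).2 _ _ (hφ 1) hone
      map_mul' := fun g h => pat_unique _ (g.1 * h.1).2 _ _ (hφ (g * h))
        (pat_mul _ _ _ _ (hφ g) (hφ h)) }
  have hrange : Φ.range = Subgroup.centralizer {tauP m} := by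
    ext π
    rw [MonoidHom.mem_range, Subgroup.mem_centralizer_iff]
    constructor
    · rintro ⟨g, rfl⟩ h hh
      rw [Set.mem_singleton_iff] at hh
      subst hh
      ext b
      exact ((pat_sp g.1.1 g.1.2 _ (hφ g)).2.1 b).symm
    · intro hπ
      have hπ' : ∀ b, π (tauP m b) = tauP m (π b) := by
        intro b
        have := hπ (tauP m) rfl
        exact (congrArg (fun σ : Equiv.Perm (Fin m ⊕ Fin m) => σ b) this).symm
      obtain ⟨g, hg, hgp⟩ := exists_sp_pat (F := F) π hπ'
      have hgN : (⟨g, hg⟩ : symplecticGroup (Fin m) F) ∈ Subgroup.normalizer (diagSet F m) :=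
        pat_mem_normalizer ⟨g, hg⟩ π hgp
      refine ⟨⟨⟨g, hg⟩, hgN⟩, ?_⟩
      exact pat_unique g hg _ _ (hφ ⟨⟨g, hg⟩, hgN⟩) hgp
  have hker : Nat.card Φ.ker = Nat.card (diagSet F m) := by
    apply Nat.card_congr
    exact
      { toFun := fun g => ⟨g.1.1, by
          rw [mem_diagSet_iff_pat]
          have h1 := g.2
          rw [MonoidHom.mem_ker] at h1
          have h2 := hφ g.1
          rw [show φ g.1 = 1 from h1] at h2
          exact h2⟩
        invFun := fun t => ⟨⟨t.1, pat_mem_normalizer t.1 1 ((mem_diagSet_iff_pat t.1).mp t.2)⟩, by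
          rw [MonoidHom.mem_ker]
          exact pat_unique _ t.1.2 _ _
            (hφ ⟨t.1, pat_mem_normalizer t.1 1 ((mem_diagSet_iff_pat t.1).mp t.2)⟩)
            ((mem_diagSet_iff_pat t.1).mp t.2)⟩
        left_inv := fun g => rfl
        right_inv := fun t => rfl }
  have hcard : Nat.card (Subgroup.normalizer (diagSet F m)) =
      Nat.card Φ.ker * Nat.card Φ.range := by
    rw [Subgroup.card_eq_card_quotient_mul_card_subgroup Φ.ker,
      Nat.card_congr (QuotientGroup.quotientKerEquivRange Φ).toEquiv, mul_comm]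
  rw [hcard, hker, hrange, card_centralizer_tauP, card_diagSet hF]
  ring

end spweyl

end Cfsg.Agent.Helper13
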