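import Mathlib
import Cfsg.Prelude.Def_ClassicalGeometry

set_option autoImplicit false

namespace Cfsg.Agent.Helper13

open Matrix

section parabolic
variable {F : Type*} [Field F]

/-- the equivalence `Fin k ⊕ Fin (n - k) ≃ Fin n`. -/
def splitEquiv {n k : ℕ} (hk : k ≤ n) : Fin k ⊕ Fin (n - k) ≃ Fin n :=
  finSumFinEquiv.trans (finCongr (by omega))

theorem splitEquiv_inl {n k : ℕ} (hk : k ≤ n) (a : Fin k) :
    ((splitEquiv hk (Sum.inl a) : Fin n) : ℕ) = a := by
  simp [splitEquiv]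

theorem splitEquiv_inr {n k : ℕ} (hk : k ≤ n) (b : Fin (n - k)) :
    ((splitEquiv hk (Sum.inr b) : Fin n) : ℕ) = k + b := by
  simp [splitEquiv]

theorem mem_coordSub_iff {n k : ℕ} (hk : k ≤ n) (v : Fin n → F) :
    (∀ i : Fin n, k ≤ (i : ℕ) → v i = 0) ↔ ∀ b : Fin (n - k), v (splitEquiv hk (Sum.inr b)) = 0 := by
  constructor
  · intro h b
    exact h _ (by rw [splitEquiv_inr]; omega)
  · intro h i hi
    have hi' : i = splitEquiv hk (Sum.inr ⟨(i : ℕ) - k, by omega⟩) := by
      apply Fin.ext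
      rw [splitEquiv_inr]
      simp only
      omega
    rw [hi']
    exact h _

/-- the block form of a matrix with respect to `splitEquiv`. -/
def blk {n k : ℕ} (hk : k ≤ n) (g : Matrix (Fin n) (Fin n) F) :
    Matrix (Fin k ⊕ Fin (n - k)) (Fin k ⊕ Fin (n - k)) F :=
  g.submatrix (splitEquiv hk) (splitEquiv hk)

theorem blk_det {n k : ℕ} (hk : k ≤ n) (g : Matrix (Fin n) (Fin n) F) : (blk hk g).det = g.det :=
  Matrix.det_submatrix_equiv_self _ _

theorem blk_mulVec_inr {n k : ℕ} (hk : k ≤ n) (g : Matrix (Fin n) (Fin n) F) (v : Fin n → F)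
    (b : Fin (n - k)) :
    (g *ᵥ v) (splitEquiv hk (Sum.inr b)) =
      ((blk hk g).toBlocks₂₁ *ᵥ fun a => v (splitEquiv hk (Sum.inl a))) b +
        ((blk hk g).toBlocks₂₂ *ᵥ fun b' => v (splitEquiv hk (Sum.inr b'))) b := by
  simp only [Matrix.mulVec, dotProduct, blk, Matrix.toBlocks₂₁, Matrix.toBlocks₂₂,
    Matrix.submatrix_apply, Matrix.of_apply]
  rw [← Equiv.sum_comp (splitEquiv hk), Fintype.sum_sum_type]

theorem mem_stab_iff {n k : ℕ} (hk : k ≤ n) (g : GL (Fin n) F) :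
    g ∈ stabilizing (glToMat (Fin n) F) {v : Fin n → F | ∀ i : Fin n, k ≤ (i : ℕ) → v i = 0} ↔
      (blk hk (g : Matrix (Fin n) (Fin n) F)).toBlocks₂₁ = 0 := by
  constructor
  · intro hg
    ext b a
    have h1 : (Pi.single (splitEquiv hk (Sum.inl a)) (1 : F) : Fin n → F) ∈
        {v : Fin n → F | ∀ i : Fin n, k ≤ (i : ℕ) → v i = 0} := by
      intro i hi
      have : i ≠ splitEquiv hk (Sum.inl a) := by
        intro h
        have := congrArg Fin.val h
        rw [splitEquiv_inl] at this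
        omega
      simp [this]
    have h2 := (hg _).mp h1 (splitEquiv hk (Sum.inr b)) (by rw [splitEquiv_inr]; omega)
    rw [Matrix.mulVec_single_one] at h2
    exact h2
  · intro hC v
    have hdet : (blk hk (g : Matrix (Fin n) (Fin n) F)).toBlocks₂₂.det ≠ 0 := by
      have h1 := Matrix.fromBlocks_toBlocks (blk hk (g : Matrix (Fin n) (Fin n) F))
      rw [hC] at h1
      have h2 := congrArg Matrix.det h1
      rw [Matrix.det_fromBlocks_zero₂₁, blk_det] at h2
      have h3 : (g : Matrix (Fin n) (Fin n) F).det ≠ 0 :=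
        ((Matrix.isUnit_iff_isUnit_det _).mp g.isUnit).ne_zero
      rw [← h2] at h3
      exact right_ne_zero_of_mul h3
    show (∀ i : Fin n, k ≤ (i : ℕ) → v i = 0) ↔
      (∀ i : Fin n, k ≤ (i : ℕ) → ((g : Matrix (Fin n) (Fin n) F) *ᵥ v) i = 0)
    rw [mem_coordSub_iff hk, mem_coordSub_iff hk]
    simp only [blk_mulVec_inr hk, hC, Matrix.zero_mulVec, Pi.zero_apply, zero_add]
    constructor
    · intro h b
      have : (fun b' => v (splitEquiv hk (Sum.inr b'))) = 0 := funext h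
      rw [this, Matrix.mulVec_zero]; rfl
    · intro h b
      have := Matrix.eq_zero_of_mulVec_eq_zero hdet (funext h)
      exact congrFun this b

/-- The stabiliser of the coordinate subspace is in bijection with `GL_k × GL_(n-k) × Mat`. -/
noncomputable def stabEquiv {n k : ℕ} (hk : k ≤ n) :
    ↥(stabilizing (glToMat (Fin n) F) {v : Fin n → F | ∀ i : Fin n, k ≤ (i : ℕ) → v i = 0}) ≃
      {p : Matrix (Fin k) (Fin k) F × Matrix (Fin (n - k)) (Fin (n - k)) F ×
        Matrix (Fin k) (Fin (n - k)) F // p.1.det ≠ 0 ∧ p.2.1.det ≠ 0} where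
  toFun g := ⟨((blk hk (g.1 : Matrix (Fin n) (Fin n) F)).toBlocks₁₁,
      (blk hk (g.1 : Matrix (Fin n) (Fin n) F)).toBlocks₂₂,
      (blk hk (g.1 : Matrix (Fin n) (Fin n) F)).toBlocks₁₂), by
    have hC := (mem_stab_iff hk g.1).mp g.2
    have h1 := Matrix.fromBlocks_toBlocks (blk hk (g.1 : Matrix (Fin n) (Fin n) F))
    rw [hC] at h1
    have h2 := congrArg Matrix.det h1
    rw [Matrix.det_fromBlocks_zero₂₁, blk_det] at h2
    have h3 : (g.1 : Matrix (Fin n) (Fin n) F).det ≠ 0 :=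
      ((Matrix.isUnit_iff_isUnit_det _).mp g.1.isUnit).ne_zero
    rw [← h2] at h3
    exact ⟨left_ne_zero_of_mul h3, right_ne_zero_of_mul h3⟩⟩
  invFun p := ⟨Matrix.GeneralLinearGroup.mkOfDetNeZero
      ((Matrix.fromBlocks p.1.1 p.1.2.2 0 p.1.2.1).submatrix (splitEquiv hk).symm (splitEquiv hk).symm)
      (by
        rw [Matrix.det_submatrix_equiv_self, Matrix.det_fromBlocks_zero₂₁]
        exact mul_ne_zero p.2.1 p.2.2), by
    rw [mem_stab_iff hk]
    ext b a
    simp [blk, Matrix.GeneralLinearGroup.mkOfDetNeZero, Matrix.toBlocks₂₁]⟩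
  left_inv g := by
    apply Subtype.ext
    apply Units.ext
    have hC := (mem_stab_iff hk g.1).mp g.2
    have h1 := Matrix.fromBlocks_toBlocks (blk hk (g.1 : Matrix (Fin n) (Fin n) F))
    rw [hC] at h1
    show (Matrix.fromBlocks _ _ 0 _).submatrix (splitEquiv hk).symm (splitEquiv hk).symm = _
    rw [h1]
    ext i j
    simp [blk]
  right_inv p := by
    apply Subtype.ext
    obtain ⟨⟨A, D, B⟩, hA, hD⟩ := p
    simp only [Matrix.GeneralLinearGroup.mkOfDetNeZero, blk]
    refine Prod.ext ?_ (Prod.ext ?_ ?_)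
    · ext i j; simp [Matrix.toBlocks₁₁]
    · ext i j; simp [Matrix.toBlocks₂₂]
    · ext i j; simp [Matrix.toBlocks₁₂]

/-- matrices with non-zero determinant are in bijection with `GL`. -/
noncomputable def detNeZeroEquiv (ι : Type*) [Fintype ι] [DecidableEq ι] :
    {A : Matrix ι ι F // A.det ≠ 0} ≃ GL ι F where
  toFun A := Matrix.GeneralLinearGroup.mkOfDetNeZero A.1 A.2
  invFun g := ⟨g.1, ((Matrix.isUnit_iff_isUnit_det _).mp g.isUnit).ne_zero⟩
  left_inv A := rfl
  right_inv g := Units.ext rfl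

theorem card_stab [Fintype F] {q : ℕ} (hF : Fintype.card F = q) (n k : ℕ) (hk : k ≤ n) :
    Nat.card ↥(stabilizing (glToMat (Fin n) F)
      {v : Fin n → F | ∀ i : Fin n, k ≤ (i : ℕ) → v i = 0}) =
    q ^ (k * (n - k)) * (∏ i : Fin k, (q ^ k - q ^ (i : ℕ))) *
      ∏ i : Fin (n - k), (q ^ (n - k) - q ^ (i : ℕ)) := by
  classical
  let e2 : {p : Matrix (Fin k) (Fin k) F × Matrix (Fin (n - k)) (Fin (n - k)) F ×
        Matrix (Fin k) (Fin (n - k)) F // p.1.det ≠ 0 ∧ p.2.1.det ≠ 0} ≃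
      GL (Fin k) F × GL (Fin (n - k)) F × Matrix (Fin k) (Fin (n - k)) F :=
    { toFun := fun p => (detNeZeroEquiv (Fin k) ⟨p.1.1, p.2.1⟩,
        detNeZeroEquiv (Fin (n - k)) ⟨p.1.2.1, p.2.2⟩, p.1.2.2)
      invFun := fun p => ⟨(p.1.1, p.2.1.1, p.2.2),
        ((Matrix.isUnit_iff_isUnit_det _).mp p.1.isUnit).ne_zero,
        ((Matrix.isUnit_iff_isUnit_det _).mp p.2.1.isUnit).ne_zero⟩
      left_inv := fun p => rfl
      right_inv := fun p => by
        refine Prod.ext (Units.ext rfl) (Prod.ext (Units.ext rfl) rfl) }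
  rw [Nat.card_congr ((stabEquiv hk).trans e2), Nat.card_prod, Nat.card_prod,
    Matrix.card_GL_field, Matrix.card_GL_field, hF]
  have hmat : Nat.card (Matrix (Fin k) (Fin (n - k)) F) = q ^ (k * (n - k)) := by
    show Nat.card (Fin k → Fin (n - k) → F) = _
    rw [Nat.card_fun, Nat.card_fun, Nat.card_eq_fintype_card, Nat.card_eq_fintype_card,
      Nat.card_eq_fintype_card, hF, Fintype.card_fin, Fintype.card_fin, ← pow_mul, mul_comm]
  rw [hmat]
  ring

end parabolic

end Cfsg.Agent.Helper13
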