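import Mathlib
import Cfsg.Prelude.Def_ClassicalGeometry
import Cfsg.Agent.Helper13.Parabolic
import Cfsg.Agent.Helper13.Symp

set_option autoImplicit false

namespace Cfsg.Agent.Helper13

open Matrix

section spsplit
variable {F : Type*} [Field F] {m k : ℕ}

/-- index equivalence separating the first `k` hyperbolic pairs from the others. -/
def pairEquiv (hk : k ≤ m) : (Fin k ⊕ Fin k) ⊕ (Fin (m - k) ⊕ Fin (m - k)) ≃ Fin m ⊕ Fin m :=
  (Equiv.sumSumSumComm _ _ _ _).trans (Equiv.sumCongr (splitEquiv hk) (splitEquiv hk))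

theorem pairEquiv_ll (hk : k ≤ m) (a : Fin k) :
    pairEquiv hk (Sum.inl (Sum.inl a)) = Sum.inl (splitEquiv hk (Sum.inl a)) := rfl

theorem pairEquiv_lr (hk : k ≤ m) (a : Fin k) :
    pairEquiv hk (Sum.inl (Sum.inr a)) = Sum.inr (splitEquiv hk (Sum.inl a)) := rfl

theorem pairEquiv_rl (hk : k ≤ m) (b : Fin (m - k)) :
    pairEquiv hk (Sum.inr (Sum.inl b)) = Sum.inl (splitEquiv hk (Sum.inr b)) := rfl

theorem pairEquiv_rr (hk : k ≤ m) (b : Fin (m - k)) :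
    pairEquiv hk (Sum.inr (Sum.inr b)) = Sum.inr (splitEquiv hk (Sum.inr b)) := rfl

theorem J_pair (hk : k ≤ m) :
    (J (Fin m) F).submatrix (pairEquiv hk) (pairEquiv hk) =
      fromBlocks (J (Fin k) F) 0 0 (J (Fin (m - k)) F) := by
  ext x y
  rcases x with ((a | a) | (b | b)) <;> rcases y with ((a' | a') | (b' | b')) <;>
    simp [pairEquiv_ll, pairEquiv_lr, pairEquiv_rl, pairEquiv_rr, J, Matrix.one_apply,
      (splitEquiv hk).injective.eq_iff]

theorem J_pair' (hk : k ≤ m) :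
    (fromBlocks (J (Fin k) F) 0 0 (J (Fin (m - k)) F)).submatrix (pairEquiv hk).symm
      (pairEquiv hk).symm = J (Fin m) F := by
  rw [← J_pair hk]
  ext x y
  simp

/-- the standard non-degenerate subspace spanned by the first `k` hyperbolic pairs. -/
def stdW (F : Type*) [Field F] (m k : ℕ) : Set (Fin m ⊕ Fin m → F) :=
  {v | ∀ i : Fin m, k ≤ (i : ℕ) → v (Sum.inl i) = 0 ∧ v (Sum.inr i) = 0}

theorem mem_stdW_iff (hk : k ≤ m) (v : Fin m ⊕ Fin m → F) :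
    v ∈ stdW F m k ↔ (v ∘ pairEquiv hk) ∘ Sum.inr = 0 := by
  constructor
  · intro h
    funext c
    rcases c with b | b
    · exact (h _ (by rw [splitEquiv_inr]; omega)).1
    · exact (h _ (by rw [splitEquiv_inr]; omega)).2
  · intro h i hi
    have hi' : i = splitEquiv hk (Sum.inr ⟨(i : ℕ) - k, by omega⟩) := by
      apply Fin.ext; rw [splitEquiv_inr]; simp only; omega
    constructor
    · have := congrFun h (Sum.inl ⟨(i : ℕ) - k, by omega⟩)
      rw [hi']; exact this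
    · have := congrFun h (Sum.inr ⟨(i : ℕ) - k, by omega⟩)
      rw [hi']; exact this

theorem blk_sp {A : Matrix (Fin k ⊕ Fin k) (Fin k ⊕ Fin k) F}
    {B : Matrix (Fin k ⊕ Fin k) (Fin (m - k) ⊕ Fin (m - k)) F}
    {D : Matrix (Fin (m - k) ⊕ Fin (m - k)) (Fin (m - k) ⊕ Fin (m - k)) F}
    (h : fromBlocks A B 0 D * fromBlocks (J (Fin k) F) 0 0 (J (Fin (m - k)) F) *
      (fromBlocks A B 0 D)ᵀ = fromBlocks (J (Fin k) F) 0 0 (J (Fin (m - k)) F)) :
    B = 0 ∧ A ∈ symplecticGroup (Fin k) F ∧ D ∈ symplecticGroup (Fin (m - k)) F := by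
  rw [fromBlocks_transpose, fromBlocks_multiply, fromBlocks_multiply, fromBlocks_inj] at h
  simp only [Matrix.mul_zero, Matrix.zero_mul, add_zero, zero_add, Matrix.transpose_zero] at h
  obtain ⟨h1, h2, h3, h4⟩ := h
  have hD : D ∈ symplecticGroup (Fin (m - k)) F := SymplecticGroup.mem_iff.mpr h4
  have hB : B = 0 := by
    have hu : IsUnit (J (Fin (m - k)) F * Dᵀ).det := by
      rw [det_mul, det_transpose]
      exact (Matrix.isUnit_det_J _ _).mul (SymplecticGroup.symplectic_det hD)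
    have h5 : B * (J (Fin (m - k)) F * Dᵀ) * (J (Fin (m - k)) F * Dᵀ)⁻¹ = 0 := by
      rw [← Matrix.mul_assoc, h2, Matrix.zero_mul]
    rwa [Matrix.mul_nonsing_inv_cancel_right _ _ hu] at h5
  refine ⟨hB, ?_, hD⟩
  rw [hB] at h1
  simp only [Matrix.zero_mul, add_zero] at h1
  exact SymplecticGroup.mem_iff.mpr h1

/-- the block form of a symplectic matrix with respect to `pairEquiv`. -/
def pblk (hk : k ≤ m) (g : Matrix (Fin m ⊕ Fin m) (Fin m ⊕ Fin m) F) :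
    Matrix ((Fin k ⊕ Fin k) ⊕ (Fin (m - k) ⊕ Fin (m - k)))
      ((Fin k ⊕ Fin k) ⊕ (Fin (m - k) ⊕ Fin (m - k))) F :=
  g.submatrix (pairEquiv hk) (pairEquiv hk)

theorem pblk_mul (hk : k ≤ m) (g h : Matrix (Fin m ⊕ Fin m) (Fin m ⊕ Fin m) F) :
    pblk hk (g * h) = pblk hk g * pblk hk h := by
  simp only [pblk]
  rw [Matrix.submatrix_mul_equiv]

theorem pblk_mulVec (hk : k ≤ m) (g : Matrix (Fin m ⊕ Fin m) (Fin m ⊕ Fin m) F)
    (v : Fin m ⊕ Fin m → F) : (g *ᵥ v) ∘ pairEquiv hk = pblk hk g *ᵥ (v ∘ pairEquiv hk) := by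
  simp only [pblk]
  rw [Matrix.submatrix_mulVec_equiv]
  congr 2
  funext x
  simp

theorem pblk_sp (hk : k ≤ m) (g : symplecticGroup (Fin m) F) :
    pblk hk (g : Matrix (Fin m ⊕ Fin m) (Fin m ⊕ Fin m) F) *
      fromBlocks (J (Fin k) F) 0 0 (J (Fin (m - k)) F) *
      (pblk hk (g : Matrix (Fin m ⊕ Fin m) (Fin m ⊕ Fin m) F))ᵀ =
    fromBlocks (J (Fin k) F) 0 0 (J (Fin (m - k)) F) := by
  have h := SymplecticGroup.mem_iff.mp g.2
  rw [← J_pair hk]
  simp only [pblk]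
  rw [Matrix.transpose_submatrix, Matrix.submatrix_mul_equiv, Matrix.submatrix_mul_equiv, h]

theorem std_data (hk : k ≤ m) (g : symplecticGroup (Fin m) F)
    (hC : (pblk hk (g : Matrix (Fin m ⊕ Fin m) (Fin m ⊕ Fin m) F)).toBlocks₂₁ = 0) :
    pblk hk (g : Matrix (Fin m ⊕ Fin m) (Fin m ⊕ Fin m) F) =
      fromBlocks (pblk hk (g : Matrix (Fin m ⊕ Fin m) (Fin m ⊕ Fin m) F)).toBlocks₁₁ 0 0
        (pblk hk (g : Matrix (Fin m ⊕ Fin m) (Fin m ⊕ Fin m) F)).toBlocks₂₂ ∧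
    (pblk hk (g : Matrix (Fin m ⊕ Fin m) (Fin m ⊕ Fin m) F)).toBlocks₁₁ ∈
      symplecticGroup (Fin k) F ∧
    (pblk hk (g : Matrix (Fin m ⊕ Fin m) (Fin m ⊕ Fin m) F)).toBlocks₂₂ ∈
      symplecticGroup (Fin (m - k)) F := by
  have h1 := Matrix.fromBlocks_toBlocks (pblk hk (g : Matrix (Fin m ⊕ Fin m) (Fin m ⊕ Fin m) F))
  rw [hC] at h1
  have h2 := pblk_sp hk g
  rw [← h1] at h2
  obtain ⟨hB, hA, hD⟩ := blk_sp h2
  refine ⟨?_, hA, hD⟩
  conv_lhs => rw [← h1, hB]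

theorem sp_stab_std_iff (hk : k ≤ m) (g : symplecticGroup (Fin m) F) :
    g ∈ stabilizing (spToMat m F) (stdW F m k) ↔
      (pblk hk (g : Matrix (Fin m ⊕ Fin m) (Fin m ⊕ Fin m) F)).toBlocks₂₁ = 0 := by
  constructor
  · intro hg
    ext c a
    have h1 : (Pi.single (pairEquiv hk (Sum.inl a)) (1 : F) : Fin m ⊕ Fin m → F) ∈ stdW F m k := by
      rw [mem_stdW_iff hk]
      funext c'
      simp [Pi.single_apply, (pairEquiv hk).injective.eq_iff]
    have h2 := (hg _).mp h1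
    rw [mem_stdW_iff hk] at h2
    have h3 := congrFun h2 c
    change ((g : Matrix (Fin m ⊕ Fin m) (Fin m ⊕ Fin m) F) *ᵥ
      Pi.single (pairEquiv hk (Sum.inl a)) 1) (pairEquiv hk (Sum.inr c)) = 0 at h3
    rw [Matrix.mulVec_single_one] at h3
    exact h3
  · intro hC v
    obtain ⟨hN, hA, hD⟩ := std_data hk g hC
    have hdet : (pblk hk (g : Matrix (Fin m ⊕ Fin m) (Fin m ⊕ Fin m) F)).toBlocks₂₂.det ≠ 0 :=
      (SymplecticGroup.symplectic_det hD).ne_zero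
    show v ∈ stdW F m k ↔ (g : Matrix (Fin m ⊕ Fin m) (Fin m ⊕ Fin m) F) *ᵥ v ∈ stdW F m k
    rw [mem_stdW_iff hk, mem_stdW_iff hk, pblk_mulVec, hN, Matrix.fromBlocks_mulVec]
    have e1 : (Sum.elim
        ((pblk hk (g : Matrix (Fin m ⊕ Fin m) (Fin m ⊕ Fin m) F)).toBlocks₁₁ *ᵥ
            ((v ∘ pairEquiv hk) ∘ Sum.inl) + (0 : Matrix _ _ F) *ᵥ ((v ∘ pairEquiv hk) ∘ Sum.inr))
        ((0 : Matrix _ _ F) *ᵥ ((v ∘ pairEquiv hk) ∘ Sum.inl) +
          (pblk hk (g : Matrix (Fin m ⊕ Fin m) (Fin m ⊕ Fin m) F)).toBlocks₂₂ *ᵥ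
            ((v ∘ pairEquiv hk) ∘ Sum.inr))) ∘ Sum.inr =
        (pblk hk (g : Matrix (Fin m ⊕ Fin m) (Fin m ⊕ Fin m) F)).toBlocks₂₂ *ᵥ
            ((v ∘ pairEquiv hk) ∘ Sum.inr) := by
      funext c
      simp
    rw [e1]
    constructor
    · intro h
      rw [h, Matrix.mulVec_zero]
    · intro h
      exact Matrix.eq_zero_of_mulVec_eq_zero hdet h

/-- the stabiliser of the standard non-degenerate subspace is `Sp_2k × Sp_2(m-k)`. -/
noncomputable def stdSplitEquiv (hk : k ≤ m) :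
    ↥(stabilizing (spToMat m F) (stdW F m k)) ≃*
      symplecticGroup (Fin k) F × symplecticGroup (Fin (m - k)) F where
  toFun g :=
    (⟨(pblk hk (g.1 : Matrix (Fin m ⊕ Fin m) (Fin m ⊕ Fin m) F)).toBlocks₁₁,
        (std_data hk g.1 ((sp_stab_std_iff hk g.1).mp g.2)).2.1⟩,
     ⟨(pblk hk (g.1 : Matrix (Fin m ⊕ Fin m) (Fin m ⊕ Fin m) F)).toBlocks₂₂,
        (std_data hk g.1 ((sp_stab_std_iff hk g.1).mp g.2)).2.2⟩)
  invFun p := ⟨⟨(fromBlocks (p.1 : Matrix (Fin k ⊕ Fin k) (Fin k ⊕ Fin k) F) 0 0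
        (p.2 : Matrix (Fin (m - k) ⊕ Fin (m - k)) (Fin (m - k) ⊕ Fin (m - k)) F)).submatrix
        (pairEquiv hk).symm (pairEquiv hk).symm, by
      rw [SymplecticGroup.mem_iff]
      conv_lhs => rw [← J_pair' (F := F) hk]
      conv_rhs => rw [← J_pair' (F := F) hk]
      rw [Matrix.transpose_submatrix, Matrix.submatrix_mul_equiv, Matrix.submatrix_mul_equiv,
        fromBlocks_transpose, fromBlocks_multiply, fromBlocks_multiply]
      have h1 := SymplecticGroup.mem_iff.mp p.1.2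
      have h2 := SymplecticGroup.mem_iff.mp p.2.2
      simp only [Matrix.mul_zero, Matrix.zero_mul, add_zero, zero_add, Matrix.transpose_zero, h1, h2]⟩,
    by
      rw [sp_stab_std_iff hk]
      ext c a
      simp [pblk, Matrix.toBlocks₂₁]⟩
  left_inv g := by
    apply Subtype.ext
    apply Subtype.ext
    have h := (std_data hk g.1 ((sp_stab_std_iff hk g.1).mp g.2)).1
    show (fromBlocks _ 0 0 _).submatrix (pairEquiv hk).symm (pairEquiv hk).symm = _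
    rw [← h]
    ext x y
    simp [pblk]
  right_inv p := by
    refine Prod.ext (Subtype.ext ?_) (Subtype.ext ?_)
    · ext x y
      simp [pblk, Matrix.toBlocks₁₁]
    · ext x y
      simp [pblk, Matrix.toBlocks₂₂]
  map_mul' g h := by
    have hg := (std_data hk g.1 ((sp_stab_std_iff hk g.1).mp g.2)).1
    have hh := (std_data hk h.1 ((sp_stab_std_iff hk h.1).mp h.2)).1
    have hmul : (((g * h).1 : symplecticGroup (Fin m) F) : Matrix (Fin m ⊕ Fin m) (Fin m ⊕ Fin m) F) =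
      (g.1 : Matrix (Fin m ⊕ Fin m) (Fin m ⊕ Fin m) F) *
        (h.1 : Matrix (Fin m ⊕ Fin m) (Fin m ⊕ Fin m) F) := rfl
    refine Prod.ext (Subtype.ext ?_) (Subtype.ext ?_)
    · show (pblk hk (((g * h).1 : symplecticGroup (Fin m) F) :
        Matrix (Fin m ⊕ Fin m) (Fin m ⊕ Fin m) F)).toBlocks₁₁ =
        (pblk hk (g.1 : Matrix (Fin m ⊕ Fin m) (Fin m ⊕ Fin m) F)).toBlocks₁₁ *
        (pblk hk (h.1 : Matrix (Fin m ⊕ Fin m) (Fin m ⊕ Fin m) F)).toBlocks₁₁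
      rw [hmul, pblk_mul]
      conv_lhs => rw [hg, hh, fromBlocks_multiply]
      simp
    · show (pblk hk (((g * h).1 : symplecticGroup (Fin m) F) :
        Matrix (Fin m ⊕ Fin m) (Fin m ⊕ Fin m) F)).toBlocks₂₂ =
        (pblk hk (g.1 : Matrix (Fin m ⊕ Fin m) (Fin m ⊕ Fin m) F)).toBlocks₂₂ *
        (pblk hk (h.1 : Matrix (Fin m ⊕ Fin m) (Fin m ⊕ Fin m) F)).toBlocks₂₂
      rw [hmul, pblk_mul]
      conv_lhs => rw [hg, hh, fromBlocks_multiply]
      simp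

end spsplit

end Cfsg.Agent.Helper13
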