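import Mathlib
import Cfsg.Prelude.Def_ClassicalGeometry
import Cfsg.Agent.Helper13.SpSplit
import Cfsg.Agent.Helper13.SympBasis
import Cfsg.Agent.Helper13.SympGen

set_option autoImplicit false

namespace Cfsg.Agent.Helper13

open Matrix Module

section spsplit2
variable {F : Type*} [Field F] {m k : ℕ}

/-- stabilisers of sets of vectors which correspond under a group element are isomorphic. -/
theorem stab_conj_equiv {H : Type*} [Group H] {ι : Type} [Fintype ι] [DecidableEq ι]
    (toMat : H →* Matrix ι ι F) (S S' : Set (ι → F)) (P : H)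
    (hP : ∀ v, v ∈ S ↔ toMat P *ᵥ v ∈ S') :
    Nonempty (↥(stabilizing toMat S') ≃* ↥(stabilizing toMat S)) := by
  have hPP : ∀ v, toMat P *ᵥ (toMat P⁻¹ *ᵥ v) = v := by
    intro v; rw [Matrix.mulVec_mulVec, ← map_mul, mul_inv_cancel, map_one, Matrix.one_mulVec]
  refine ⟨{ toFun := fun h => ⟨P⁻¹ * h.1 * P, ?_⟩
            invFun := fun h => ⟨P * h.1 * P⁻¹, ?_⟩
            left_inv := fun h => Subtype.ext (by simp [mul_assoc])
            right_inv := fun h => Subtype.ext (by simp [mul_assoc])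
            map_mul' := fun h h' => Subtype.ext (by simp [mul_assoc]) }⟩
  · intro v
    have h2 : ∀ w, w ∈ S' ↔ toMat h.1 *ᵥ w ∈ S' := h.2
    rw [hP v, h2 (toMat P *ᵥ v), hP (toMat (P⁻¹ * h.1 * P) *ᵥ v)]
    rw [map_mul, map_mul, ← Matrix.mulVec_mulVec, ← Matrix.mulVec_mulVec, hPP]
  · intro v
    have h2 : ∀ w, w ∈ S ↔ toMat h.1 *ᵥ w ∈ S := h.2
    have h1 : v ∈ S' ↔ toMat P⁻¹ *ᵥ v ∈ S := by rw [hP, hPP]
    rw [h1, h2 (toMat P⁻¹ *ᵥ v), hP]
    rw [map_mul, map_mul, ← Matrix.mulVec_mulVec, ← Matrix.mulVec_mulVec]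

theorem sympForm_split (hk : k ≤ m) (u v : Fin m ⊕ Fin m → F) :
    sympForm m F u v =
      sympForm k F ((u ∘ pairEquiv hk) ∘ Sum.inl) ((v ∘ pairEquiv hk) ∘ Sum.inl) +
      sympForm (m - k) F ((u ∘ pairEquiv hk) ∘ Sum.inr) ((v ∘ pairEquiv hk) ∘ Sum.inr) := by
  rw [sympForm_def, sympForm_def, sympForm_def]
  have h1 : u ⬝ᵥ (J (Fin m) F *ᵥ v) =
      (u ∘ pairEquiv hk) ⬝ᵥ ((J (Fin m) F *ᵥ v) ∘ pairEquiv hk) := by
    simp only [dotProduct, Function.comp]
    rw [Equiv.sum_comp (pairEquiv hk) (fun x => u x * (J (Fin m) F *ᵥ v) x)]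
  rw [h1, pblk_mulVec, pblk, J_pair, Matrix.fromBlocks_mulVec]
  simp only [dotProduct, Fintype.sum_sum_type, Sum.elim_inl, Sum.elim_inr, Function.comp]
  simp

/-- the standard non-degenerate subspace as a submodule. -/
def stdSub (F : Type*) [Field F] (m k : ℕ) : Submodule F (Fin m ⊕ Fin m → F) where
  carrier := stdW F m k
  add_mem' := by
    intro a b ha hb i hi
    simp [(ha i hi).1, (ha i hi).2, (hb i hi).1, (hb i hi).2]
  zero_mem' := by intro i _; exact ⟨rfl, rfl⟩
  smul_mem' := by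
    intro c x hx i hi
    simp [(hx i hi).1, (hx i hi).2]

theorem exists_sp_std (hk : k ≤ m) (W : Submodule F (Fin m ⊕ Fin m → F))
    (hWk : finrank F W = 2 * k)
    (hW : ∀ u ∈ W, (∀ v ∈ W, sympForm m F u v = 0) → u = 0) :
    ∃ P : symplecticGroup (Fin m) F, ∀ v, v ∈ stdW F m k ↔
      (P : Matrix (Fin m ⊕ Fin m) (Fin m ⊕ Fin m) F) *ᵥ v ∈ W := by
  classical
  set BW : LinearMap.BilinForm F W := (sympB m F).restrict W with hBW
  have hBW_apply : ∀ x y : W, BW x y = sympForm m F x y := fun x y => rfl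
  have hA : BW.IsAlt := fun x => sympForm_self _
  obtain ⟨m', k', b, h1, h2, h3, h4⟩ := exists_symplectic_basis BW hA
  have hk' : k' = 0 := by
    by_contra hne
    have j : Fin k' := ⟨0, Nat.pos_of_ne_zero hne⟩
    have hz : (b (Sum.inr j) : Fin m ⊕ Fin m → F) = 0 := by
      apply hW _ (b (Sum.inr j)).2
      intro v hv
      exact h4 j ⟨v, hv⟩
    exact b.ne_zero (Sum.inr j) (Subtype.ext hz)
  subst hk'
  have hm' : m' = k := by
    have := Module.finrank_eq_card_basis b
    rw [hWk] at this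
    simp only [Fintype.card_sum, Fintype.card_fin] at this
    omega
  subst hm'
  let p : Fin m' ⊕ Fin m' → (Fin m ⊕ Fin m → F) :=
    fun a => (b (Sum.inl (Sum.swap a)) : Fin m ⊕ Fin m → F)
  have hpW : ∀ a, p a ∈ W := fun a => (b _).2
  have hGram : ∀ a c, sympForm m F (p a) (p c) = J (Fin m') F a c := by
    rintro (i | i) (j | j)
    · have := h3 i j
      rw [hBW_apply] at this
      simpa [p, J] using this
    · have := h1 j i
      rw [hBW_apply] at this
      have h5 : sympForm m F (p (Sum.inl i)) (p (Sum.inr j)) =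
          - sympForm m F (b (Sum.inl (Sum.inl j)) : Fin m ⊕ Fin m → F)
            (b (Sum.inl (Sum.inr i)) : Fin m ⊕ Fin m → F) := sympForm_swap _ _
      rw [h5, this]
      by_cases hij : i = j
      · subst hij; simp [J]
      · simp [J, Matrix.one_apply, hij, Ne.symm hij]
    · have := h1 i j
      rw [hBW_apply] at this
      have h5 : sympForm m F (p (Sum.inr i)) (p (Sum.inl j)) =
          sympForm m F (b (Sum.inl (Sum.inl i)) : Fin m ⊕ Fin m → F)
            (b (Sum.inl (Sum.inr j)) : Fin m ⊕ Fin m → F) := rfl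
      rw [h5, this]
      simp [J, Matrix.one_apply]
    · have := h2 i j
      rw [hBW_apply] at this
      simpa [p, J] using this
  let f : (Fin m ⊕ Fin m → F) →ₗ[F] (Fin m ⊕ Fin m → F) :=
    ∑ a : Fin m' ⊕ Fin m', (LinearMap.proj (pairEquiv hk (Sum.inl a))).smulRight (p a)
  have hf : ∀ x, f x = ∑ a, x (pairEquiv hk (Sum.inl a)) • p a := by
    intro x; simp [f, LinearMap.sum_apply]
  have hfW : ∀ x, f x ∈ W := fun x => by
    rw [hf]; exact W.sum_mem (fun a _ => W.smul_mem _ (hpW a))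
  have hfiso : ∀ x x', sympForm m F (f x) (f x') =
      sympForm m' F ((x ∘ pairEquiv hk) ∘ Sum.inl) ((x' ∘ pairEquiv hk) ∘ Sum.inl) := by
    intro x x'
    rw [hf, hf, ← sympB_apply]
    simp only [map_sum, map_smul, LinearMap.smul_apply, LinearMap.sum_apply, sympB_apply, hGram,
      smul_eq_mul]
    rw [sympForm_def]
    simp only [dotProduct, mulVec, Function.comp, Finset.mul_sum]
    rw [Finset.sum_comm]
    apply Finset.sum_congr rfl
    intro a _
    apply Finset.sum_congr rfl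
    intro c _
    ring
  have hiso : ∀ x ∈ stdSub F m m', ∀ x' ∈ stdSub F m m',
      sympB m F (f x) (f x') = sympB m F x x' := by
    intro x hx x' hx'
    rw [sympB_apply, sympB_apply, hfiso, sympForm_split hk x x']
    have hx2 : (x ∘ pairEquiv hk) ∘ Sum.inr = 0 := (mem_stdW_iff hk x).mp hx
    rw [hx2, sympForm_zero_left, add_zero]
  have hinj : ∀ x ∈ stdSub F m m', f x = 0 → x = 0 := by
    intro x hx hfx
    have hx2 : (x ∘ pairEquiv hk) ∘ Sum.inr = 0 := (mem_stdW_iff hk x).mp hx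
    have hx1 : (x ∘ pairEquiv hk) ∘ Sum.inl = 0 := by
      apply sympForm_sep
      intro y₁
      have h5 := hfiso x ((Sum.elim y₁ 0) ∘ (pairEquiv hk).symm)
      rw [hfx, sympForm_zero_left] at h5
      have h6 : ((Sum.elim y₁ (0 : Fin (m - m') ⊕ Fin (m - m') → F) ∘ (pairEquiv hk).symm) ∘
          pairEquiv hk) ∘ Sum.inl = y₁ := by
        funext a; simp
      rw [h6] at h5
      exact h5.symm
    funext z
    obtain ⟨c, rfl⟩ := (pairEquiv hk).surjective z
    rcases c with a | c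
    · exact congrFun hx1 a
    · exact congrFun hx2 c
  obtain ⟨g, hgTG, hgf⟩ := witt_alt (sympB m F) sympB_nondegenerate sympB_isAlt (stdSub F m m') f
    hiso hinj
  obtain ⟨A, -, hAg⟩ := TG_to_matrix g hgTG
  refine ⟨A, fun v => ⟨fun hv => ?_, fun hv => ?_⟩⟩
  · rw [← hAg, hgf v hv]; exact hfW v
  · let w : W := ⟨(A : Matrix (Fin m ⊕ Fin m) (Fin m ⊕ Fin m) F) *ᵥ v, hv⟩
    let x : Fin m ⊕ Fin m → F :=
      (Sum.elim (fun a => b.repr w (Sum.inl (Sum.swap a))) 0) ∘ (pairEquiv hk).symm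
    have hxX : x ∈ stdW F m m' := by
      rw [mem_stdW_iff hk]
      funext c
      simp [x]
    have hfx : f x = (A : Matrix (Fin m ⊕ Fin m) (Fin m ⊕ Fin m) F) *ᵥ v := by
      rw [hf]
      have e1 : ∀ a : Fin m' ⊕ Fin m', x (pairEquiv hk (Sum.inl a)) • p a =
          (b.repr w (Sum.inl (Sum.swap a)) • b (Sum.inl (Sum.swap a)) : W) := by
        intro a; simp [x, p]
      simp only [e1]
      have e3 : ∑ a : Fin m' ⊕ Fin m',
          ((b.repr w (Sum.inl a.swap) • b (Sum.inl a.swap) : W) : Fin m ⊕ Fin m → F) =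
          ∑ a : Fin m' ⊕ Fin m', ((b.repr w (Sum.inl a) • b (Sum.inl a) : W) : Fin m ⊕ Fin m → F) :=
        Equiv.sum_comp (Equiv.sumComm (Fin m') (Fin m'))
          (fun a => ((b.repr w (Sum.inl a) • b (Sum.inl a) : W) : Fin m ⊕ Fin m → F))
      rw [e3]
      have e2 := congrArg Subtype.val (b.sum_repr w)
      rw [Fintype.sum_sum_type] at e2
      simp only [Finset.univ_eq_empty, Finset.sum_empty, add_zero] at e2
      rw [← AddSubmonoidClass.coe_finsetSum]
      exact e2
    have h7 : g x = g v := by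
      rw [hgf x hxX, hfx, hAg]
    have h8 : x = v := g.injective h7
    rw [← h8]; exact hxX

/-- S0776: the stabiliser of a non-degenerate subspace of dimension `2k` in `Sp_2m`. -/
theorem sp_stab_nondeg (hk : k ≤ m) (W : Submodule F (Fin m ⊕ Fin m → F))
    (hWk : finrank F W = 2 * k)
    (hW : ∀ u ∈ W, (∀ v ∈ W, sympForm m F u v = 0) → u = 0) :
    Nonempty (↥(stabilizing (spToMat m F) (W : Set (Fin m ⊕ Fin m → F))) ≃*
      symplecticGroup (Fin k) F × symplecticGroup (Fin (m - k)) F) := by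
  obtain ⟨P, hP⟩ := exists_sp_std hk W hWk hW
  obtain ⟨e1⟩ := stab_conj_equiv (spToMat m F) (stdW F m k) (W : Set (Fin m ⊕ Fin m → F)) P hP
  exact ⟨e1.trans (stdSplitEquiv hk)⟩

end spsplit2

end Cfsg.Agent.Helper13
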