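import Mathlib
import Cfsg.Agent.Helper5.SympCard
import Cfsg.Agent.Helper13.SpBlocks
import Cfsg.Agent.Helper13.SpSplit2
import Cfsg.Agent.Helper13.Parabolic

set_option autoImplicit false

namespace Cfsg.Agent.Helper13

open Matrix

section spparab
variable {F : Type*} [Field F] {m k : ℕ}

/-- the standard isotropic vectors `e_i`, `i < k`. -/
def eV (hk : k ≤ m) (F : Type*) [Field F] (i : Fin k) : Fin m ⊕ Fin m → F :=
  Pi.single (Sum.inl (Fin.castLE hk i)) 1

/-- the dual vectors `f_i`, `i < k`. -/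
def fV (hk : k ≤ m) (F : Type*) [Field F] (i : Fin k) : Fin m ⊕ Fin m → F :=
  Pi.single (Sum.inr (Fin.castLE hk i)) (-1)

theorem bvec_inr_eq (j : Fin m) :
    Helper5.bvec m F (Sum.inr j) = Pi.single (Sum.inl j) 1 := by
  unfold Helper5.bvec
  rw [Matrix.neg_mulVec, Helper5.J_mulVec_apply]
  funext c
  rcases c with c | c
  · simp [Pi.single_apply]
  · simp [Pi.single_apply]

theorem bvec_inl_eq (j : Fin m) :
    Helper5.bvec m F (Sum.inl j) = Pi.single (Sum.inr j) (-1) := by
  unfold Helper5.bvec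
  rw [Matrix.neg_mulVec, Helper5.J_mulVec_apply]
  funext c
  rcases c with c | c
  · simp [Pi.single_apply]
  · simp only [Pi.neg_apply, Sum.elim_inr, Pi.single_apply, Sum.inl.injEq, Sum.inr.injEq]
    split_ifs <;> simp

theorem eV_eq (hk : k ≤ m) (i : Fin k) :
    eV hk F i = Helper5.bvec m F (Sum.inr (Fin.castLE hk i)) := (bvec_inr_eq _).symm

theorem fV_eq (hk : k ≤ m) (i : Fin k) :
    fV hk F i = Helper5.bvec m F (Sum.inl (Fin.castLE hk i)) := (bvec_inl_eq _).symm

theorem sympForm_eV (hk : k ≤ m) (x : Fin m ⊕ Fin m → F) (i : Fin k) :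
    Cfsg.sympForm m F x (eV hk F i) = x (Sum.inr (Fin.castLE hk i)) := by
  rw [eV_eq, Helper5.sympForm_bvec]

theorem sympForm_fV (hk : k ≤ m) (x : Fin m ⊕ Fin m → F) (i : Fin k) :
    Cfsg.sympForm m F x (fV hk F i) = x (Sum.inl (Fin.castLE hk i)) := by
  rw [fV_eq, Helper5.sympForm_bvec]

/-- the chain of subgroups of `Sp` fixing all `e_i` and the `f_i` with `i < j`. -/
def Qs (hk : k ≤ m) (F : Type*) [Field F] (j : ℕ) : Subgroup (symplecticGroup (Fin m) F) where
  carrier := {g | (∀ i : Fin k, g.1 *ᵥ eV hk F i = eV hk F i) ∧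
    (∀ i : Fin k, (i : ℕ) < j → g.1 *ᵥ fV hk F i = fV hk F i)}
  one_mem' := ⟨fun i => by rw [Helper5.sp_coe_one, one_mulVec],
    fun i _ => by rw [Helper5.sp_coe_one, one_mulVec]⟩
  mul_mem' := by
    intro g h hg hh
    exact ⟨fun i => by rw [Helper5.sp_mul_mulVec, hh.1 i, hg.1 i],
      fun i hi => by rw [Helper5.sp_mul_mulVec, hh.2 i hi, hg.2 i hi]⟩
  inv_mem' := by
    intro g hg
    refine ⟨fun i => ?_, fun i hi => ?_⟩
    · have := Helper5.sp_inv_mulVec g (eV hk F i)
      rw [hg.1 i] at this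
      exact this
    · have := Helper5.sp_inv_mulVec g (fV hk F i)
      rw [hg.2 i hi] at this
      exact this

theorem mem_Qs (hk : k ≤ m) (j : ℕ) (g : symplecticGroup (Fin m) F) :
    g ∈ Qs hk F j ↔ (∀ i : Fin k, g.1 *ᵥ eV hk F i = eV hk F i) ∧
      (∀ i : Fin k, (i : ℕ) < j → g.1 *ᵥ fV hk F i = fV hk F i) := Iff.rfl

theorem Qs_mono (hk : k ≤ m) (j : ℕ) : Qs hk F (j + 1) ≤ Qs hk F j := by
  intro g hg
  exact ⟨hg.1, fun i hi => hg.2 i (by omega)⟩

/-- the orbit of `f_j` under `Qs j`. -/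
def Oset (hk : k ≤ m) (F : Type*) [Field F] (j : ℕ) (hj : j < k) : Set (Fin m ⊕ Fin m → F) :=
  {y | (∀ i : Fin k, y (Sum.inr (Fin.castLE hk i)) = if i = ⟨j, hj⟩ then -1 else 0) ∧
    (∀ i : Fin k, (i : ℕ) < j → y (Sum.inl (Fin.castLE hk i)) = 0)}

theorem castLE_inj (hk : k ≤ m) (i l : Fin k) : Fin.castLE hk i = Fin.castLE hk l ↔ i = l := by
  constructor
  · intro h
    apply Fin.ext
    have := congrArg Fin.val h
    simpa using this
  · intro h; rw [h]

theorem fV_mem_Oset (hk : k ≤ m) (j : ℕ) (hj : j < k) : fV hk F ⟨j, hj⟩ ∈ Oset hk F j hj := by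
  constructor
  · intro i
    unfold fV
    rw [Pi.single_apply]
    simp only [Sum.inr.injEq, castLE_inj]
  · intro i _
    unfold fV
    rw [Pi.single_apply, if_neg (by simp)]

theorem Qs_smul (hk : k ≤ m) (j : ℕ) (g : Qs hk F j) (y : Fin m ⊕ Fin m → F) :
    g • y = ((g : symplecticGroup (Fin m) F) : Matrix (Fin m ⊕ Fin m) (Fin m ⊕ Fin m) F) *ᵥ y :=
  rfl

theorem orbit_Qs (hk : k ≤ m) (j : ℕ) (hj : j < k) :
    MulAction.orbit (Qs hk F j) (fV hk F ⟨j, hj⟩) = Oset hk F j hj := by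
  ext y
  constructor
  · rintro ⟨g, rfl⟩
    change g • _ ∈ _
    rw [Qs_smul]
    have hO := fV_mem_Oset (F := F) hk j hj
    constructor
    · intro i
      have h1 := sympForm_eV hk (((g : symplecticGroup (Fin m) F) :
        Matrix (Fin m ⊕ Fin m) (Fin m ⊕ Fin m) F) *ᵥ fV hk F ⟨j, hj⟩) i
      rw [← h1]
      conv_lhs => rw [← g.2.1 i]
      rw [Helper5.sp_sympForm, sympForm_eV]
      exact hO.1 i
    · intro i hi
      have h1 := sympForm_fV hk (((g : symplecticGroup (Fin m) F) :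
        Matrix (Fin m ⊕ Fin m) (Fin m ⊕ Fin m) F) *ᵥ fV hk F ⟨j, hj⟩) i
      rw [← h1]
      conv_lhs => rw [← g.2.2 i hi]
      rw [Helper5.sp_sympForm, sympForm_fV]
      exact hO.2 i hi
  · intro hy
    set B := Helper5.sympBil m F with hB
    set X₀ : Submodule F (Fin m ⊕ Fin m → F) :=
      Submodule.span F (Set.range (eV hk F) ∪ (fV hk F) '' {i | (i : ℕ) < j}) with hX₀
    have hO := fV_mem_Oset (F := F) hk j hj
    have hc1 : ∀ z ∈ X₀, B y z = B (fV hk F ⟨j, hj⟩) z := by
      intro z hz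
      induction hz using Submodule.span_induction with
      | mem z hz =>
        rcases hz with ⟨i, rfl⟩ | ⟨i, hi, rfl⟩
        · show Cfsg.sympForm m F y (eV hk F i) = Cfsg.sympForm m F (fV hk F ⟨j, hj⟩) (eV hk F i)
          rw [sympForm_eV, sympForm_eV, hy.1 i, hO.1 i]
        · show Cfsg.sympForm m F y (fV hk F i) = Cfsg.sympForm m F (fV hk F ⟨j, hj⟩) (fV hk F i)
          rw [sympForm_fV, sympForm_fV, hy.2 i hi, hO.2 i hi]
      | zero => rw [map_zero, map_zero]
      | add a b _ _ ha hb => rw [map_add, map_add, ha, hb]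
      | smul c a _ ha => rw [map_smul, map_smul, ha]
    have hperp : ∀ z ∈ X₀, B z (eV hk F ⟨j, hj⟩) = 0 := by
      intro z hz
      induction hz using Submodule.span_induction with
      | mem z hz =>
        rcases hz with ⟨i, rfl⟩ | ⟨i, hi, rfl⟩
        · show Cfsg.sympForm m F (eV hk F i) (eV hk F ⟨j, hj⟩) = 0
          rw [sympForm_eV]
          unfold eV
          rw [Pi.single_apply, if_neg (by simp)]
        · show Cfsg.sympForm m F (fV hk F i) (eV hk F ⟨j, hj⟩) = 0
          rw [sympForm_eV]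
          unfold fV
          rw [Pi.single_apply, if_neg]
          simp only [Sum.inr.injEq, castLE_inj]
          intro h
          have hi' : (i : ℕ) < j := hi
          rw [← h] at hi'
          simp at hi'
      | zero => rw [map_zero, LinearMap.zero_apply]
      | add a b _ _ ha hb => rw [map_add, LinearMap.add_apply, ha, hb, add_zero]
      | smul c a _ ha => rw [map_smul, LinearMap.smul_apply, ha, smul_zero]
    have hx₀ : fV hk F ⟨j, hj⟩ ∉ X₀ := by
      intro h
      have := hperp _ h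
      have h2 : B (fV hk F ⟨j, hj⟩) (eV hk F ⟨j, hj⟩) = -1 := by
        show Cfsg.sympForm m F (fV hk F ⟨j, hj⟩) (eV hk F ⟨j, hj⟩) = -1
        rw [sympForm_eV, hO.1, if_pos rfl]
      rw [h2] at this
      exact neg_ne_zero.mpr one_ne_zero this
    have hy₀ : y ∉ X₀ := by
      intro h
      have := hperp _ h
      have h2 : B y (eV hk F ⟨j, hj⟩) = -1 := by
        show Cfsg.sympForm m F y (eV hk F ⟨j, hj⟩) = -1
        rw [sympForm_eV, hy.1, if_pos rfl]
      rw [h2] at this
      exact neg_ne_zero.mpr one_ne_zero this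
    have hc : ∀ z ∈ X₀, B z y = B z (fV hk F ⟨j, hj⟩) ∧ B y z = B (fV hk F ⟨j, hj⟩) z := by
      intro z hz
      refine ⟨?_, hc1 z hz⟩
      show Cfsg.sympForm m F z y = Cfsg.sympForm m F z (fV hk F ⟨j, hj⟩)
      rw [sympForm_swap z y, sympForm_swap z (fV hk F ⟨j, hj⟩)]
      exact congrArg Neg.neg (hc1 z hz)
    obtain ⟨t, htG, htfix, hty⟩ := alt_step B Helper5.sympBil_nondegenerate Helper5.sympBil_isAlt
      X₀ (fV hk F ⟨j, hj⟩) y hx₀ hy₀ hc (by
        show Cfsg.sympForm m F y y = Cfsg.sympForm m F _ _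
        rw [sympForm_self, sympForm_self])
    obtain ⟨s, _, hs⟩ := Helper5.exists_spT_of_TG t htG
    have hsQ : s ∈ Qs hk F j := by
      constructor
      · intro i
        rw [← hs]
        exact htfix _ (Submodule.subset_span (Or.inl ⟨i, rfl⟩))
      · intro i hi
        rw [← hs]
        exact htfix _ (Submodule.subset_span (Or.inr ⟨i, hi, rfl⟩))
    refine ⟨⟨s, hsQ⟩, ?_⟩
    change (⟨s, hsQ⟩ : Qs hk F j) • _ = y
    rw [Qs_smul, ← hs]
    exact hty

theorem stabilizer_Qs (hk : k ≤ m) (j : ℕ) (hj : j < k) :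
    MulAction.stabilizer (Qs hk F j) (fV hk F ⟨j, hj⟩) =
      (Qs hk F (j + 1)).subgroupOf (Qs hk F j) := by
  ext g
  rw [MulAction.mem_stabilizer_iff, Qs_smul, Subgroup.mem_subgroupOf, mem_Qs]
  constructor
  · intro h
    refine ⟨g.2.1, fun i hi => ?_⟩
    by_cases hij : (i : ℕ) < j
    · exact g.2.2 i hij
    · have : i = ⟨j, hj⟩ := Fin.ext (by simp only; omega)
      rw [this]
      exact h
  · intro h
    exact h.2 ⟨j, hj⟩ (Nat.lt_succ_self j)

omit [Field F] in
/-- counting functions with prescribed values on a finite set of coordinates. -/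
theorem card_prescribed {ι : Type*} [Fintype ι] [DecidableEq ι] [Fintype F] (A : Finset ι)
    (p : ι → F) :
    Nat.card {y : ι → F // ∀ a ∈ A, y a = p a} = Fintype.card F ^ (Fintype.card ι - A.card) := by
  have e : {y : ι → F // ∀ a ∈ A, y a = p a} ≃ ({a : ι // a ∉ A} → F) :=
    { toFun := fun y a => y.1 a.1
      invFun := fun x => ⟨fun a => if h : a ∈ A then p a else x ⟨a, h⟩, fun a ha => by
        simp only [dif_pos ha]⟩
      left_inv := by
        intro y
        apply Subtype.ext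
        funext a
        by_cases h : a ∈ A
        · simp only [dif_pos h]
          exact (y.2 a h).symm
        · simp only [dif_neg h]
      right_inv := by
        intro x
        funext a
        simp only [dif_neg a.2] }
  rw [Nat.card_congr e, Nat.card_fun, Nat.card_eq_fintype_card, Nat.card_eq_fintype_card,
    Fintype.card_subtype_compl, Fintype.card_coe]

theorem card_Oset [Fintype F] (hk : k ≤ m) (j : ℕ) (hj : j < k) :
    Nat.card (Oset hk F j hj) = Fintype.card F ^ (2 * m - k - j) := by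
  classical
  let A : Finset (Fin m ⊕ Fin m) :=
    (Finset.univ.image (fun i : Fin k => (Sum.inr (Fin.castLE hk i) : Fin m ⊕ Fin m))) ∪
      ((Finset.univ.filter (fun i : Fin k => (i : ℕ) < j)).image
        (fun i : Fin k => (Sum.inl (Fin.castLE hk i) : Fin m ⊕ Fin m)))
  let p : Fin m ⊕ Fin m → F := fun a => if a = Sum.inr (Fin.castLE hk ⟨j, hj⟩) then -1 else 0
  have hset : Oset hk F j hj = {y : Fin m ⊕ Fin m → F | ∀ a ∈ A, y a = p a} := by
    ext y
    constructor
    · intro hy a ha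
      simp only [A, Finset.mem_union, Finset.mem_image, Finset.mem_univ, true_and,
        Finset.mem_filter] at ha
      rcases ha with ⟨i, rfl⟩ | ⟨i, hi, rfl⟩
      · rw [hy.1 i]
        simp only [p, Sum.inr.injEq, castLE_inj]
      · rw [hy.2 i hi]
        simp only [p]
        rw [if_neg (by simp)]
    · intro hy
      constructor
      · intro i
        have := hy (Sum.inr (Fin.castLE hk i)) (by
          simp only [A, Finset.mem_union, Finset.mem_image, Finset.mem_univ, true_and]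
          exact Or.inl ⟨i, rfl⟩)
        rw [this]
        simp only [p, Sum.inr.injEq, castLE_inj]
      · intro i hi
        have := hy (Sum.inl (Fin.castLE hk i)) (by
          simp only [A, Finset.mem_union, Finset.mem_image, Finset.mem_univ, true_and,
            Finset.mem_filter]
          exact Or.inr ⟨i, hi, rfl⟩)
        rw [this]
        simp only [p]
        rw [if_neg (by simp)]
  have hA : A.card = k + j := by
    rw [Finset.card_union_of_disjoint, Finset.card_image_of_injective,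
      Finset.card_image_of_injective, Finset.card_univ, Fintype.card_fin,
      Fin.card_filter_val_lt]
    · rw [min_eq_right (le_of_lt hj)]
    · intro a b h
      simpa [castLE_inj] using h
    · intro a b h
      simpa [castLE_inj] using h
    · rw [Finset.disjoint_left]
      intro a ha hb
      simp only [Finset.mem_image, Finset.mem_univ, true_and, Finset.mem_filter] at ha hb
      obtain ⟨i, rfl⟩ := ha
      obtain ⟨l, _, hl⟩ := hb
      exact Sum.inl_ne_inr hl
  rw [hset]
  have := card_prescribed (F := F) A p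
  rw [hA, Fintype.card_sum, Fintype.card_fin] at this
  rw [show 2 * m - k - j = m + m - (k + j) by omega]
  exact this

/-- the orbit–stabiliser step for the chain `Qs`. -/
theorem card_Qs_step [Fintype F] (hk : k ≤ m) (j : ℕ) (hj : j < k) :
    Nat.card (Qs hk F j) = Fintype.card F ^ (2 * m - k - j) * Nat.card (Qs hk F (j + 1)) := by
  have e := MulAction.orbitProdStabilizerEquivGroup (Qs hk F j) (fV hk F ⟨j, hj⟩)
  rw [← Nat.card_congr e, Nat.card_prod, orbit_Qs hk j hj, stabilizer_Qs hk j hj,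
    Nat.card_congr (Subgroup.subgroupOfEquivOfLe (Qs_mono hk j)).toEquiv, card_Oset]

theorem card_Qs_chain [Fintype F] (hk : k ≤ m) : ∀ j : ℕ, j ≤ k →
    Nat.card (Qs hk F 0) =
      Fintype.card F ^ (∑ i ∈ Finset.range j, (2 * m - k - i)) * Nat.card (Qs hk F j) := by
  intro j
  induction j with
  | zero => intro _; simp
  | succ j ih =>
    intro hj
    rw [ih (by omega), card_Qs_step hk j (by omega), Finset.sum_range_succ, pow_add, mul_assoc]

theorem Qs_top_eq (hk : k ≤ m) :
    Qs hk F k = Helper5.spFix F (Finset.univ.image (Fin.castLE hk)) := by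
  ext g
  rw [mem_Qs, Helper5.mem_spFix]
  constructor
  · rintro ⟨h1, h2⟩ a ha
    rcases a with a | a
    · have ha' : a ∈ Finset.univ.image (Fin.castLE hk) := ha
      rw [Finset.mem_image] at ha'
      obtain ⟨i, _, rfl⟩ := ha'
      rw [← fV_eq]
      exact h2 i i.2
    · have ha' : a ∈ Finset.univ.image (Fin.castLE hk) := ha
      rw [Finset.mem_image] at ha'
      obtain ⟨i, _, rfl⟩ := ha'
      rw [← eV_eq]
      exact h1 i
  · intro h
    constructor
    · intro i
      rw [eV_eq]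
      exact h _ (by
        show Fin.castLE hk i ∈ Finset.univ.image (Fin.castLE hk)
        exact Finset.mem_image.mpr ⟨i, Finset.mem_univ _, rfl⟩)
    · intro i _
      rw [fV_eq]
      exact h _ (by
        show Fin.castLE hk i ∈ Finset.univ.image (Fin.castLE hk)
        exact Finset.mem_image.mpr ⟨i, Finset.mem_univ _, rfl⟩)

theorem card_Qs_top [Fintype F] (hk : k ≤ m) :
    Nat.card (Qs hk F k) = Fintype.card F ^ ((m - k) ^ 2) *
      ∏ i ∈ Finset.range (m - k), (Fintype.card F ^ (2 * (i + 1)) - 1) := by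
  rw [Qs_top_eq]
  apply Helper5.card_spFix
  rw [Finset.card_image_of_injective, Finset.card_univ, Fintype.card_fin]
  intro a b h
  exact (castLE_inj hk a b).mp h

theorem sum_exponent (hk : k ≤ m) :
    ∑ i ∈ Finset.range k, (2 * m - k - i) = k * (k + 1) / 2 + 2 * k * (m - k) := by
  obtain ⟨d, rfl⟩ : ∃ d, m = k + d := ⟨m - k, by omega⟩
  have h1 : ∑ i ∈ Finset.range k, (2 * (k + d) - k - i) + ∑ i ∈ Finset.range k, i
      = k * (k + 2 * d) := by
    rw [← Finset.sum_add_distrib]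
    have hterm : ∀ i ∈ Finset.range k, 2 * (k + d) - k - i + i = k + 2 * d := by
      intro i hi
      rw [Finset.mem_range] at hi
      omega
    rw [Finset.sum_congr rfl hterm, Finset.sum_const, Finset.card_range, smul_eq_mul]
  have h2 := Finset.sum_range_id_mul_two k
  have h3 : k * (k + 1) / 2 * 2 = k * (k + 1) :=
    Nat.div_mul_cancel (Nat.even_mul_succ_self k).two_dvd
  have e1 : k * (k + 1) = k * k + k := by ring
  have e2 : k * (k - 1) + k = k * k := by
    rcases k with _ | k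
    · simp
    · simp only [Nat.add_sub_cancel]; ring
  have e3 : k * (k + 2 * d) = k * k + 2 * (k * d) := by ring
  have e4 : 2 * k * (k + d - k) = 2 * (k * d) := by
    rw [Nat.add_sub_cancel_left]; ring
  rw [e4]
  rw [e3] at h1
  generalize k * (k + 1) / 2 = a at *
  rw [e1] at h3
  generalize k * k = P at *
  generalize k * d = R at *
  generalize k * (k - 1) = U at *
  generalize ∑ i ∈ Finset.range k, (2 * (k + d) - k - i) = S at *
  generalize ∑ i ∈ Finset.range k, i = T at *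
  omega

/-- the standard totally isotropic subspace (as a set). -/
def S0 (F : Type*) [Field F] (m k : ℕ) : Set (Fin m ⊕ Fin m → F) :=
  {v | (∀ a : Fin m, v (Sum.inr a) = 0) ∧ (∀ a : Fin m, k ≤ (a : ℕ) → v (Sum.inl a) = 0)}

theorem eV_mem_S0 (hk : k ≤ m) (i : Fin k) : eV hk F i ∈ S0 F m k := by
  constructor
  · intro a
    unfold eV
    rw [Pi.single_apply, if_neg (by simp)]
  · intro a ha
    unfold eV
    rw [Pi.single_apply, if_neg]
    simp only [Sum.inl.injEq]
    intro h
    rw [h] at ha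
    simp at ha
    omega

theorem S0_supp (hk : k ≤ m) (v : Fin m ⊕ Fin m → F) (hv : v ∈ S0 F m k)
    (a : Fin m ⊕ Fin m) (ha : ∀ i : Fin k, a ≠ Sum.inl (Fin.castLE hk i)) : v a = 0 := by
  rcases a with x | x
  · by_cases hx : (x : ℕ) < k
    · exfalso
      exact ha ⟨x, hx⟩ rfl
    · exact hv.2 x (by omega)
  · exact hv.1 x

/-- sums over the index set of functions supported on the first `k` left coordinates. -/
theorem sum_eq_sum_castLE (hk : k ≤ m) (G : Fin m ⊕ Fin m → F)
    (hG : ∀ a, (∀ i : Fin k, a ≠ Sum.inl (Fin.castLE hk i)) → G a = 0) :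
    ∑ a, G a = ∑ i : Fin k, G (Sum.inl (Fin.castLE hk i)) := by
  classical
  rw [← Finset.sum_image (s := Finset.univ)
    (g := fun i : Fin k => (Sum.inl (Fin.castLE hk i) : Fin m ⊕ Fin m)) (f := G)
    (by intro x _ y _ h; simpa [castLE_inj] using h)]
  symm
  apply Finset.sum_subset (Finset.subset_univ _)
  intro a _ ha
  apply hG
  intro i hi
  exact ha (Finset.mem_image.mpr ⟨i, Finset.mem_univ _, hi.symm⟩)

theorem mulVec_eV (hk : k ≤ m) (g : Matrix (Fin m ⊕ Fin m) (Fin m ⊕ Fin m) F) (l : Fin k)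
    (a : Fin m ⊕ Fin m) : (g *ᵥ eV hk F l) a = g a (Sum.inl (Fin.castLE hk l)) := by
  unfold eV
  rw [Matrix.mulVec_single_one]
  rfl

/-- an invertible map preserving a finite set stabilises it. -/
theorem mem_stab_of_finite [Finite F] (g : symplecticGroup (Fin m) F)
    (S : Set (Fin m ⊕ Fin m → F)) (h : ∀ v ∈ S, g.1 *ᵥ v ∈ S) :
    g ∈ Cfsg.stabilizing (Cfsg.spToMat m F) S := by
  intro v
  constructor
  · exact h v
  · intro hgv
    have hgv' : g.1 *ᵥ v ∈ S := hgv
    let φ : S → S := fun w => ⟨g.1 *ᵥ w.1, h w.1 w.2⟩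
    have hinj : Function.Injective φ := by
      intro w w' hww
      have h1 : g.1 *ᵥ w.1 = g.1 *ᵥ w'.1 := congrArg Subtype.val hww
      apply Subtype.ext
      have h2 := congrArg (fun z => (g⁻¹).1 *ᵥ z) h1
      simp only [Helper5.sp_inv_mulVec] at h2
      exact h2
    have hsurj : Function.Surjective φ := Finite.injective_iff_surjective.mp hinj
    obtain ⟨w, hw⟩ := hsurj ⟨g.1 *ᵥ v, hgv'⟩
    have h1 : g.1 *ᵥ w.1 = g.1 *ᵥ v := congrArg Subtype.val hw
    have h2 := congrArg (fun z => (g⁻¹).1 *ᵥ z) h1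
    simp only [Helper5.sp_inv_mulVec] at h2
    rw [← h2]
    exact w.2

/-- the top-left `k × k` block. -/
def rhoMat (hk : k ≤ m) (g : Matrix (Fin m ⊕ Fin m) (Fin m ⊕ Fin m) F) :
    Matrix (Fin k) (Fin k) F :=
  Matrix.of fun i l => g (Sum.inl (Fin.castLE hk i)) (Sum.inl (Fin.castLE hk l))

omit [Field F] in
theorem rhoMat_apply (hk : k ≤ m) (g : Matrix (Fin m ⊕ Fin m) (Fin m ⊕ Fin m) F) (i l : Fin k) :
    rhoMat hk g i l = g (Sum.inl (Fin.castLE hk i)) (Sum.inl (Fin.castLE hk l)) := rfl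

theorem rhoMat_one (hk : k ≤ m) :
    rhoMat hk (1 : Matrix (Fin m ⊕ Fin m) (Fin m ⊕ Fin m) F) = 1 := by
  ext i l
  rw [rhoMat_apply, Matrix.one_apply, Matrix.one_apply]
  simp only [Sum.inl.injEq, castLE_inj]

theorem stab_col (hk : k ≤ m) (g : symplecticGroup (Fin m) F)
    (hg : g ∈ Cfsg.stabilizing (Cfsg.spToMat m F) (S0 F m k)) (l : Fin k)
    (a : Fin m ⊕ Fin m) (ha : ∀ i : Fin k, a ≠ Sum.inl (Fin.castLE hk i)) :
    g.1 a (Sum.inl (Fin.castLE hk l)) = 0 := by
  have h1 : g.1 *ᵥ eV hk F l ∈ S0 F m k := (hg (eV hk F l)).mp (eV_mem_S0 hk l)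
  have h2 := S0_supp hk _ h1 a ha
  rw [mulVec_eV] at h2
  exact h2

theorem rhoMat_mul (hk : k ≤ m) (g h : symplecticGroup (Fin m) F)
    (hh : h ∈ Cfsg.stabilizing (Cfsg.spToMat m F) (S0 F m k)) :
    rhoMat hk (g.1 * h.1) = rhoMat hk g.1 * rhoMat hk h.1 := by
  ext i l
  rw [rhoMat_apply, Matrix.mul_apply, Matrix.mul_apply,
    sum_eq_sum_castLE hk (fun a => g.1 (Sum.inl (Fin.castLE hk i)) a *
      h.1 a (Sum.inl (Fin.castLE hk l)))
      (by intro a ha; rw [stab_col hk h hh l a ha, mul_zero])]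
  rfl

/-- the restriction homomorphism to `GL_k`. -/
def rhoHom (hk : k ≤ m) (F : Type*) [Field F] :
    ↥(Cfsg.stabilizing (Cfsg.spToMat m F) (S0 F m k)) →* Matrix (Fin k) (Fin k) F where
  toFun g := rhoMat hk g.1.1
  map_one' := rhoMat_one hk
  map_mul' g h := rhoMat_mul hk g.1 h.1 h.2

theorem Qs_zero_fix (hk : k ≤ m) (g : symplecticGroup (Fin m) F) (hg : g ∈ Qs hk F 0)
    (v : Fin m ⊕ Fin m → F) (hv : v ∈ S0 F m k) : g.1 *ᵥ v = v := by
  classical
  funext a
  have hcol : ∀ l : Fin k, g.1 a (Sum.inl (Fin.castLE hk l)) = eV hk F l a := by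
    intro l
    rw [← mulVec_eV hk g.1 l a, hg.1 l]
  rw [Matrix.mulVec, dotProduct, sum_eq_sum_castLE hk (fun b => g.1 a b * v b)
    (by intro b hb; rw [S0_supp hk v hv b hb, mul_zero])]
  simp only [hcol]
  by_cases ha : ∃ i : Fin k, a = Sum.inl (Fin.castLE hk i)
  · obtain ⟨i, rfl⟩ := ha
    rw [Finset.sum_eq_single i]
    · unfold eV
      rw [Pi.single_eq_same, one_mul]
    · intro l _ hl
      unfold eV
      rw [Pi.single_apply, if_neg, zero_mul]
      simp only [Sum.inl.injEq, castLE_inj]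
      exact Ne.symm hl
    · intro h; exact absurd (Finset.mem_univ _) h
  · push Not at ha
    rw [S0_supp hk v hv a ha]
    apply Finset.sum_eq_zero
    intro l _
    unfold eV
    rw [Pi.single_apply, if_neg (ha l), zero_mul]

theorem Qs_zero_stab (hk : k ≤ m) (g : symplecticGroup (Fin m) F) (hg : g ∈ Qs hk F 0) :
    g ∈ Cfsg.stabilizing (Cfsg.spToMat m F) (S0 F m k) := by
  intro v
  constructor
  · intro hv
    show g.1 *ᵥ v ∈ S0 F m k
    rw [Qs_zero_fix hk g hg v hv]
    exact hv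
  · intro hv
    have hv' : g.1 *ᵥ v ∈ S0 F m k := hv
    have h1 := Qs_zero_fix hk g⁻¹ ((Qs hk F 0).inv_mem hg) _ hv'
    rw [Helper5.sp_inv_mulVec] at h1
    rw [h1]
    exact hv'

theorem Qs_zero_rho (hk : k ≤ m) (g : symplecticGroup (Fin m) F) (hg : g ∈ Qs hk F 0) :
    rhoMat hk g.1 = 1 := by
  ext i l
  rw [rhoMat_apply, ← mulVec_eV hk g.1 l (Sum.inl (Fin.castLE hk i)), hg.1 l, Matrix.one_apply]
  unfold eV
  rw [Pi.single_apply]
  simp only [Sum.inl.injEq, castLE_inj]

theorem rho_one_mem_Qs (hk : k ≤ m) (g : symplecticGroup (Fin m) F)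
    (hg : g ∈ Cfsg.stabilizing (Cfsg.spToMat m F) (S0 F m k)) (h1 : rhoMat hk g.1 = 1) :
    g ∈ Qs hk F 0 := by
  refine ⟨fun l => ?_, fun i hi => absurd hi (Nat.not_lt_zero _)⟩
  funext a
  rw [mulVec_eV]
  by_cases ha : ∃ i : Fin k, a = Sum.inl (Fin.castLE hk i)
  · obtain ⟨i, rfl⟩ := ha
    have := congrFun (congrFun h1 i) l
    rw [rhoMat_apply, Matrix.one_apply] at this
    rw [this]
    unfold eV
    rw [Pi.single_apply]
    simp only [Sum.inl.injEq, castLE_inj]
  · push Not at ha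
    rw [stab_col hk g hg l a ha]
    unfold eV
    rw [Pi.single_apply, if_neg (ha l)]

theorem castLE_eq_split (hk : k ≤ m) (i : Fin k) :
    (splitEquiv hk).symm (Fin.castLE hk i) = Sum.inl i := by
  rw [Equiv.symm_apply_eq]
  apply Fin.ext
  rw [splitEquiv_inl]
  rfl

theorem split_symm_ge (hk : k ≤ m) (a : Fin m) (ha : k ≤ (a : ℕ)) :
    (splitEquiv hk).symm a = Sum.inr ⟨(a : ℕ) - k, by omega⟩ := by
  rw [Equiv.symm_apply_eq]
  apply Fin.ext
  rw [splitEquiv_inr]
  simp only
  omega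

theorem split_symm_lt (hk : k ≤ m) (a : Fin m) (ha : (a : ℕ) < k) :
    (splitEquiv hk).symm a = Sum.inl ⟨(a : ℕ), ha⟩ := by
  rw [Equiv.symm_apply_eq]
  apply Fin.ext
  rw [splitEquiv_inl]

/-- the restriction homomorphism is onto `GL_k`. -/
theorem rho_surj [Finite F] (hk : k ≤ m) (A : GL (Fin k) F) :
    ∃ g : ↥(Cfsg.stabilizing (Cfsg.spToMat m F) (S0 F m k)), rhoMat hk g.1.1 = A.1 := by
  classical
  have hdet : ((Matrix.fromBlocks (A : Matrix (Fin k) (Fin k) F) 0 0
      (1 : Matrix (Fin (m - k)) (Fin (m - k)) F)).submatrix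
        (splitEquiv hk).symm (splitEquiv hk).symm).det ≠ 0 := by
    rw [Matrix.det_submatrix_equiv_self, Matrix.det_fromBlocks_zero₂₁, Matrix.det_one, mul_one]
    exact ((Matrix.isUnit_iff_isUnit_det _).mp A.isUnit).ne_zero
  set X : GL (Fin m) F := Matrix.GeneralLinearGroup.mkOfDetNeZero _ hdet with hX
  have hXapp : ∀ a b : Fin m, (X : Matrix (Fin m) (Fin m) F) a b =
      Matrix.fromBlocks (A : Matrix (Fin k) (Fin k) F) 0 0
        (1 : Matrix (Fin (m - k)) (Fin (m - k)) F)
        ((splitEquiv hk).symm a) ((splitEquiv hk).symm b) := fun a b => rfl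
  have hLmem : Matrix.fromBlocks (X : Matrix (Fin m) (Fin m) F) 0 0
      ((X⁻¹ : GL (Fin m) F) : Matrix (Fin m) (Fin m) F)ᵀ ∈ symplecticGroup (Fin m) F :=
    (sp_mem_fromBlocks_iff _ _ _ _).mpr ⟨by simp, by simp, by simp⟩
  set L : symplecticGroup (Fin m) F := ⟨_, hLmem⟩ with hL
  have hLstab : L ∈ Cfsg.stabilizing (Cfsg.spToMat m F) (S0 F m k) := by
    apply mem_stab_of_finite
    intro v hv
    have hLv : L.1 *ᵥ v = Sum.elim
        ((X : Matrix (Fin m) (Fin m) F) *ᵥ (v ∘ Sum.inl) +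
          (0 : Matrix (Fin m) (Fin m) F) *ᵥ (v ∘ Sum.inr))
        ((0 : Matrix (Fin m) (Fin m) F) *ᵥ (v ∘ Sum.inl) +
          ((X⁻¹ : GL (Fin m) F) : Matrix (Fin m) (Fin m) F)ᵀ *ᵥ (v ∘ Sum.inr)) := by
      exact Matrix.fromBlocks_mulVec (X : Matrix (Fin m) (Fin m) F) 0 0
        ((X⁻¹ : GL (Fin m) F) : Matrix (Fin m) (Fin m) F)ᵀ v
    have hvr : v ∘ Sum.inr = 0 := funext hv.1
    constructor
    · intro a
      rw [hLv, Sum.elim_inr, hvr, Matrix.mulVec_zero, Matrix.zero_mulVec, add_zero]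
      rfl
    · intro a ha
      rw [hLv, Sum.elim_inl, Matrix.zero_mulVec, add_zero, Matrix.mulVec, dotProduct]
      apply Finset.sum_eq_zero
      intro b _
      by_cases hb : k ≤ (b : ℕ)
      · show _ * v (Sum.inl b) = 0
        rw [hv.2 b hb, mul_zero]
      · rw [hXapp, split_symm_ge hk a ha, split_symm_lt hk b (by omega),
          Matrix.fromBlocks_apply₂₁, Matrix.zero_apply, zero_mul]
  refine ⟨⟨L, hLstab⟩, ?_⟩
  ext i l
  rw [rhoMat_apply]
  show Matrix.fromBlocks (X : Matrix (Fin m) (Fin m) F) 0 0 _ (Sum.inl _) (Sum.inl _) = _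
  rw [Matrix.fromBlocks_apply₁₁, hXapp, castLE_eq_split, castLE_eq_split,
    Matrix.fromBlocks_apply₁₁]

theorem card_stab_S0 [Fintype F] (hk : k ≤ m) :
    Nat.card ↥(Cfsg.stabilizing (Cfsg.spToMat m F) (S0 F m k)) =
      Nat.card (GL (Fin k) F) * Nat.card (Qs hk F 0) := by
  classical
  let ρ := (rhoHom hk F).toHomUnits
  have hρ : ∀ g, ((ρ g : (Matrix (Fin k) (Fin k) F)ˣ) : Matrix (Fin k) (Fin k) F) =
      rhoMat hk g.1.1 := fun g => rfl
  have hsurj : Function.Surjective ρ := by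
    intro A
    obtain ⟨g, hg⟩ := rho_surj hk A
    exact ⟨g, Units.ext ((hρ g).trans hg)⟩
  have hker : Nat.card ρ.ker = Nat.card (Qs hk F 0) := by
    apply Nat.card_congr
    exact
      { toFun := fun g => ⟨g.1.1, rho_one_mem_Qs hk g.1.1 g.1.2 (by
          have h1 := g.2
          rw [MonoidHom.mem_ker] at h1
          have h2 := congrArg Units.val h1
          rw [hρ] at h2
          exact h2)⟩
        invFun := fun t => ⟨⟨t.1, Qs_zero_stab hk t.1 t.2⟩, by
          rw [MonoidHom.mem_ker]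
          apply Units.ext
          rw [hρ]
          exact Qs_zero_rho hk t.1 t.2⟩
        left_inv := fun g => rfl
        right_inv := fun t => rfl }
  rw [Subgroup.card_eq_card_quotient_mul_card_subgroup ρ.ker,
    Nat.card_congr (QuotientGroup.quotientKerEquivOfSurjective ρ hsurj).toEquiv, hker]

/-- Witt: every totally isotropic `k`-subspace is the image of the standard one. -/
theorem exists_sp_isotropic (hk : k ≤ m) (W : Submodule F (Fin m ⊕ Fin m → F))
    (hWk : Module.finrank F W = k)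
    (hW : ∀ u ∈ W, ∀ v ∈ W, Cfsg.sympForm m F u v = 0) :
    ∃ P : symplecticGroup (Fin m) F, ∀ v, v ∈ S0 F m k ↔
      (P : Matrix (Fin m ⊕ Fin m) (Fin m ⊕ Fin m) F) *ᵥ v ∈ W := by
  classical
  let bW : Module.Basis (Fin k) F W := Module.finBasisOfFinrankEq F W hWk
  let f : (Fin m ⊕ Fin m → F) →ₗ[F] (Fin m ⊕ Fin m → F) :=
    ∑ l : Fin k, (LinearMap.proj (Sum.inl (Fin.castLE hk l)) :
      (Fin m ⊕ Fin m → F) →ₗ[F] F).smulRight ((bW l : W) : Fin m ⊕ Fin m → F)
  have hf : ∀ v, f v = ∑ l : Fin k, v (Sum.inl (Fin.castLE hk l)) • ((bW l : W) :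
      Fin m ⊕ Fin m → F) := by
    intro v
    simp only [f, LinearMap.sum_apply, LinearMap.smulRight_apply, LinearMap.proj_apply]
  have hfW : ∀ v, f v ∈ W := by
    intro v
    rw [hf]
    exact Submodule.sum_mem _ (fun l _ => Submodule.smul_mem _ _ (bW l).2)
  let X : Submodule F (Fin m ⊕ Fin m → F) :=
    { carrier := S0 F m k
      add_mem' := by
        intro a b ha hb
        exact ⟨fun x => by rw [Pi.add_apply, ha.1 x, hb.1 x, add_zero],
          fun x hx => by rw [Pi.add_apply, ha.2 x hx, hb.2 x hx, add_zero]⟩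
      zero_mem' := ⟨fun x => rfl, fun x _ => rfl⟩
      smul_mem' := by
        intro c a ha
        exact ⟨fun x => by rw [Pi.smul_apply, ha.1 x, smul_zero],
          fun x hx => by rw [Pi.smul_apply, ha.2 x hx, smul_zero]⟩ }
  have hXmem : ∀ v, v ∈ X ↔ v ∈ S0 F m k := fun v => Iff.rfl
  have hiso : ∀ x ∈ X, ∀ x' ∈ X, Helper5.sympBil m F (f x) (f x') = Helper5.sympBil m F x x' := by
    intro x hx x' hx'
    show Cfsg.sympForm m F (f x) (f x') = Cfsg.sympForm m F x x'
    rw [hW _ (hfW x) _ (hfW x'), sympForm_apply]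
    symm
    apply Finset.sum_eq_zero
    intro i _
    rw [((hXmem x).mp hx).1 i, ((hXmem x').mp hx').1 i, zero_mul, mul_zero, sub_zero]
  have hli : LinearIndependent F (fun l : Fin k => ((bW l : W) : Fin m ⊕ Fin m → F)) :=
    bW.linearIndependent.map' W.subtype (Submodule.ker_subtype W)
  have hinj : ∀ x ∈ X, f x = 0 → x = 0 := by
    intro x hx hfx
    rw [hf] at hfx
    have h0 := Fintype.linearIndependent_iff.mp hli (fun l => x (Sum.inl (Fin.castLE hk l))) hfx
    funext a
    by_cases ha : ∃ i : Fin k, a = Sum.inl (Fin.castLE hk i)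
    · obtain ⟨i, rfl⟩ := ha
      exact h0 i
    · push Not at ha
      exact S0_supp hk x ((hXmem x).mp hx) a ha
  obtain ⟨t, htG, ht⟩ := witt_alt (Helper5.sympBil m F) Helper5.sympBil_nondegenerate
    Helper5.sympBil_isAlt X f hiso hinj
  obtain ⟨s, _, hs⟩ := Helper5.exists_spT_of_TG t htG
  refine ⟨s, fun v => ⟨fun hv => ?_, fun hv => ?_⟩⟩
  · rw [← hs, ht v ((hXmem v).mpr hv)]
    exact hfW v
  · set r := bW.repr ⟨_, hv⟩ with hr
    let x : Fin m ⊕ Fin m → F := fun a =>
      match a with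
      | Sum.inl y => if h : (y : ℕ) < k then r ⟨y, h⟩ else 0
      | Sum.inr _ => 0
    have hxS : x ∈ S0 F m k := by
      constructor
      · intro a; rfl
      · intro a ha
        show (if h : (a : ℕ) < k then r ⟨a, h⟩ else 0) = 0
        rw [dif_neg (by omega)]
    have hxl : ∀ l : Fin k, x (Sum.inl (Fin.castLE hk l)) = r l := by
      intro l
      show (if h : ((Fin.castLE hk l : Fin m) : ℕ) < k then r ⟨_, h⟩ else 0) = r l
      rw [dif_pos (by simp)]
      rfl
    have hfx : f x = (s : Matrix (Fin m ⊕ Fin m) (Fin m ⊕ Fin m) F) *ᵥ v := by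
      rw [hf]
      simp only [hxl]
      have h1 := bW.sum_repr ⟨_, hv⟩
      have h2 : ((∑ i, r i • bW i : W) : Fin m ⊕ Fin m → F) =
          (s : Matrix (Fin m ⊕ Fin m) (Fin m ⊕ Fin m) F) *ᵥ v := congrArg (Subtype.val) h1
      rw [← h2]
      simp only [Submodule.coe_sum, Submodule.coe_smul]
    have h3 : (s : Matrix (Fin m ⊕ Fin m) (Fin m ⊕ Fin m) F) *ᵥ x =
        (s : Matrix (Fin m ⊕ Fin m) (Fin m ⊕ Fin m) F) *ᵥ v := by
      rw [← hs, ht x ((hXmem x).mpr hxS), hfx]
    have h4 := congrArg (fun z => (s⁻¹).1 *ᵥ z) h3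
    simp only [Helper5.sp_inv_mulVec] at h4
    rw [← h4]
    exact hxS

/-- order of the stabiliser of a totally isotropic `k`-subspace in `Sp_2m(q)`. -/
theorem card_stab_isotropic [Fintype F] {q : ℕ} (hF : Fintype.card F = q) (m k : ℕ)
    (hk : k ≤ m) (W : Submodule F (Fin m ⊕ Fin m → F)) (hWk : Module.finrank F W = k)
    (hW : ∀ u ∈ W, ∀ v ∈ W, Cfsg.sympForm m F u v = 0) :
    Nat.card ↥(Cfsg.stabilizing (Cfsg.spToMat m F) (W : Set (Fin m ⊕ Fin m → F))) =
      q ^ (k * (k + 1) / 2 + 2 * k * (m - k)) *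
        (q ^ ((m - k) ^ 2) * ∏ i ∈ Finset.range (m - k), (q ^ (2 * (i + 1)) - 1)) *
          ∏ i : Fin k, (q ^ k - q ^ (i : ℕ)) := by
  obtain ⟨P, hP⟩ := exists_sp_isotropic hk W hWk hW
  obtain ⟨e⟩ := stab_conj_equiv (Cfsg.spToMat m F) (S0 F m k)
    (W : Set (Fin m ⊕ Fin m → F)) P hP
  rw [Nat.card_congr e.toEquiv, card_stab_S0 hk, card_Qs_chain hk k le_rfl, card_Qs_top hk,
    sum_exponent hk, Matrix.card_GL_field, hF]
  ring

end spparab

end Cfsg.Agent.Helper13
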