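import Mathlib
import Cfsg.Agent.Helper13.UnitTv2

/-!
# Unitary root subgroups and isotropic geometry (helper13)

`uroot hF v`: the group of unitary transvections with centre `v`; transitivity of `SU_n(q)` on
hyperbolic pairs; existence lemmas for isotropic vectors.
-/

set_option autoImplicit false
set_option linter.unusedSimpArgs false
set_option linter.unusedSectionVars false
set_option linter.unusedVariables false

namespace Cfsg.Agent.Helper13

open Matrix
open scoped Pointwise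
open Cfsg.Agent.Helper5 (frobQ frobQ_apply frobQ_frobQ frobQ_ne_id)

section uroot
variable {F : Type*} [Field F] [Fintype F] {q n : ℕ}

theorem utv_of_not_iso (hF : Fintype.card F = q ^ 2) (v : Fin n → F) (c : F)
    (hv : ¬ Cfsg.hermForm n F q v v = 0) : utv hF v c = 1 := by
  unfold utv
  rw [dif_neg (fun h => hv h.1)]

/-- the root subgroup: all unitary transvections with centre `v`. -/
def uroot (hF : Fintype.card F = q ^ 2) (v : Fin n → F) : Subgroup ↥(Cfsg.SU n F q) where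
  carrier := {g | ∃ c : F, frobQ hF c = -c ∧ g = utv hF v c}
  one_mem' := ⟨0, by simp, (utv_zero_right hF v).symm⟩
  mul_mem' := by
    rintro a b ⟨c, hc, rfl⟩ ⟨c', hc', rfl⟩
    by_cases hv : Cfsg.hermForm n F q v v = 0
    · exact ⟨c + c', by rw [map_add, hc, hc']; ring, utv_mul hF v c c' hv hc hc'⟩
    · refine ⟨0, by simp, ?_⟩
      rw [utv_of_not_iso hF v _ hv, utv_of_not_iso hF v _ hv, utv_of_not_iso hF v _ hv, mul_one]
  inv_mem' := by
    rintro a ⟨c, hc, rfl⟩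
    by_cases hv : Cfsg.hermForm n F q v v = 0
    · exact ⟨-c, by rw [map_neg, hc], utv_inv hF v c hv hc⟩
    · refine ⟨0, by simp, ?_⟩
      rw [utv_of_not_iso hF v _ hv, utv_of_not_iso hF v _ hv, inv_one]

theorem mem_uroot (hF : Fintype.card F = q ^ 2) (v : Fin n → F) (g : ↥(Cfsg.SU n F q)) :
    g ∈ uroot hF v ↔ ∃ c : F, frobQ hF c = -c ∧ g = utv hF v c := Iff.rfl

theorem uroot_comm (hF : Fintype.card F = q ^ 2) (v : Fin n → F) :
    IsMulCommutative (uroot hF v) := by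
  refine ⟨⟨?_⟩⟩
  rintro ⟨a, c, hc, rfl⟩ ⟨b, c', hc', rfl⟩
  apply Subtype.ext
  change utv hF v c * utv hF v c' = utv hF v c' * utv hF v c
  by_cases hv : Cfsg.hermForm n F q v v = 0
  · rw [utv_mul hF v c c' hv hc hc', utv_mul hF v c' c hv hc' hc, add_comm]
  · rw [utv_of_not_iso hF v _ hv, utv_of_not_iso hF v _ hv]

theorem uroot_conj (hF : Fintype.card F = q ^ 2) (g : ↥(Cfsg.SU n F q)) (v : Fin n → F) :
    MulAut.conj g • uroot hF v = uroot hF (uact g v) := by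
  ext x
  rw [Subgroup.mem_smul_pointwise_iff_exists]
  constructor
  · rintro ⟨t, ⟨c, hc, rfl⟩, rfl⟩
    refine ⟨c, hc, ?_⟩
    rw [MulAut.smul_def, MulAut.conj_apply, utv_conj]
  · rintro ⟨c, hc, rfl⟩
    refine ⟨utv hF v c, ⟨c, hc, rfl⟩, ?_⟩
    rw [MulAut.smul_def, MulAut.conj_apply, utv_conj]

theorem uroot_smul (hF : Fintype.card F = q ^ 2) (l : F) (hl : l ≠ 0) (v : Fin n → F) :
    uroot hF (l • v) = uroot hF v := by
  have hN : frobQ hF (l * frobQ hF l) = l * frobQ hF l := by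
    rw [map_mul, frobQ_frobQ, mul_comm]
  have hN0 : l * frobQ hF l ≠ 0 := mul_ne_zero hl (fun h => hl ((ufrob_eq_zero hF).1 h))
  ext x
  constructor
  · rintro ⟨c, hc, rfl⟩
    refine ⟨c * (l * frobQ hF l), ?_, utv_smul hF l hl v c⟩
    rw [map_mul, hN, hc]; ring
  · rintro ⟨c, hc, rfl⟩
    refine ⟨c / (l * frobQ hF l), ?_, ?_⟩
    · rw [map_div₀, hN, hc]; ring
    · rw [utv_smul hF l hl v, div_mul_cancel₀ _ hN0]

/-- equal root subgroups have proportional centres. -/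
theorem uroot_eq (hF : Fintype.card F = q ^ 2) (u u' : Fin n → F) (hu0 : u ≠ 0)
    (hu : Cfsg.hermForm n F q u u = 0) (hu' : Cfsg.hermForm n F q u' u' = 0)
    (h : uroot hF u = uroot hF u') : ∃ l : F, l ≠ 0 ∧ u = l • u' := by
  obtain ⟨c0, hc0, hc0'⟩ := ufld_exists_skew hF
  have h1 : utv hF u c0 ∈ uroot hF u' := by rw [← h]; exact ⟨c0, hc0', rfl⟩
  obtain ⟨c', hc', h2⟩ := h1
  obtain ⟨x, hx⟩ := uh_nondeg_left hF u hu0
  have h3 : uact (utv hF u c0) x = uact (utv hF u' c') x := by rw [h2]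
  rw [uact_utv hF u c0 hu hc0', uact_utv hF u' c' hu' hc'] at h3
  have h4 : (c0 * Cfsg.hermForm n F q x u) • u = (c' * Cfsg.hermForm n F q x u') • u' :=
    add_left_cancel h3
  have h5 : c0 * Cfsg.hermForm n F q x u ≠ 0 := mul_ne_zero hc0 hx
  refine ⟨(c0 * Cfsg.hermForm n F q x u)⁻¹ * (c' * Cfsg.hermForm n F q x u'), ?_, ?_⟩
  · intro h6
    rcases mul_eq_zero.1 h6 with h7 | h7
    · exact (inv_ne_zero h5) h7
    · rw [h7, zero_smul] at h4
      rcases smul_eq_zero.1 h4 with h8 | h8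
      · exact h5 h8
      · exact hu0 h8
  · rw [mul_smul, ← h4, smul_smul, inv_mul_cancel₀ h5, one_smul]

end uroot

section uhyp
variable {F : Type*} [Field F] [Fintype F] {q n : ℕ}

/-- a hyperbolic pair is `(x + μ y, (1-ζ)⁻¹ (x + μ ζ y))` for an orthonormal pair `(x, y)`. -/
theorem uhyp_decomp (hF : Fintype.card F = q ^ 2) (μ ζ : F) (hμ : μ * frobQ hF μ = -1)
    (hζ : ζ * frobQ hF ζ = 1) (hζ1 : ζ ≠ 1) (u w : Fin n → F)
    (hu : Cfsg.hermForm n F q u u = 0) (hw : Cfsg.hermForm n F q w w = 0)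
    (huw : Cfsg.hermForm n F q u w = 1) :
    ∃ x y : Fin n → F, Cfsg.hermForm n F q x x = 1 ∧ Cfsg.hermForm n F q y y = 1 ∧
      Cfsg.hermForm n F q x y = 0 ∧ u = x + μ • y ∧ w = (1 - ζ)⁻¹ • (x + (μ * ζ) • y) := by
  have hwu : Cfsg.hermForm n F q w u = 1 := by rw [← uh_conj hF, huw, map_one]
  have hμ0 : μ ≠ 0 := by rintro rfl; simp at hμ
  have hσμ0 : frobQ hF μ ≠ 0 := fun h => hμ0 ((ufrob_eq_zero hF).1 h)
  have hζ0 : ζ ≠ 0 := by rintro rfl; simp at hζ
  have h1 : 1 - ζ ≠ 0 := fun h => hζ1 (by linear_combination -h)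
  have h1' : 1 - frobQ hF ζ ≠ 0 := by
    intro h
    have h' : frobQ hF ζ = 1 := by linear_combination -h
    apply hζ1
    have := congrArg (frobQ hF) h'
    rwa [frobQ_frobQ, map_one] at this
  refine ⟨(-ζ / (1 - ζ)) • u + w, (μ * (1 - ζ))⁻¹ • (u - (1 - ζ) • w), ?_, ?_, ?_, ?_, ?_⟩
  · simp only [uh_add_left, uh_add_right hF, uh_smul_left, uh_smul_right hF, hu, hw, huw, hwu,
      map_div₀, map_neg, map_sub, map_one]
    field_simp
    linear_combination hζ
  · simp only [uh_smul_left, uh_smul_right hF, uh_sub_left, uh_sub_right hF, hu, hw, huw, hwu,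
      map_inv₀, map_mul, map_sub, map_one]
    field_simp
    linear_combination hζ - ((1 - frobQ hF ζ) * (1 - ζ)) * hμ
  · simp only [uh_add_left, uh_smul_left, uh_smul_right hF, uh_sub_right hF, hu, hw, huw, hwu,
      map_inv₀, map_mul, map_sub, map_one]
    field_simp
    linear_combination -hζ
  · match_scalars <;> field_simp <;> ring
  · match_scalars <;> field_simp <;> ring

/-- `SU_n(q)` is transitive on hyperbolic pairs. -/
theorem su_trans_hyp (hF : Fintype.card F = q ^ 2) (hn : 3 ≤ n) (h32 : ¬ (n = 3 ∧ q = 2))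
    (u w u' w' : Fin n → F)
    (hu : Cfsg.hermForm n F q u u = 0) (hw : Cfsg.hermForm n F q w w = 0)
    (huw : Cfsg.hermForm n F q u w = 1)
    (hu' : Cfsg.hermForm n F q u' u' = 0) (hw' : Cfsg.hermForm n F q w' w' = 0)
    (huw' : Cfsg.hermForm n F q u' w' = 1) :
    ∃ g : ↥(Cfsg.SU n F q), uact g u = u' ∧ uact g w = w' := by
  obtain ⟨μ, hμ0, hμ⟩ := ufld_exists_norm hF (c := -1) (by simp) (by simp)
  obtain ⟨ζ, hζ, hζ'⟩ := ufld_exists_norm_one hF
  have hζ1 : ζ ≠ 1 := by rintro rfl; exact hζ' (map_one _)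
  obtain ⟨x, y, hx, hy, hxy, rfl, rfl⟩ := uhyp_decomp hF μ ζ hμ hζ hζ1 u w hu hw huw
  obtain ⟨x', y', hx', hy', hxy', rfl, rfl⟩ := uhyp_decomp hF μ ζ hμ hζ hζ1 u' w' hu' hw' huw'
  obtain ⟨g, -, h1, h2⟩ := su_trans_ortho hF hn h32 x y hx hy hxy
  obtain ⟨g', -, h1', h2'⟩ := su_trans_ortho hF hn h32 x' y' hx' hy' hxy'
  have e1 : uact (g'⁻¹ * g) x = x' := by rw [uact_mul, h1, ← h1', uact_inv_uact]
  have e2 : uact (g'⁻¹ * g) y = y' := by rw [uact_mul, h2, ← h2', uact_inv_uact]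
  refine ⟨g'⁻¹ * g, ?_, ?_⟩
  · rw [uact_add, uact_smul, e1, e2]
  · rw [uact_smul, uact_add, uact_smul, e1, e2]

/-- make a vector isotropic by adding a multiple of an isotropic vector not perpendicular to it. -/
theorem uiso_adjust (hF : Fintype.card F = q ^ 2) (z u : Fin n → F)
    (hu : Cfsg.hermForm n F q u u = 0) (hzu : Cfsg.hermForm n F q u z ≠ 0) :
    ∃ s : F, Cfsg.hermForm n F q (z + s • u) (z + s • u) = 0 := by
  obtain ⟨b0, hb0⟩ := ufld_exists_trace_one hF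
  have hzu' : Cfsg.hermForm n F q z u = frobQ hF (Cfsg.hermForm n F q u z) := (uh_conj hF u z).symm
  have hzu0 : frobQ hF (Cfsg.hermForm n F q u z) ≠ 0 := fun h => hzu ((ufrob_eq_zero hF).1 h)
  have hN : frobQ hF (Cfsg.hermForm n F q z z) = Cfsg.hermForm n F q z z := uh_self_conj hF z
  refine ⟨-Cfsg.hermForm n F q z z * b0 / Cfsg.hermForm n F q u z, ?_⟩
  simp only [uh_add_left, uh_add_right hF, uh_smul_left, uh_smul_right hF, hu, hzu', map_div₀,
    map_mul, map_neg, hN, frobQ_frobQ]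
  field_simp
  linear_combination (-(Cfsg.hermForm n F q z z * Cfsg.hermForm n F q u z *
    frobQ hF (Cfsg.hermForm n F q u z))) * hb0

/-- a hyperbolic partner of a non-zero isotropic vector. -/
theorem uhyp_partner (hF : Fintype.card F = q ^ 2) (u : Fin n → F) (hu0 : u ≠ 0)
    (hu : Cfsg.hermForm n F q u u = 0) :
    ∃ w : Fin n → F, Cfsg.hermForm n F q w w = 0 ∧ Cfsg.hermForm n F q u w = 1 := by
  obtain ⟨z, hz⟩ := uh_nondeg_right hF u hu0
  obtain ⟨s, hs⟩ := uiso_adjust hF z u hu hz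
  have h1 : Cfsg.hermForm n F q u (z + s • u) = Cfsg.hermForm n F q u z := by
    rw [uh_add_right hF, uh_smul_right hF, hu, mul_zero, add_zero]
  obtain ⟨l, hl⟩ : ∃ l : F, frobQ hF l = (Cfsg.hermForm n F q u z)⁻¹ :=
    ⟨frobQ hF (Cfsg.hermForm n F q u z)⁻¹, frobQ_frobQ hF _⟩
  refine ⟨l • (z + s • u), ?_, ?_⟩
  · rw [uh_smul_left, uh_smul_right hF, hs]; ring
  · rw [uh_smul_right hF, h1, hl, inv_mul_cancel₀ hz]

/-- two perpendicular non-zero isotropic vectors have a common non-perpendicular isotropic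
vector. -/
theorem uiso_common (hF : Fintype.card F = q ^ 2) (u v : Fin n → F) (hu0 : u ≠ 0) (hv0 : v ≠ 0)
    (hu : Cfsg.hermForm n F q u u = 0) (huv : Cfsg.hermForm n F q u v = 0) :
    ∃ c : Fin n → F, Cfsg.hermForm n F q c c = 0 ∧ Cfsg.hermForm n F q u c ≠ 0 ∧
      Cfsg.hermForm n F q v c ≠ 0 := by
  have hvu : Cfsg.hermForm n F q v u = 0 := by rw [← uh_conj hF, huv, map_zero]
  obtain ⟨z1, hz1⟩ := uh_nondeg_right hF u hu0
  obtain ⟨z2, hz2⟩ := uh_nondeg_right hF v hv0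
  obtain ⟨z, hzu, hzv⟩ : ∃ z, Cfsg.hermForm n F q u z ≠ 0 ∧ Cfsg.hermForm n F q v z ≠ 0 := by
    by_cases h1 : Cfsg.hermForm n F q v z1 = 0
    · by_cases h2 : Cfsg.hermForm n F q u z2 = 0
      · refine ⟨z1 + z2, ?_, ?_⟩
        · rw [uh_add_right hF, h2, add_zero]; exact hz1
        · rw [uh_add_right hF, h1, zero_add]; exact hz2
      · exact ⟨z2, h2, hz2⟩
    · exact ⟨z1, hz1, h1⟩
  obtain ⟨s, hs⟩ := uiso_adjust hF z u hu hzu
  refine ⟨z + s • u, hs, ?_, ?_⟩
  · rw [uh_add_right hF, uh_smul_right hF, hu, mul_zero, add_zero]; exact hzu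
  · rw [uh_add_right hF, uh_smul_right hF, hvu, mul_zero, add_zero]; exact hzv

/-- for perpendicular, non-proportional isotropic `u`, `v` there is an isotropic vector
perpendicular to `u` but not to `v`. -/
theorem uiso_sep (hF : Fintype.card F = q ^ 2) (u v : Fin n → F) (hu0 : u ≠ 0)
    (hv : Cfsg.hermForm n F q v v = 0) (huv : Cfsg.hermForm n F q u v = 0)
    (hne : ∀ l : F, v ≠ l • u) :
    ∃ w : Fin n → F, Cfsg.hermForm n F q w w = 0 ∧ Cfsg.hermForm n F q u w = 0 ∧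
      Cfsg.hermForm n F q v w ≠ 0 := by
  have hvu : Cfsg.hermForm n F q v u = 0 := by rw [← uh_conj hF, huv, map_zero]
  obtain ⟨z, hzu, hzv⟩ : ∃ z, Cfsg.hermForm n F q z u = 0 ∧ Cfsg.hermForm n F q z v ≠ 0 := by
    by_contra hcon
    push Not at hcon
    obtain ⟨w0, hw0⟩ := uh_nondeg_left hF u hu0
    obtain ⟨w1, hw1⟩ : ∃ w1, Cfsg.hermForm n F q w1 u = 1 :=
      ⟨(Cfsg.hermForm n F q w0 u)⁻¹ • w0, by rw [uh_smul_left, inv_mul_cancel₀ hw0]⟩
    obtain ⟨l, hl⟩ : ∃ l : F, frobQ hF l = Cfsg.hermForm n F q w1 v :=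
      ⟨frobQ hF (Cfsg.hermForm n F q w1 v), frobQ_frobQ hF _⟩
    apply hne l
    by_contra hvl
    obtain ⟨z', hz'⟩ := uh_nondeg_left hF (v - l • u) (sub_ne_zero.2 hvl)
    apply hz'
    have h1 := hcon (z' - Cfsg.hermForm n F q z' u • w1) (by
      rw [uh_sub_left, uh_smul_left, hw1]; ring)
    rw [uh_sub_left, uh_smul_left] at h1
    rw [uh_sub_right hF, uh_smul_right hF, hl]
    linear_combination h1
  have hvz : Cfsg.hermForm n F q v z ≠ 0 := by
    intro h
    apply hzv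
    rw [← uh_conj hF, h, map_zero]
  have huz : Cfsg.hermForm n F q u z = 0 := by rw [← uh_conj hF, hzu, map_zero]
  obtain ⟨s, hs⟩ := uiso_adjust hF z v hv hvz
  refine ⟨z + s • v, hs, ?_, ?_⟩
  · rw [uh_add_right hF, uh_smul_right hF, huv, huz]; ring
  · rw [uh_add_right hF, uh_smul_right hF, hv, mul_zero, add_zero]; exact hvz

end uhyp

end Cfsg.Agent.Helper13
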