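import Mathlib
import Cfsg.Agent.Helper13.UnitRoot

/-!
# Simplicity of `PSU_n(q)` via Iwasawa's criterion (helper13)

`psu_simple_of_perfect`: for `n ≥ 3`, `(n, q) ≠ (3, 2)`, if `SU_n(q)` is perfect then `PSU_n(q)` is
simple.  The points of the Iwasawa structure are the isotropic points, realised as the root
subgroups `uroot hF v` with the conjugation action.
-/

set_option autoImplicit false
set_option linter.unusedSimpArgs false
set_option linter.unusedSectionVars false
set_option linter.unusedVariables false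

namespace Cfsg.Agent.Helper13

open Matrix
open scoped Pointwise
open Cfsg.Agent.Helper5 (frobQ frobQ_apply frobQ_frobQ frobQ_ne_id)

section abstract

variable {G X : Type*} [Group G] [MulAction G X]

/-- A primitivity criterion for "rank 3" actions (same statement as helper5's
`isTrivialBlock_of_rel`). -/
theorem ublock_of_rel (R : X → X → Prop) (hsymm : ∀ a b, R a b → R b a)
    (h1 : ∀ a b c, R a b → R a c → ∃ g : G, g • a = a ∧ g • b = c)
    (h2 : ∀ a b, a ≠ b → ¬ R a b → ∃ c, R a c ∧ R c b)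
    (h3 : ∀ a b, a ≠ b → ¬ R a b → ∃ g : G, g • a = a ∧ R (g • b) b)
    (B : Set X) (hB : MulAction.IsBlock G B) : MulAction.IsTrivialBlock B := by
  rw [MulAction.isBlock_iff_smul_eq_of_mem] at hB
  have hP : ∀ a b c, a ∈ B → b ∈ B → R a b → R a c → c ∈ B := by
    intro a b c ha hb hab hac
    obtain ⟨g, hga, hgb⟩ := h1 a b c hab hac
    have hgB : g • B = B := hB ha (by rw [hga]; exact ha)
    rw [← hgB, ← hgb]
    exact Set.smul_mem_smul_set hb
  have hQ : ∀ a b, a ∈ B → b ∈ B → R a b → B = Set.univ := by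
    intro a b ha hb hab
    rw [Set.eq_univ_iff_forall]
    intro x
    by_cases hxa : a = x
    · rw [← hxa]; exact ha
    by_cases hax : R a x
    · exact hP a b x ha hb hab hax
    obtain ⟨c, hac, hcx⟩ := h2 a x hxa hax
    have hc : c ∈ B := hP a b c ha hb hab hac
    exact hP c a x hc ha (hsymm _ _ hac) hcx
  by_cases hsub : B.Subsingleton
  · exact Or.inl hsub
  right
  rw [Set.not_subsingleton_iff] at hsub
  obtain ⟨a, ha, b, hb, hab⟩ := hsub
  by_cases hR : R a b
  · exact hQ a b ha hb hR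
  obtain ⟨g, hga, hgb⟩ := h3 a b hab hR
  have hgB : g • B = B := hB ha (by rw [hga]; exact ha)
  have hgbB : g • b ∈ B := by
    rw [← hgB]
    exact Set.smul_mem_smul_set hb
  exact hQ (g • b) b hgbB hb hgb

end abstract

section upt
variable {F : Type*} [Field F] [Fintype F] {q n : ℕ}

/-- the isotropic points, realised as root subgroups -/
def UPt (hF : Fintype.card F = q ^ 2) (n : ℕ) : Type _ :=
  {S : Subgroup ↥(Cfsg.SU n F q) //
    ∃ v : Fin n → F, v ≠ 0 ∧ Cfsg.hermForm n F q v v = 0 ∧ S = uroot hF v}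

/-- a representing vector of an isotropic point -/
noncomputable def urep {hF : Fintype.card F = q ^ 2} (x : UPt hF n) : Fin n → F :=
  Classical.choose x.2

theorem urep_ne_zero {hF : Fintype.card F = q ^ 2} (x : UPt hF n) : urep x ≠ 0 :=
  (Classical.choose_spec x.2).1

theorem urep_iso {hF : Fintype.card F = q ^ 2} (x : UPt hF n) :
    Cfsg.hermForm n F q (urep x) (urep x) = 0 :=
  (Classical.choose_spec x.2).2.1

theorem urep_spec {hF : Fintype.card F = q ^ 2} (x : UPt hF n) : x.1 = uroot hF (urep x) :=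
  (Classical.choose_spec x.2).2.2

/-- the point of a non-zero isotropic vector -/
def umk (hF : Fintype.card F = q ^ 2) (v : Fin n → F) (hv0 : v ≠ 0)
    (hv : Cfsg.hermForm n F q v v = 0) : UPt hF n := ⟨uroot hF v, v, hv0, hv, rfl⟩

theorem umk_urep {hF : Fintype.card F = q ^ 2} (x : UPt hF n) :
    umk hF (urep x) (urep_ne_zero x) (urep_iso x) = x := Subtype.ext (urep_spec x).symm

theorem umk_eq_iff (hF : Fintype.card F = q ^ 2) (v w : Fin n → F) (hv0 : v ≠ 0)
    (hv : Cfsg.hermForm n F q v v = 0) (hw0 : w ≠ 0) (hw : Cfsg.hermForm n F q w w = 0) :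
    umk hF v hv0 hv = umk hF w hw0 hw ↔ ∃ l : F, l ≠ 0 ∧ v = l • w := by
  constructor
  · intro h
    exact uroot_eq hF v w hv0 hv hw (congrArg Subtype.val h)
  · rintro ⟨l, hl, rfl⟩
    exact Subtype.ext (uroot_smul hF l hl w)

theorem urep_umk (hF : Fintype.card F = q ^ 2) (v : Fin n → F) (hv0 : v ≠ 0)
    (hv : Cfsg.hermForm n F q v v = 0) :
    ∃ l : F, l ≠ 0 ∧ urep (umk hF v hv0 hv) = l • v :=
  (umk_eq_iff hF _ v (urep_ne_zero _) (urep_iso _) hv0 hv).1 (umk_urep _)

instance uptMulAction (hF : Fintype.card F = q ^ 2) : MulAction ↥(Cfsg.SU n F q) (UPt hF n) where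
  smul g x := ⟨MulAut.conj g • x.1, by
    obtain ⟨v, hv0, hv, h⟩ := x.2
    refine ⟨uact g v, ?_, ?_, ?_⟩
    · intro h0
      apply hv0
      have := congrArg (uact g⁻¹) h0
      rwa [uact_inv_uact, uact_zero] at this
    · rw [uact_herm]; exact hv
    · rw [h, uroot_conj]⟩
  one_smul x := Subtype.ext (by
    change MulAut.conj (1 : ↥(Cfsg.SU n F q)) • x.1 = x.1
    rw [map_one, one_smul])
  mul_smul g g' x := Subtype.ext (by
    change MulAut.conj (g * g') • x.1 = MulAut.conj g • (MulAut.conj g' • x.1)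
    rw [map_mul, mul_smul])

theorem usmul_val {hF : Fintype.card F = q ^ 2} (g : ↥(Cfsg.SU n F q)) (x : UPt hF n) :
    (g • x).1 = MulAut.conj g • x.1 := rfl

theorem uact_ne_zero (g : ↥(Cfsg.SU n F q)) (v : Fin n → F) (hv0 : v ≠ 0) : uact g v ≠ 0 := by
  intro h0
  apply hv0
  have := congrArg (uact g⁻¹) h0
  rwa [uact_inv_uact, uact_zero] at this

theorem usmul_umk (hF : Fintype.card F = q ^ 2) (g : ↥(Cfsg.SU n F q)) (v : Fin n → F)
    (hv0 : v ≠ 0) (hv : Cfsg.hermForm n F q v v = 0) :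
    g • umk hF v hv0 hv = umk hF (uact g v) (uact_ne_zero g v hv0) (by rw [uact_herm]; exact hv) :=
  Subtype.ext (uroot_conj hF g v)

/-- adjacency: non-perpendicular points -/
def uadj {hF : Fintype.card F = q ^ 2} (a b : UPt hF n) : Prop :=
  Cfsg.hermForm n F q (urep a) (urep b) ≠ 0

theorem uadj_symm {hF : Fintype.card F = q ^ 2} (a b : UPt hF n) (h : uadj a b) : uadj b a := by
  unfold uadj at h ⊢
  intro h'
  apply h
  rw [← uh_conj hF, h', map_zero]

theorem upt_pretransitive (hF : Fintype.card F = q ^ 2) (hn : 3 ≤ n) (h32 : ¬ (n = 3 ∧ q = 2)) :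
    MulAction.IsPretransitive ↥(Cfsg.SU n F q) (UPt hF n) := by
  constructor
  intro a b
  obtain ⟨μ, hμ0, hμ⟩ := ufld_exists_norm hF (c := -1) (by simp) (by simp)
  obtain ⟨g1, -, h1⟩ := su_trans_iso hF hn h32 μ hμ (urep a) (urep_ne_zero a) (urep_iso a)
  obtain ⟨g2, -, h2⟩ := su_trans_iso hF hn h32 μ hμ (urep b) (urep_ne_zero b) (urep_iso b)
  refine ⟨g2⁻¹ * g1, ?_⟩
  conv_lhs => rw [← umk_urep a]
  conv_rhs => rw [← umk_urep b]
  rw [usmul_umk]
  apply Subtype.ext
  change uroot hF (uact (g2⁻¹ * g1) (urep a)) = uroot hF (urep b)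
  rw [uact_mul, h1, ← h2, uact_inv_uact]

theorem uadj_h1 (hF : Fintype.card F = q ^ 2) (hn : 3 ≤ n) (h32 : ¬ (n = 3 ∧ q = 2))
    (a b c : UPt hF n) (hab : uadj a b) (hac : uadj a c) :
    ∃ g : ↥(Cfsg.SU n F q), g • a = a ∧ g • b = c := by
  unfold uadj at hab hac
  obtain ⟨lv, hlv⟩ : ∃ l : F, frobQ hF l = (Cfsg.hermForm n F q (urep a) (urep b))⁻¹ :=
    ⟨frobQ hF (Cfsg.hermForm n F q (urep a) (urep b))⁻¹, frobQ_frobQ hF _⟩
  obtain ⟨lw, hlw⟩ : ∃ l : F, frobQ hF l = (Cfsg.hermForm n F q (urep a) (urep c))⁻¹ :=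
    ⟨frobQ hF (Cfsg.hermForm n F q (urep a) (urep c))⁻¹, frobQ_frobQ hF _⟩
  have hlv0 : lv ≠ 0 := by
    rintro rfl
    rw [map_zero] at hlv
    exact (inv_ne_zero hab) hlv.symm
  have hlw0 : lw ≠ 0 := by
    rintro rfl
    rw [map_zero] at hlw
    exact (inv_ne_zero hac) hlw.symm
  obtain ⟨g, hgu, hgv⟩ := su_trans_hyp hF hn h32 (urep a) (lv • urep b) (urep a) (lw • urep c)
    (urep_iso a) (by rw [uh_smul_left, uh_smul_right hF, urep_iso b]; ring)
    (by rw [uh_smul_right hF, hlv, inv_mul_cancel₀ hab])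
    (urep_iso a) (by rw [uh_smul_left, uh_smul_right hF, urep_iso c]; ring)
    (by rw [uh_smul_right hF, hlw, inv_mul_cancel₀ hac])
  refine ⟨g, ?_, ?_⟩
  · conv_lhs => rw [← umk_urep a]
    conv_rhs => rw [← umk_urep a]
    rw [usmul_umk]
    apply Subtype.ext
    change uroot hF (uact g (urep a)) = uroot hF (urep a)
    rw [hgu]
  · conv_lhs => rw [← umk_urep b]
    conv_rhs => rw [← umk_urep c]
    rw [usmul_umk]
    apply Subtype.ext
    change uroot hF (uact g (urep b)) = uroot hF (urep c)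
    have h1 : uact g (urep b) = (lv⁻¹ * lw) • urep c := by
      have : urep b = lv⁻¹ • (lv • urep b) := by rw [smul_smul, inv_mul_cancel₀ hlv0, one_smul]
      rw [this, uact_smul, hgv, smul_smul]
    rw [h1, uroot_smul hF _ (mul_ne_zero (inv_ne_zero hlv0) hlw0)]

theorem uadj_h2 (hF : Fintype.card F = q ^ 2) (a b : UPt hF n) (hab : ¬ uadj a b) :
    ∃ c, uadj a c ∧ uadj c b := by
  unfold uadj at hab
  rw [not_not] at hab
  obtain ⟨c0, hc, huc, hvc⟩ := uiso_common hF (urep a) (urep b) (urep_ne_zero a) (urep_ne_zero b)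
    (urep_iso a) hab
  have hc0 : c0 ≠ 0 := by
    rintro rfl
    exact huc (uh_zero_right hF _)
  obtain ⟨l, hl0, hl⟩ := urep_umk hF c0 hc0 hc
  refine ⟨umk hF c0 hc0 hc, ?_, ?_⟩
  · unfold uadj
    rw [hl, uh_smul_right hF]
    exact mul_ne_zero (fun h => hl0 ((ufrob_eq_zero hF).1 h)) huc
  · unfold uadj
    rw [hl, uh_smul_left]
    refine mul_ne_zero hl0 (fun h => hvc ?_)
    rw [← uh_conj hF, h, map_zero]

theorem uadj_h3 (hF : Fintype.card F = q ^ 2) (a b : UPt hF n) (hne : a ≠ b) (hab : ¬ uadj a b) :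
    ∃ g : ↥(Cfsg.SU n F q), g • a = a ∧ uadj (g • b) b := by
  unfold uadj at hab
  rw [not_not] at hab
  have hne' : ∀ l : F, urep b ≠ l • urep a := by
    intro l hl
    apply hne
    have hl0 : l ≠ 0 := by
      rintro rfl
      rw [zero_smul] at hl
      exact urep_ne_zero b hl
    rw [← umk_urep a, ← umk_urep b]
    exact ((umk_eq_iff hF _ _ (urep_ne_zero b) (urep_iso b) (urep_ne_zero a) (urep_iso a)).2
      ⟨l, hl0, hl⟩).symm
  obtain ⟨w, hw, huw, hvw⟩ := uiso_sep hF (urep a) (urep b) (urep_ne_zero a) (urep_iso b) hab hne'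
  obtain ⟨c0, hc0, hc0'⟩ := ufld_exists_skew hF
  have hwv : Cfsg.hermForm n F q w (urep b) ≠ 0 := by
    intro h
    apply hvw
    rw [← uh_conj hF, h, map_zero]
  refine ⟨utv hF w c0, ?_, ?_⟩
  · conv_lhs => rw [← umk_urep a]
    conv_rhs => rw [← umk_urep a]
    rw [usmul_umk]
    apply Subtype.ext
    change uroot hF (uact (utv hF w c0) (urep a)) = uroot hF (urep a)
    rw [uact_utv hF w c0 hw hc0', huw, mul_zero, zero_smul, add_zero]
  · have h1 : utv hF w c0 • b = umk hF (uact (utv hF w c0) (urep b))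
        (uact_ne_zero _ _ (urep_ne_zero b)) (by rw [uact_herm]; exact urep_iso b) := by
      conv_lhs => rw [← umk_urep b]
      rw [usmul_umk]
    obtain ⟨l, hl0, hl⟩ := urep_umk hF (uact (utv hF w c0) (urep b))
      (uact_ne_zero _ _ (urep_ne_zero b)) (by rw [uact_herm]; exact urep_iso b)
    unfold uadj
    rw [h1, hl, uact_utv hF w c0 hw hc0', uh_smul_left, uh_add_left, uh_smul_left, urep_iso b,
      zero_add]
    exact mul_ne_zero hl0 (mul_ne_zero (mul_ne_zero hc0 hvw) hwv)

theorem upt_preprimitive (hF : Fintype.card F = q ^ 2) (hn : 3 ≤ n) (h32 : ¬ (n = 3 ∧ q = 2)) :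
    MulAction.IsPreprimitive ↥(Cfsg.SU n F q) (UPt hF n) := by
  have := upt_pretransitive hF hn h32
  exact ⟨fun {B} hB => ublock_of_rel uadj uadj_symm (uadj_h1 hF hn h32)
    (fun a b _ hab => uadj_h2 hF a b hab) (uadj_h3 hF) B hB⟩

/-- the root subgroups generate `SU`. -/
theorem iSup_uroot (hF : Fintype.card F = q ^ 2) (hn : 3 ≤ n) (h32 : ¬ (n = 3 ∧ q = 2)) :
    iSup (fun x : UPt hF n => x.1) = ⊤ := by
  rw [eq_top_iff, ← su_eq_utT hF n hn h32]
  unfold utT
  rw [Subgroup.closure_le]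
  intro A hA
  rcases utGen_cases A hA with h | h
  · rw [h]; exact Subgroup.one_mem _
  · obtain ⟨v, c, hv0, hc0, hv, hc, rfl⟩ := su_rank_one hF A h
    exact Subgroup.mem_iSup_of_mem (umk hF v hv0 hv) ⟨c, hc, rfl⟩

/-- the Iwasawa structure of `SU_n(q)` on the isotropic points -/
def uIwasawa (hF : Fintype.card F = q ^ 2) (hn : 3 ≤ n) (h32 : ¬ (n = 3 ∧ q = 2)) :
    MulAction.IwasawaStructure ↥(Cfsg.SU n F q) (UPt hF n) where
  T := fun x => x.1
  is_comm := fun x => by
    obtain ⟨v, hv0, hv, h⟩ := x.2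
    rw [h]
    exact uroot_comm hF v
  is_conj := fun g x => rfl
  is_generator := iSup_uroot hF hn h32

end upt

section ucenter
variable {F : Type*} [Field F] [Fintype F] {q n : ℕ}

/-- an element fixing every isotropic point is central. -/
theorem su_center_of_fix (hF : Fintype.card F = q ^ 2) (hn : 3 ≤ n)
    (g : ↥(Cfsg.SU n F q)) (hg : ∀ x : UPt hF n, g • x = x) :
    g ∈ Subgroup.center ↥(Cfsg.SU n F q) := by
  classical
  -- eigenvalues on isotropic vectors
  have heig : ∀ v : Fin n → F, v ≠ 0 → Cfsg.hermForm n F q v v = 0 →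
      ∃ l : F, uact g v = l • v := by
    intro v hv0 hv
    have h1 := hg (umk hF v hv0 hv)
    rw [usmul_umk] at h1
    obtain ⟨l, -, hl⟩ := (umk_eq_iff hF _ _ _ _ hv0 hv).1 h1
    exact ⟨l, hl⟩
  obtain ⟨c0, hc0, hc0'⟩ := ufld_exists_skew hF
  have key1 : ∀ v1 v2 : Fin n → F, v1 ≠ 0 → v2 ≠ 0 → Cfsg.hermForm n F q v1 v1 = 0 →
      Cfsg.hermForm n F q v2 v2 = 0 → Cfsg.hermForm n F q v1 v2 ≠ 0 →
      ∀ a : F, uact g v1 = a • v1 → uact g v2 = a • v2 := by
    intro v1 v2 hv10 hv20 hv1 hv2 h12 a ha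
    have h21 : Cfsg.hermForm n F q v2 v1 ≠ 0 := by
      intro h
      apply h12
      rw [← uh_conj hF, h, map_zero]
    obtain ⟨s, hs⟩ : ∃ s : F, s = c0 / Cfsg.hermForm n F q v2 v1 := ⟨_, rfl⟩
    have hs0 : s ≠ 0 := by rw [hs]; exact div_ne_zero hc0 h21
    have hsx : s * Cfsg.hermForm n F q v2 v1 = c0 := by rw [hs]; field_simp
    have hxi : Cfsg.hermForm n F q (v1 + s • v2) (v1 + s • v2) = 0 := by
      simp only [uh_add_left, uh_add_right hF, uh_smul_left, uh_smul_right hF, hv1, hv2]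
      have h3 : frobQ hF s * Cfsg.hermForm n F q v1 v2 = frobQ hF c0 := by
        rw [← hsx, map_mul, uh_conj hF]
      linear_combination h3 + hsx + hc0'
    have hx0 : v1 + s • v2 ≠ 0 := by
      intro h
      apply h12
      have := congrArg (fun y => Cfsg.hermForm n F q y v2) h
      simp only [uh_add_left, uh_smul_left, hv2, uh_zero_left] at this
      linear_combination this
    obtain ⟨lx, hlx⟩ := heig _ hx0 hxi
    obtain ⟨l2, hl2⟩ := heig v2 hv20 hv2
    rw [uact_add, uact_smul, ha, hl2] at hlx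
    have e1 := congrArg (fun y => Cfsg.hermForm n F q y v2) hlx
    simp only [uh_add_left, uh_smul_left, hv2] at e1
    have e2 := congrArg (fun y => Cfsg.hermForm n F q y v1) hlx
    simp only [uh_add_left, uh_smul_left, hv1] at e2
    have hlxa : lx = a := by
      have : (a - lx) * Cfsg.hermForm n F q v1 v2 = 0 := by linear_combination e1
      rcases mul_eq_zero.1 this with h | h
      · linear_combination -h
      · exact absurd h h12
    have hl2x : l2 = lx := by
      have : (l2 - lx) * (s * Cfsg.hermForm n F q v2 v1) = 0 := by linear_combination e2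
      rcases mul_eq_zero.1 this with h | h
      · linear_combination h
      · exact absurd h (mul_ne_zero hs0 h21)
    rw [hl2, hl2x, hlxa]
  -- the base isotropic vector
  obtain ⟨μ, hμ0, hμ⟩ := ufld_exists_norm hF (c := -1) (by simp) (by simp)
  obtain ⟨ζ, hζ, hζ'⟩ := ufld_exists_norm_one hF
  have hζ1 : 1 - ζ ≠ 0 := by
    intro h
    have : ζ = 1 := by linear_combination -h
    apply hζ'
    rw [this, map_one]
  have hiso : ∀ (i j : Fin n) (c : F), i ≠ j → c * frobQ hF c = -1 →
      (Pi.single i (1 : F) + c • Pi.single j (1 : F) ≠ 0) ∧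
      Cfsg.hermForm n F q (Pi.single i (1 : F) + c • Pi.single j 1)
        (Pi.single i 1 + c • Pi.single j 1) = 0 := by
    intro i j c hij hc
    constructor
    · intro h
      have := congrFun h i
      simp [Pi.single_apply, hij] at this
    · simp only [uh_add_left, uh_add_right hF, uh_smul_left, uh_smul_right hF,
        uh_single_single hF, if_neg hij, if_neg (Ne.symm hij), if_true]
      linear_combination hc
  have h01 : (⟨0, by omega⟩ : Fin n) ≠ ⟨1, by omega⟩ := by
    intro h; have := congrArg Fin.val h; simp at this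
  obtain ⟨hv00, hv0⟩ := hiso ⟨0, by omega⟩ ⟨1, by omega⟩ μ h01 hμ
  obtain ⟨a, ha⟩ := heig _ hv00 hv0
  have key2 : ∀ v : Fin n → F, v ≠ 0 → Cfsg.hermForm n F q v v = 0 → uact g v = a • v := by
    intro v hv0' hv
    by_cases h : Cfsg.hermForm n F q
        (Pi.single (⟨0, by omega⟩ : Fin n) (1 : F) + μ • Pi.single (⟨1, by omega⟩ : Fin n) 1) v = 0
    · obtain ⟨c, hc, h1, h2⟩ := uiso_common hF _ v hv00 hv0' hv0 h
      have hc0' : c ≠ 0 := by
        rintro rfl
        exact h1 (uh_zero_right hF _)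
      have h3 := key1 _ c hv00 hc0' hv0 hc h1 a ha
      have h4 : Cfsg.hermForm n F q c v ≠ 0 := by
        intro h5
        apply h2
        rw [← uh_conj hF, h5, map_zero]
      exact key1 c v hc0' hv0' hc hv h4 a h3
    · exact key1 _ v hv00 hv0' hv0 hv h a ha
  have hμζ : (μ * ζ) * frobQ hF (μ * ζ) = -1 := by
    rw [map_mul]; linear_combination (ζ * frobQ hF ζ) * hμ - hζ
  have hbasis : ∀ j : Fin n, uact g (Pi.single j 1) = a • Pi.single j (1 : F) := by
    intro j
    obtain ⟨i, hij⟩ : ∃ i : Fin n, i ≠ j := by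
      by_cases hj : j = ⟨0, by omega⟩
      · exact ⟨⟨1, by omega⟩, by rw [hj]; exact h01.symm⟩
      · exact ⟨⟨0, by omega⟩, fun h => hj h.symm⟩
    obtain ⟨hp0, hp⟩ := hiso i j μ hij hμ
    obtain ⟨hp0', hp'⟩ := hiso i j (μ * ζ) hij hμζ
    have e1 := key2 _ hp0 hp
    have e2 := key2 _ hp0' hp'
    have hdec : Pi.single j (1 : F) = (μ * (1 - ζ))⁻¹ •
        ((Pi.single i (1 : F) + μ • Pi.single j (1 : F)) -
          (Pi.single i (1 : F) + (μ * ζ) • Pi.single j (1 : F))) := by
      match_scalars <;> field_simp <;> ring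
    rw [hdec, uact_smul, uact_sub, e1, e2]
    module
  have hall : ∀ y : Fin n → F, uact g y = a • y := by
    have hmat : ((g : Matrix.SpecialLinearGroup (Fin n) F) : Matrix (Fin n) (Fin n) F) =
        a • (1 : Matrix (Fin n) (Fin n) F) := by
      apply umat_ext
      intro x
      have hx : x = ∑ j, x j • Pi.single j (1 : F) := by
        funext i
        simp [Finset.sum_apply, Pi.single_apply]
      rw [Matrix.smul_mulVec, Matrix.one_mulVec]
      conv_lhs => rw [hx]
      rw [Matrix.mulVec_sum]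
      conv_rhs => rw [hx]
      rw [Finset.smul_sum]
      refine Finset.sum_congr rfl (fun j _ => ?_)
      rw [Matrix.mulVec_smul]
      have := hbasis j
      unfold uact at this
      rw [this, smul_comm]
    intro y
    unfold uact
    rw [hmat, Matrix.smul_mulVec, Matrix.one_mulVec]
  rw [Subgroup.mem_center_iff]
  intro k
  rw [uact_eq_iff]
  intro x
  rw [uact_mul, uact_mul, hall, hall, uact_smul]

/-- A normal subgroup of `SU_n(q)` is central or contains the commutator subgroup. -/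
theorem su_normal_le_center_or_commutator_le (hF : Fintype.card F = q ^ 2) (hn : 3 ≤ n)
    (h32 : ¬ (n = 3 ∧ q = 2)) (N : Subgroup ↥(Cfsg.SU n F q)) [hN : N.Normal] :
    N ≤ Subgroup.center ↥(Cfsg.SU n F q) ∨ commutator ↥(Cfsg.SU n F q) ≤ N := by
  have := upt_preprimitive hF hn h32
  by_cases hfix : MulAction.fixedPoints N (UPt hF n) = Set.univ
  · left
    intro g hg
    apply su_center_of_fix hF hn g
    intro x
    have h1 : x ∈ MulAction.fixedPoints N (UPt hF n) := by rw [hfix]; exact Set.mem_univ _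
    exact h1 ⟨g, hg⟩
  · right
    exact (uIwasawa hF hn h32).commutator_le N hfix

/-- `PSU_n(q)` is simple as soon as `SU_n(q)` is perfect (`n ≥ 3`, `(n, q) ≠ (3, 2)`). -/
theorem psu_simple_of_perfect (hF : Fintype.card F = q ^ 2) (hn : 3 ≤ n)
    (h32 : ¬ (n = 3 ∧ q = 2)) (hperf : commutator ↥(Cfsg.SU n F q) = ⊤) :
    IsSimpleGroup (↥(Cfsg.SU n F q) ⧸ Subgroup.center ↥(Cfsg.SU n F q)) := by
  have hnt : Nontrivial (↥(Cfsg.SU n F q) ⧸ Subgroup.center ↥(Cfsg.SU n F q)) := by
    by_contra hcon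
    rw [not_nontrivial_iff_subsingleton] at hcon
    have hcen : Subgroup.center ↥(Cfsg.SU n F q) = ⊤ := by
      rw [eq_top_iff]
      intro g _
      rw [← QuotientGroup.eq_one_iff]
      exact Subsingleton.elim _ _
    have hbot : commutator ↥(Cfsg.SU n F q) = ⊥ := (commutator_eq_bot_iff_center_eq_top _).2 hcen
    rw [hperf] at hbot
    -- a non-trivial transvection
    obtain ⟨μ, hμ0, hμ⟩ := ufld_exists_norm hF (c := -1) (by simp) (by simp)
    obtain ⟨c0, hc0, hc0'⟩ := ufld_exists_skew hF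
    have h01 : (⟨0, by omega⟩ : Fin n) ≠ ⟨1, by omega⟩ := by
      intro h; have := congrArg Fin.val h; simp at this
    obtain ⟨v0, hv0def⟩ : ∃ v0 : Fin n → F, v0 =
        Pi.single (⟨0, by omega⟩ : Fin n) (1 : F) + μ • Pi.single (⟨1, by omega⟩ : Fin n) (1 : F) :=
      ⟨_, rfl⟩
    have hv00 : v0 ≠ 0 := by
      intro h
      have := congrFun h ⟨0, by omega⟩
      rw [hv0def] at this
      simp [Pi.single_apply, h01] at this
    have hv0 : Cfsg.hermForm n F q v0 v0 = 0 := by
      rw [hv0def]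
      simp only [uh_add_left, uh_add_right hF, uh_smul_left, uh_smul_right hF,
        uh_single_single hF, if_neg h01, if_neg h01.symm, if_true]
      linear_combination hμ
    have h1 : utv hF v0 c0 ∈ (⊤ : Subgroup ↥(Cfsg.SU n F q)) := Subgroup.mem_top _
    rw [hbot, Subgroup.mem_bot] at h1
    exact utv_ne_one hF v0 c0 hv00 hc0 hv0 hc0' h1
  apply IsSimpleGroup.mk
  intro N hN
  have hNc : (N.comap (QuotientGroup.mk' (Subgroup.center ↥(Cfsg.SU n F q)))).Normal :=
    hN.comap _
  rcases su_normal_le_center_or_commutator_le hF hn h32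
    (N.comap (QuotientGroup.mk' (Subgroup.center ↥(Cfsg.SU n F q)))) with h | h
  · left
    rw [eq_bot_iff]
    intro x hx
    obtain ⟨g, rfl⟩ := QuotientGroup.mk_surjective x
    rw [Subgroup.mem_bot, QuotientGroup.eq_one_iff]
    exact h (Subgroup.mem_comap.2 hx)
  · right
    rw [eq_top_iff]
    intro x _
    obtain ⟨g, rfl⟩ := QuotientGroup.mk_surjective x
    rw [hperf] at h
    exact Subgroup.mem_comap.1 (h (Subgroup.mem_top g))

end ucenter

end Cfsg.Agent.Helper13
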