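import Mathlib

set_option autoImplicit false

namespace Cfsg.Agent.Helper13

section multtrans

/-- If all stabilisers of an action of a finite group `K` on a finite set `X` have the same
order `m`, then `|K|` divides `|X| * m`. -/
theorem card_dvd_of_stab {K X : Type*} [Group K] [Finite K] [MulAction K X] [Finite X] (m : ℕ)
    (hm : ∀ x : X, Nat.card (MulAction.stabilizer K x) = m) : Nat.card K ∣ Nat.card X * m := by
  classical
  let _ := Fintype.ofFinite K
  let _ := Fintype.ofFinite X
  have h := MulAction.card_eq_sum_card_group_div_card_stabilizer K X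
  have h2 : ∀ ω : Quotient (MulAction.orbitRel K X),
      Fintype.card K / Fintype.card (MulAction.stabilizer K ω.out) * m = Fintype.card K := by
    intro ω
    have h3 := hm ω.out
    rw [Nat.card_eq_fintype_card] at h3
    rw [h3]
    apply Nat.div_mul_cancel
    rw [← h3, ← Nat.card_eq_fintype_card, ← Nat.card_eq_fintype_card]
    exact Subgroup.card_subgroup_dvd_card _
  rw [Nat.card_eq_fintype_card, Nat.card_eq_fintype_card, h, Finset.sum_mul,
    Finset.sum_congr rfl (fun ω _ => h2 ω)]
  simp

/-- Version of `card_dvd_of_stab` for a subgroup `K` of a permutation group acting on an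
invariant subset `X`. -/
theorem card_dvd_card_mul {α : Type*} [Finite α] (G : Subgroup (Equiv.Perm α))
    (K : Subgroup G) (X : Set α) (hX : ∀ g ∈ K, ∀ x ∈ X, g • x ∈ X) (m : ℕ)
    (hm : ∀ x ∈ X, Nat.card (K ⊓ MulAction.stabilizer G x : Subgroup G) = m) :
    Nat.card K ∣ Nat.card X * m := by
  let S : SubMulAction K α := { carrier := X, smul_mem' := fun g x hx => hX g.1 g.2 x hx }
  have key := card_dvd_of_stab (K := K) (X := S) m ?_
  · exact key
  · rintro ⟨x, hx⟩
    rw [← hm x hx]
    apply Nat.card_congr
    exact
      { toFun := fun g => ⟨g.1.1, g.1.2, by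
          have := g.2
          rw [MulAction.mem_stabilizer_iff] at this
          show g.1.1 ∈ MulAction.stabilizer G x
          rw [MulAction.mem_stabilizer_iff]
          exact congrArg Subtype.val this⟩
        invFun := fun g => ⟨⟨g.1, g.2.1⟩, by
          rw [MulAction.mem_stabilizer_iff]
          apply Subtype.ext
          have := g.2.2
          have h2 : g.1 ∈ MulAction.stabilizer G x := this
          rw [MulAction.mem_stabilizer_iff] at h2
          exact h2⟩
        left_inv := fun g => rfl
        right_inv := fun g => rfl }

/-- Downward induction: if the pointwise stabiliser of every `t`-subset is transitive on the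
complement and `t + 1 < |α|`, the same holds for all subsets of size at most `t`. -/
theorem fixing_trans_downward {α : Type*} [Fintype α] [DecidableEq α]
    (G : Subgroup (Equiv.Perm α)) (t : ℕ) (ht : t + 1 < Fintype.card α)
    (h : ∀ S' : Finset α, S'.card = t → ∀ a ∉ S', ∀ b ∉ S',
      ∃ g ∈ fixingSubgroup G (S' : Set α), g • a = b) :
    ∀ S' : Finset α, S'.card ≤ t → ∀ a ∉ S', ∀ b ∉ S',
      ∃ g ∈ fixingSubgroup G (S' : Set α), g • a = b := by
  have step2 : ∀ d : ℕ, d ≤ t → ∀ S' : Finset α, S'.card = t - d → ∀ a ∉ S', ∀ b ∉ S',
      ∃ g ∈ fixingSubgroup G (S' : Set α), g • a = b := by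
    intro d
    induction d with
    | zero =>
      intro _ S' hS'
      exact h S' (by simpa using hS')
    | succ d ih =>
      intro hd S' hS' a ha b hb
      obtain ⟨c, hc⟩ : ∃ c, c ∉ insert a (insert b S') := by
        by_contra hall
        push Not at hall
        have h0 : Finset.univ ⊆ insert a (insert b S') := fun x _ => hall x
        have h3 := Finset.card_le_card h0
        rw [Finset.card_univ] at h3
        have h1 := Finset.card_insert_le a (insert b S')
        have h2 := Finset.card_insert_le b S'
        omega
      simp only [Finset.mem_insert, not_or] at hc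
      obtain ⟨hca, hcb, hcS⟩ := hc
      obtain ⟨g, hg, hga⟩ := ih (by omega) (insert c S')
        (by rw [Finset.card_insert_of_notMem hcS]; omega) a
        (by simp [ha, Ne.symm hca]) b (by simp [hb, Ne.symm hcb])
      refine ⟨g, ?_, hga⟩
      rw [mem_fixingSubgroup_iff] at hg ⊢
      intro y hy
      exact hg y (by simp [Finset.mem_coe.mp hy])
  intro S' hS'
  exact step2 (t - S'.card) (by omega) S' (by omega)

/-- If the pointwise stabiliser of every subset of size `< k` is transitive on the complement,
the group is `k`-transitive. -/
theorem multTrans_of_fixing {α : Type*} [Fintype α] [DecidableEq α]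
    (G : Subgroup (Equiv.Perm α)) (k : ℕ)
    (step3 : ∀ S' : Finset α, S'.card < k → ∀ a ∉ S', ∀ b ∉ S',
      ∃ g ∈ fixingSubgroup G (S' : Set α), g • a = b) :
    MulAction.IsMultiplyPretransitive G α k := by
  rw [MulAction.isMultiplyPretransitive_iff]
  intro x y
  have main : ∀ j : ℕ, j ≤ k → ∃ g : G, ∀ i : Fin k, i.1 < j → g • x i = y i := by
    intro j
    induction j with
    | zero => intro _; exact ⟨1, fun i hi => absurd hi (Nat.not_lt_zero _)⟩
    | succ j ih =>
      intro hj
      obtain ⟨g, hg⟩ := ih (by omega)
      let S' : Finset α := (Finset.univ.filter (fun i : Fin k => i.1 < j)).image y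
      have hS'card : S'.card < k := by
        refine lt_of_le_of_lt Finset.card_image_le ?_
        rw [Fin.card_filter_val_lt]
        omega
      have hmem : ∀ z, z ∈ S' ↔ ∃ i : Fin k, i.1 < j ∧ y i = z := by
        intro z
        simp [S']
      have ha : g • x ⟨j, by omega⟩ ∉ S' := by
        rw [hmem]
        rintro ⟨i, hi, hyi⟩
        rw [← hg i hi] at hyi
        have h1 : x i = x ⟨j, by omega⟩ := by
          have := congrArg (fun z => g⁻¹ • z) hyi
          simpa using this
        have h2 := x.injective h1
        rw [Fin.ext_iff] at h2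
        simp at h2
        omega
      have hb : y ⟨j, by omega⟩ ∉ S' := by
        rw [hmem]
        rintro ⟨i, hi, hyi⟩
        have h2 := y.injective hyi
        rw [Fin.ext_iff] at h2
        simp at h2
        omega
      obtain ⟨h', hh', hh'ab⟩ := step3 S' hS'card _ ha _ hb
      refine ⟨h' * g, ?_⟩
      intro i hi
      rw [mul_smul]
      rcases Nat.lt_succ_iff_lt_or_eq.mp hi with hi' | hi'
      · rw [hg i hi']
        rw [mem_fixingSubgroup_iff] at hh'
        apply hh'
        rw [Finset.mem_coe, hmem]
        exact ⟨i, hi', rfl⟩
      · have : i = ⟨j, by omega⟩ := Fin.ext hi'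
        rw [this]
        exact hh'ab
  obtain ⟨g, hg⟩ := main k le_rfl
  refine ⟨g, ?_⟩
  ext i
  exact hg i i.2

end multtrans

end Cfsg.Agent.Helper13
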