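import Mathlib
import Cfsg.Prelude.Def_GeometricClasses
import Cfsg.Prelude.Def_Classical
import Cfsg.Agent.Helper13.NPDefs
import Cfsg.Agent.Helper43.UniMain
import Cfsg.Agent.Helper43.UniIso
import Cfsg.Agent.Helper10.NPUNIPH
import Cfsg.Agent.Helper57.NPCOMB
import Cfsg.Agent.Helper31.NPXFERU

set_option autoImplicit false

/-!
# CALL NP (helper13), piece PMAIN = stage `r = p` of row S5989

Some element of order `p` of `Ω⁺_{2d}(q)` (`q` odd) fixes no nondegenerate subspace of odd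
dimension `m < d`: Jordan type `2^d` (`d` even), `1² 2^(d-1)` (`d` odd, `m ≡ 3 mod 4`),
`3² 2^(d-3)` (`d` odd, `m ≡ 1 mod 4`).
-/

namespace Cfsg.Agent.Helper13.NP5989

open Module Cfsg Cfsg.Geo Cfsg.Agent.Helper13.NP
open Cfsg.Agent.Helper43.UniIso (UnipH kdim)
open scoped MatrixGroups

theorem np_p {F : Type*} [Field F] [Fintype F] (p : ℕ) [Fact p.Prime] [CharP F p] (q : ℕ)
    (hq : Fintype.card F = q) (hodd : Odd q)
    (d m : ℕ) (hd : 4 ≤ d) (hm : Odd m) (hmd : m < d) (W₀ : Submodule F (Fin d ⊕ Fin d → F))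
    (hW₀ : Module.finrank F ↥W₀ = m ∧
      IsNondegenerateOn (QuadraticMap.polar (Cfsg.quadFormPlus d F)) W₀) :
    ¬ (∀ x : GL (Fin d ⊕ Fin d) F, x ∈ Cfsg.Geo.omegaGL (Cfsg.quadFormPlus d F) →
      (∃ z : F, ((x ^ p : GL (Fin d ⊕ Fin d) F) : Matrix (Fin d ⊕ Fin d) (Fin d ⊕ Fin d) F) =
        z • (1 : Matrix (Fin d ⊕ Fin d) (Fin d ⊕ Fin d) F)) →
      (∀ z : F, (x : Matrix (Fin d ⊕ Fin d) (Fin d ⊕ Fin d) F) ≠
        z • (1 : Matrix (Fin d ⊕ Fin d) (Fin d ⊕ Fin d) F)) →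
      NPFix (Cfsg.quadFormPlus d F) W₀ m (x : Matrix (Fin d ⊕ Fin d) (Fin d ⊕ Fin d) F)) := by
  classical
  intro H
  have hpp : p.Prime := Fact.out
  have hp2 : p ≠ 2 := by
    intro h
    obtain ⟨n, -, hn⟩ := FiniteField.card F p
    rw [hq, h] at hn
    rw [hn] at hodd
    exact (Nat.not_even_iff_odd.mpr hodd) (Nat.even_pow.mpr ⟨even_two, n.pos.ne'⟩)
  have hp3 : 3 ≤ p := by
    have := hpp.two_le
    omega
  have h2 : (2 : F) ≠ 0 := by
    intro h
    have h' : ((2 : ℕ) : F) = 0 := by exact_mod_cast h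
    have hd2 : p ∣ 2 := (CharP.cast_eq_zero_iff F p 2).mp h'
    exact hp2 ((Nat.prime_dvd_prime_iff_eq hpp Nat.prime_two).mp hd2)
  have hcard : Fintype.card (Fin d ⊕ Fin d) = 2 * d := by
    rw [Fintype.card_sum, Fintype.card_fin]; ring
  have : Nonempty (Fin d ⊕ Fin d) := ⟨Sum.inl ⟨0, by omega⟩⟩
  have key : ∀ μ : Multiset ℕ, UnipH F μ → μ.sum = 2 * d → (∀ e ∈ μ, 0 < e ∧ e ≤ p) → 2 ∈ μ →
      (∀ ν : Multiset ℕ, ν.sum = m → (∀ e, Even e → Even (ν.count e)) → ¬ ν ≤ μ) → False := by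
    intro μ hU hsum hμ h2mem hno
    obtain ⟨A, hA, hAk⟩ := Cfsg.Agent.Helper31.NP5989.np_xfer_u h2 d (by omega) μ hU hsum
    have keyg := Cfsg.Agent.Helper43.UniMain.key_general p hp2 (Cfsg.Agent.Helper43.plusQF d F)
      (Cfsg.Agent.Helper43.OrthEven.plusQF_nondeg d) m
      (fun W => NPX (Cfsg.quadFormPlus d F) W₀ m W)
      (fun W hW => ⟨hW.1, hW.2.1⟩)
      (fun x hxΩ hxp hx1 hxs => H x hxΩ ⟨1, by rw [hxp, one_smul]; rfl⟩ hxs) μ hμ
      (by rw [hsum, hcard])
      A hA hAk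
    rcases keyg with hμ1 | ⟨W, ν, hGW, hWA, hnil, hνμ, hνs, hνp, hνc⟩
    · rw [hμ1] at h2mem
      have := Multiset.eq_of_mem_replicate h2mem
      omega
    · exact hno ν hνs hνp hνμ
  obtain ⟨hU1, hU2, hU3⟩ := Cfsg.Agent.Helper10.NP5989.np_uniph (F := F) h2 d
  rcases Nat.even_or_odd d with hde | hdo
  · refine key (Multiset.replicate d 2) (hU1 hde) ?_ ?_ ?_ ?_
    · rw [Multiset.sum_replicate, smul_eq_mul]; omega
    · intro e he
      rw [Multiset.eq_of_mem_replicate he]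
      exact ⟨two_pos, by omega⟩
    · rw [Multiset.mem_replicate]
      exact ⟨by omega, rfl⟩
    · intro ν hs hpar
      exact (Cfsg.Agent.Helper57.NP5989.np_comb d m hm ν hs hpar).1 hde
  · have hm4 : m % 4 = 3 ∨ m % 4 = 1 := by
      obtain ⟨k, hk⟩ := hm
      omega
    have hd5 : 5 ≤ d := by
      obtain ⟨k, hk⟩ := hdo
      omega
    rcases hm4 with h4 | h4
    · refine key ({1} + {1} + Multiset.replicate (d - 1) 2) (hU2 hdo) ?_ ?_ ?_ ?_
      · rw [Multiset.sum_add, Multiset.sum_add, Multiset.sum_singleton, Multiset.sum_replicate,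
          smul_eq_mul]; omega
      · intro e he
        rw [Multiset.mem_add, Multiset.mem_add, Multiset.mem_singleton] at he
        rcases he with (rfl | rfl) | he
        · exact ⟨one_pos, by omega⟩
        · exact ⟨one_pos, by omega⟩
        · rw [Multiset.eq_of_mem_replicate he]
          exact ⟨two_pos, by omega⟩
      · rw [Multiset.mem_add]
        right
        rw [Multiset.mem_replicate]
        exact ⟨by omega, rfl⟩
      · intro ν hs hpar
        exact (Cfsg.Agent.Helper57.NP5989.np_comb d m hm ν hs hpar).2.1 hdo h4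
    · refine key ({3} + {3} + Multiset.replicate (d - 3) 2) (hU3 hdo (by omega)) ?_ ?_ ?_ ?_
      · rw [Multiset.sum_add, Multiset.sum_add, Multiset.sum_singleton, Multiset.sum_replicate,
          smul_eq_mul]; omega
      · intro e he
        rw [Multiset.mem_add, Multiset.mem_add, Multiset.mem_singleton] at he
        rcases he with (rfl | rfl) | he
        · exact ⟨by norm_num, hp3⟩
        · exact ⟨by norm_num, hp3⟩
        · rw [Multiset.eq_of_mem_replicate he]
          exact ⟨two_pos, by omega⟩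
      · rw [Multiset.mem_add]
        right
        rw [Multiset.mem_replicate]
        exact ⟨by omega, rfl⟩
      · intro ν hs hpar
        exact (Cfsg.Agent.Helper57.NP5989.np_comb d m hm ν hs hpar).2.2 hdo h4

end Cfsg.Agent.Helper13.NP5989
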