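import Mathlib
import Cfsg.Prelude.Def_Classical
import Cfsg.Prelude.Def_ClassicalGeometry

/-!
# Siegel transformations for the hyperbolic quadratic form (helper13)

Calculus for `Cfsg.quadFormPlus n F` (`Q(x, y) = Σ xᵢ yᵢ`), its polar form `oB`, the action `oAct`
of the isometry group on vectors, the Siegel elements `osg p r c` (for a singular line `⟨p, r⟩`)
and their root groups `OSG p r`.
-/

set_option autoImplicit false
set_option linter.unusedSimpArgs false
set_option linter.unusedSectionVars false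
set_option linter.unusedVariables false

namespace Cfsg.Agent.Helper13

open Matrix

section oform
variable {F : Type*} [Field F] {n : ℕ}

/-- swap the two halves of a vector. -/
def oSw (y : Fin n ⊕ Fin n → F) : Fin n ⊕ Fin n → F := fun i => y (Sum.swap i)

/-- the polar form of `quadFormPlus`. -/
def oB (x y : Fin n ⊕ Fin n → F) : F := x ⬝ᵥ oSw y

theorem oSw_add (x y : Fin n ⊕ Fin n → F) : oSw (x + y) = oSw x + oSw y := rfl

theorem oSw_smul (a : F) (x : Fin n ⊕ Fin n → F) : oSw (a • x) = a • oSw x := rfl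

theorem oSw_single (i : Fin n ⊕ Fin n) : oSw (Pi.single i (1 : F)) = Pi.single (Sum.swap i) 1 := by
  funext j
  unfold oSw
  rw [Pi.single_apply, Pi.single_apply]
  by_cases h : j = Sum.swap i
  · subst h; simp
  · have : ¬ Sum.swap j = i := by
      intro h'; apply h; rw [← h', Sum.swap_swap]
    simp [h, this]

theorem oB_eq_sum (x y : Fin n ⊕ Fin n → F) :
    oB x y = ∑ i : Fin n, (x (Sum.inl i) * y (Sum.inr i) + x (Sum.inr i) * y (Sum.inl i)) := by
  unfold oB dotProduct oSw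
  rw [Fintype.sum_sum_type, Finset.sum_add_distrib]
  rfl

theorem oQ_add (x y : Fin n ⊕ Fin n → F) :
    Cfsg.quadFormPlus n F (x + y) = Cfsg.quadFormPlus n F x + Cfsg.quadFormPlus n F y + oB x y := by
  rw [oB_eq_sum]
  unfold Cfsg.quadFormPlus
  rw [← Finset.sum_add_distrib, ← Finset.sum_add_distrib]
  refine Finset.sum_congr rfl (fun i _ => ?_)
  simp only [Pi.add_apply]
  ring

theorem oQ_smul (a : F) (x : Fin n ⊕ Fin n → F) :
    Cfsg.quadFormPlus n F (a • x) = a * a * Cfsg.quadFormPlus n F x := by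
  unfold Cfsg.quadFormPlus
  rw [Finset.mul_sum]
  refine Finset.sum_congr rfl (fun i _ => ?_)
  simp only [Pi.smul_apply, smul_eq_mul]
  ring

theorem oQ_zero : Cfsg.quadFormPlus n F 0 = 0 := by
  unfold Cfsg.quadFormPlus
  simp

theorem oB_comm (x y : Fin n ⊕ Fin n → F) : oB x y = oB y x := by
  rw [oB_eq_sum, oB_eq_sum]
  refine Finset.sum_congr rfl (fun i _ => ?_)
  ring

theorem oB_add_left (x x' y : Fin n ⊕ Fin n → F) : oB (x + x') y = oB x y + oB x' y :=
  add_dotProduct _ _ _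

theorem oB_add_right (x y y' : Fin n ⊕ Fin n → F) : oB x (y + y') = oB x y + oB x y' := by
  unfold oB; rw [oSw_add, dotProduct_add]

theorem oB_smul_left (a : F) (x y : Fin n ⊕ Fin n → F) : oB (a • x) y = a * oB x y :=
  smul_dotProduct _ _ _

theorem oB_smul_right (a : F) (x y : Fin n ⊕ Fin n → F) : oB x (a • y) = a * oB x y := by
  unfold oB; rw [oSw_smul, dotProduct_smul, smul_eq_mul]

theorem oB_zero_left (y : Fin n ⊕ Fin n → F) : oB 0 y = 0 := zero_dotProduct _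

theorem oB_zero_right (x : Fin n ⊕ Fin n → F) : oB x 0 = 0 := by
  rw [oB_comm, oB_zero_left]

theorem oB_neg_left (x y : Fin n ⊕ Fin n → F) : oB (-x) y = -oB x y := neg_dotProduct _ _

theorem oB_neg_right (x y : Fin n ⊕ Fin n → F) : oB x (-y) = -oB x y := by
  rw [oB_comm, oB_neg_left, oB_comm]

theorem oB_sub_left (x x' y : Fin n ⊕ Fin n → F) : oB (x - x') y = oB x y - oB x' y :=
  sub_dotProduct _ _ _

theorem oB_sub_right (x y y' : Fin n ⊕ Fin n → F) : oB x (y - y') = oB x y - oB x y' := by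
  rw [oB_comm, oB_sub_left, oB_comm, oB_comm y']

theorem oB_self (x : Fin n ⊕ Fin n → F) : oB x x = 2 * Cfsg.quadFormPlus n F x := by
  rw [oB_eq_sum]
  unfold Cfsg.quadFormPlus
  rw [Finset.mul_sum]
  refine Finset.sum_congr rfl (fun i _ => ?_)
  ring

theorem oB_self_of_sing {x : Fin n ⊕ Fin n → F} (hx : Cfsg.quadFormPlus n F x = 0) :
    oB x x = 0 := by rw [oB_self, hx, mul_zero]

theorem oB_single_right (x : Fin n ⊕ Fin n → F) (i : Fin n ⊕ Fin n) :
    oB x (Pi.single i 1) = x (Sum.swap i) := by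
  unfold oB
  rw [oSw_single, dotProduct_single_one]

theorem oB_single_left (x : Fin n ⊕ Fin n → F) (i : Fin n ⊕ Fin n) :
    oB (Pi.single i 1) x = x (Sum.swap i) := by
  rw [oB_comm, oB_single_right]

theorem oB_nondeg (x : Fin n ⊕ Fin n → F) (h : ∀ y, oB x y = 0) : x = 0 := by
  funext i
  have := h (Pi.single (Sum.swap i) 1)
  rwa [oB_single_right, Sum.swap_swap] at this

theorem oQ_single (i : Fin n ⊕ Fin n) : Cfsg.quadFormPlus n F (Pi.single i 1) = 0 := by
  unfold Cfsg.quadFormPlus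
  apply Finset.sum_eq_zero
  intro j _
  rcases i with i | i
  · have : (Pi.single (Sum.inl i) 1 : Fin n ⊕ Fin n → F) (Sum.inr j) = 0 := by
      simp [Pi.single_apply]
    rw [this, mul_zero]
  · have : (Pi.single (Sum.inr i) 1 : Fin n ⊕ Fin n → F) (Sum.inl j) = 0 := by
      simp [Pi.single_apply]
    rw [this, zero_mul]

theorem oPolar_eq (v p : Fin n ⊕ Fin n → F) :
    Cfsg.quadFormPlus n F (v + p) - Cfsg.quadFormPlus n F v - Cfsg.quadFormPlus n F p = oB v p := by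
  rw [oQ_add]; ring

theorem oQ_comb {p r : Fin n ⊕ Fin n → F} (hp : Cfsg.quadFormPlus n F p = 0)
    (hr : Cfsg.quadFormPlus n F r = 0) (hpr : oB p r = 0) (a b : F) :
    Cfsg.quadFormPlus n F (a • p + b • r) = 0 := by
  rw [oQ_add, oQ_smul, oQ_smul, hp, hr, oB_smul_left, oB_smul_right, hpr]
  ring

end oform

section oact
variable {F : Type*} [Field F] {n : ℕ}

/-- the action of an isometry on a vector. -/
def oAct (g : ↥(Cfsg.isometryGroup F (Cfsg.quadFormPlus n F))) (x : Fin n ⊕ Fin n → F) :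
    Fin n ⊕ Fin n → F :=
  ((g : Matrix.GeneralLinearGroup (Fin n ⊕ Fin n) F) :
    Matrix (Fin n ⊕ Fin n) (Fin n ⊕ Fin n) F) *ᵥ x

theorem oAct_one (x : Fin n ⊕ Fin n → F) :
    oAct (1 : ↥(Cfsg.isometryGroup F (Cfsg.quadFormPlus n F))) x = x := by
  unfold oAct
  simp

theorem oAct_mul (g g' : ↥(Cfsg.isometryGroup F (Cfsg.quadFormPlus n F)))
    (x : Fin n ⊕ Fin n → F) : oAct (g * g') x = oAct g (oAct g' x) := by
  unfold oAct
  rw [Subgroup.coe_mul, Units.val_mul, Matrix.mulVec_mulVec]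

theorem oAct_inv_oAct (g : ↥(Cfsg.isometryGroup F (Cfsg.quadFormPlus n F)))
    (x : Fin n ⊕ Fin n → F) : oAct g⁻¹ (oAct g x) = x := by
  rw [← oAct_mul, inv_mul_cancel, oAct_one]

theorem oAct_oAct_inv (g : ↥(Cfsg.isometryGroup F (Cfsg.quadFormPlus n F)))
    (x : Fin n ⊕ Fin n → F) : oAct g (oAct g⁻¹ x) = x := by
  rw [← oAct_mul, mul_inv_cancel, oAct_one]

theorem oAct_add (g : ↥(Cfsg.isometryGroup F (Cfsg.quadFormPlus n F)))
    (x y : Fin n ⊕ Fin n → F) : oAct g (x + y) = oAct g x + oAct g y := Matrix.mulVec_add _ _ _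

theorem oAct_smul (g : ↥(Cfsg.isometryGroup F (Cfsg.quadFormPlus n F))) (a : F)
    (x : Fin n ⊕ Fin n → F) : oAct g (a • x) = a • oAct g x := Matrix.mulVec_smul _ _ _

theorem oAct_sub (g : ↥(Cfsg.isometryGroup F (Cfsg.quadFormPlus n F)))
    (x y : Fin n ⊕ Fin n → F) : oAct g (x - y) = oAct g x - oAct g y := Matrix.mulVec_sub _ _ _

theorem oAct_zero (g : ↥(Cfsg.isometryGroup F (Cfsg.quadFormPlus n F))) :
    oAct g (0 : Fin n ⊕ Fin n → F) = 0 := Matrix.mulVec_zero _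

theorem oAct_Q (g : ↥(Cfsg.isometryGroup F (Cfsg.quadFormPlus n F))) (x : Fin n ⊕ Fin n → F) :
    Cfsg.quadFormPlus n F (oAct g x) = Cfsg.quadFormPlus n F x := g.2 x x

theorem oAct_B (g : ↥(Cfsg.isometryGroup F (Cfsg.quadFormPlus n F)))
    (x y : Fin n ⊕ Fin n → F) : oB (oAct g x) (oAct g y) = oB x y := by
  have h1 := oQ_add (oAct g x) (oAct g y)
  rw [← oAct_add, oAct_Q, oAct_Q, oAct_Q, oQ_add] at h1
  exact (add_left_cancel h1).symm

theorem oAct_ext {g g' : ↥(Cfsg.isometryGroup F (Cfsg.quadFormPlus n F))}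
    (h : ∀ x, oAct g x = oAct g' x) : g = g' := by
  apply Subtype.ext
  apply Units.ext
  ext i j
  have := congrFun (h (Pi.single j 1)) i
  unfold oAct at this
  rwa [Matrix.mulVec_single_one, Matrix.mulVec_single_one] at this

theorem oAct_ne_zero (g : ↥(Cfsg.isometryGroup F (Cfsg.quadFormPlus n F)))
    {x : Fin n ⊕ Fin n → F} (hx : x ≠ 0) : oAct g x ≠ 0 := by
  intro h
  apply hx
  have := congrArg (oAct g⁻¹) h
  rwa [oAct_inv_oAct, oAct_zero] at this

/-- build an isometry from a matrix, its inverse and the isometry property. -/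
def oMk (M M' : Matrix (Fin n ⊕ Fin n) (Fin n ⊕ Fin n) F) (h1 : M * M' = 1) (h2 : M' * M = 1)
    (hQ : ∀ x, Cfsg.quadFormPlus n F (M *ᵥ x) = Cfsg.quadFormPlus n F x) :
    ↥(Cfsg.isometryGroup F (Cfsg.quadFormPlus n F)) :=
  ⟨⟨M, M', h1, h2⟩, fun u _ => hQ u⟩

theorem oAct_oMk (M M' : Matrix (Fin n ⊕ Fin n) (Fin n ⊕ Fin n) F) (h1 : M * M' = 1)
    (h2 : M' * M = 1) (hQ : ∀ x, Cfsg.quadFormPlus n F (M *ᵥ x) = Cfsg.quadFormPlus n F x)
    (x : Fin n ⊕ Fin n → F) : oAct (oMk M M' h1 h2 hQ) x = M *ᵥ x := rfl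

theorem omat_ext {M N : Matrix (Fin n ⊕ Fin n) (Fin n ⊕ Fin n) F} (h : ∀ x, M *ᵥ x = N *ᵥ x) :
    M = N := by
  ext i j
  have := congrFun (h (Pi.single j 1)) i
  rwa [Matrix.mulVec_single_one, Matrix.mulVec_single_one] at this

end oact

section osiegel
variable {F : Type*} [Field F] {n : ℕ}

/-- the matrix of the Siegel transformation `x ↦ x + c (B(x,r) p - B(x,p) r)`. -/
def osgMat (p r : Fin n ⊕ Fin n → F) (c : F) : Matrix (Fin n ⊕ Fin n) (Fin n ⊕ Fin n) F :=
  1 + c • (vecMulVec p (oSw r) - vecMulVec r (oSw p))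

theorem osgMat_mulVec (p r : Fin n ⊕ Fin n → F) (c : F) (x : Fin n ⊕ Fin n → F) :
    osgMat p r c *ᵥ x = x + c • (oB x r • p - oB x p • r) := by
  have e : ∀ w : Fin n ⊕ Fin n → F, oSw w ⬝ᵥ x = oB x w := fun w => dotProduct_comm _ _
  rw [osgMat, add_mulVec, one_mulVec, smul_mulVec, sub_mulVec, vecMulVec_mulVec, vecMulVec_mulVec,
    op_smul_eq_smul, op_smul_eq_smul, e, e]

theorem osgMat_mul (p r : Fin n ⊕ Fin n → F) (hp : Cfsg.quadFormPlus n F p = 0)
    (hr : Cfsg.quadFormPlus n F r = 0) (hpr : oB p r = 0) (c d : F) :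
    osgMat p r c * osgMat p r d = osgMat p r (c + d) := by
  have hrp : oB r p = 0 := by rw [oB_comm, hpr]
  apply omat_ext
  intro x
  rw [← mulVec_mulVec, osgMat_mulVec, osgMat_mulVec, osgMat_mulVec]
  simp only [oB_add_left, oB_smul_left, oB_sub_left, hpr, hrp, oB_self_of_sing hp,
    oB_self_of_sing hr]
  module

theorem osgMat_zero (p r : Fin n ⊕ Fin n → F) : osgMat p r 0 = 1 := by
  unfold osgMat; simp

theorem osgMat_Q (p r : Fin n ⊕ Fin n → F) (hp : Cfsg.quadFormPlus n F p = 0)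
    (hr : Cfsg.quadFormPlus n F r = 0) (hpr : oB p r = 0) (c : F) (x : Fin n ⊕ Fin n → F) :
    Cfsg.quadFormPlus n F (osgMat p r c *ᵥ x) = Cfsg.quadFormPlus n F x := by
  have hrp : oB r p = 0 := by rw [oB_comm, hpr]
  rw [osgMat_mulVec, oQ_add, oQ_smul, sub_eq_add_neg, ← neg_smul, oQ_comb hp hr hpr,
    oB_smul_right, oB_add_right, oB_smul_right, oB_smul_right]
  ring

/-- the Siegel element attached to a singular pair (trivial if the pair is not singular). -/
noncomputable def osg (p r : Fin n ⊕ Fin n → F) (c : F) :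
    ↥(Cfsg.isometryGroup F (Cfsg.quadFormPlus n F)) :=
  open Classical in
  if h : Cfsg.quadFormPlus n F p = 0 ∧ Cfsg.quadFormPlus n F r = 0 ∧ oB p r = 0 then
    oMk (osgMat p r c) (osgMat p r (-c))
      (by rw [osgMat_mul p r h.1 h.2.1 h.2.2, add_neg_cancel, osgMat_zero])
      (by rw [osgMat_mul p r h.1 h.2.1 h.2.2, neg_add_cancel, osgMat_zero])
      (osgMat_Q p r h.1 h.2.1 h.2.2 c)
  else 1

theorem oAct_osg (p r : Fin n ⊕ Fin n → F) (hp : Cfsg.quadFormPlus n F p = 0)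
    (hr : Cfsg.quadFormPlus n F r = 0) (hpr : oB p r = 0) (c : F) (x : Fin n ⊕ Fin n → F) :
    oAct (osg p r c) x = x + c • (oB x r • p - oB x p • r) := by
  unfold osg
  rw [dif_pos ⟨hp, hr, hpr⟩, oAct_oMk, osgMat_mulVec]

theorem osg_mul (p r : Fin n ⊕ Fin n → F) (c d : F) : osg p r c * osg p r d = osg p r (c + d) := by
  by_cases h : Cfsg.quadFormPlus n F p = 0 ∧ Cfsg.quadFormPlus n F r = 0 ∧ oB p r = 0
  · apply oAct_ext
    intro x
    rw [oAct_mul, oAct_osg p r h.1 h.2.1 h.2.2, oAct_osg p r h.1 h.2.1 h.2.2,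
      oAct_osg p r h.1 h.2.1 h.2.2]
    have hrp : oB r p = 0 := by rw [oB_comm, h.2.2]
    simp only [oB_add_left, oB_smul_left, oB_sub_left, h.2.2, hrp, oB_self_of_sing h.1,
      oB_self_of_sing h.2.1]
    module
  · unfold osg
    rw [dif_neg h, dif_neg h, dif_neg h, one_mul]

theorem osg_zero (p r : Fin n ⊕ Fin n → F) : osg p r (0 : F) = 1 := by
  by_cases h : Cfsg.quadFormPlus n F p = 0 ∧ Cfsg.quadFormPlus n F r = 0 ∧ oB p r = 0
  · apply oAct_ext
    intro x
    rw [oAct_osg p r h.1 h.2.1 h.2.2, oAct_one, zero_smul, add_zero]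
  · unfold osg
    rw [dif_neg h]

theorem osg_inv (p r : Fin n ⊕ Fin n → F) (c : F) : (osg p r c)⁻¹ = osg p r (-c) := by
  rw [inv_eq_iff_mul_eq_one, osg_mul, add_neg_cancel, osg_zero]

theorem osg_conj (g : ↥(Cfsg.isometryGroup F (Cfsg.quadFormPlus n F)))
    (p r : Fin n ⊕ Fin n → F) (c : F) :
    g * osg p r c * g⁻¹ = osg (oAct g p) (oAct g r) c := by
  by_cases h : Cfsg.quadFormPlus n F p = 0 ∧ Cfsg.quadFormPlus n F r = 0 ∧ oB p r = 0
  · apply oAct_ext
    intro x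
    rw [oAct_mul, oAct_mul, oAct_osg p r h.1 h.2.1 h.2.2,
      oAct_osg _ _ (by rw [oAct_Q]; exact h.1) (by rw [oAct_Q]; exact h.2.1)
        (by rw [oAct_B]; exact h.2.2)]
    have e1 : ∀ w, oB (oAct g⁻¹ x) w = oB x (oAct g w) := by
      intro w
      rw [← oAct_B g, oAct_oAct_inv]
    rw [oAct_add, oAct_oAct_inv, oAct_smul, oAct_sub, oAct_smul, oAct_smul, e1, e1]
  · have h' : ¬ (Cfsg.quadFormPlus n F (oAct g p) = 0 ∧ Cfsg.quadFormPlus n F (oAct g r) = 0 ∧
        oB (oAct g p) (oAct g r) = 0) := by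
      rw [oAct_Q, oAct_Q, oAct_B]; exact h
    unfold osg
    rw [dif_neg h, dif_neg h', mul_one, mul_inv_cancel]

/-- change of basis of the singular line. -/
theorem osg_basis (p r : Fin n ⊕ Fin n → F) (hp : Cfsg.quadFormPlus n F p = 0)
    (hr : Cfsg.quadFormPlus n F r = 0) (hpr : oB p r = 0) (a b a' b' c : F) :
    osg (a • p + b • r) (a' • p + b' • r) c = osg p r (c * (a * b' - a' * b)) := by
  have hrp : oB r p = 0 := by rw [oB_comm, hpr]
  apply oAct_ext
  intro x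
  rw [oAct_osg _ _ (oQ_comb hp hr hpr a b) (oQ_comb hp hr hpr a' b')
    (by simp only [oB_add_left, oB_add_right, oB_smul_left, oB_smul_right, hpr, hrp,
      oB_self_of_sing hp, oB_self_of_sing hr]; ring), oAct_osg p r hp hr hpr]
  simp only [oB_add_right, oB_smul_right]
  module

/-- the Siegel root group of a pair. -/
noncomputable def OSG (p r : Fin n ⊕ Fin n → F) :
    Subgroup ↥(Cfsg.isometryGroup F (Cfsg.quadFormPlus n F)) where
  carrier := {g | ∃ c : F, g = osg p r c}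
  mul_mem' := by
    rintro _ _ ⟨c, rfl⟩ ⟨d, rfl⟩
    exact ⟨c + d, osg_mul p r c d⟩
  one_mem' := ⟨0, (osg_zero p r).symm⟩
  inv_mem' := by
    rintro _ ⟨c, rfl⟩
    exact ⟨-c, osg_inv p r c⟩

theorem mem_OSG (p r : Fin n ⊕ Fin n → F) (g : ↥(Cfsg.isometryGroup F (Cfsg.quadFormPlus n F))) :
    g ∈ OSG p r ↔ ∃ c : F, g = osg p r c := Iff.rfl

theorem OSG_basis (p r : Fin n ⊕ Fin n → F) (hp : Cfsg.quadFormPlus n F p = 0)
    (hr : Cfsg.quadFormPlus n F r = 0) (hpr : oB p r = 0) (a b a' b' : F)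
    (hdet : a * b' - a' * b ≠ 0) : OSG (a • p + b • r) (a' • p + b' • r) = OSG p r := by
  ext g
  constructor
  · rintro ⟨c, rfl⟩
    exact ⟨_, osg_basis p r hp hr hpr a b a' b' c⟩
  · rintro ⟨c, rfl⟩
    refine ⟨c / (a * b' - a' * b), ?_⟩
    rw [osg_basis p r hp hr hpr, div_mul_cancel₀ _ hdet]

theorem OSG_comm (p r : Fin n ⊕ Fin n → F) : IsMulCommutative ↥(OSG p r) := by
  refine ⟨⟨fun a b => Subtype.ext ?_⟩⟩
  obtain ⟨c, hc⟩ := a.2
  obtain ⟨d, hd⟩ := b.2
  change a.1 * b.1 = b.1 * a.1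
  rw [hc, hd, osg_mul, osg_mul, add_comm]

theorem OSG_conj (g : ↥(Cfsg.isometryGroup F (Cfsg.quadFormPlus n F)))
    (p r : Fin n ⊕ Fin n → F) :
    (OSG p r).map (MulAut.conj g).toMonoidHom = OSG (oAct g p) (oAct g r) := by
  ext x
  simp only [Subgroup.mem_map, MulEquiv.coe_toMonoidHom, MulAut.conj_apply]
  constructor
  · rintro ⟨y, ⟨c, rfl⟩, rfl⟩
    exact ⟨c, osg_conj g p r c⟩
  · rintro ⟨c, rfl⟩
    exact ⟨osg p r c, ⟨c, rfl⟩, osg_conj g p r c⟩

end osiegel

end Cfsg.Agent.Helper13
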