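import Mathlib
import Cfsg.Agent.Helper13.OSiegel

/-!
# Singular lines of the hyperbolic quadratic form and their Siegel groups (helper13)

`OLine p r`: `p, r` span a singular line.  The isometries fixing the perpendicular space of a
singular line pointwise are exactly the Siegel elements `osg p r c` (`oFix_form`).
-/

set_option autoImplicit false
set_option linter.unusedSimpArgs false
set_option linter.unusedSectionVars false
set_option linter.unusedVariables false

namespace Cfsg.Agent.Helper13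

open Matrix

section oline
variable {F : Type*} [Field F] {n : ℕ}

/-- `p, r` span a singular line. -/
def OLine (p r : Fin n ⊕ Fin n → F) : Prop :=
  LinearIndependent F ![p, r] ∧ Cfsg.quadFormPlus n F p = 0 ∧ Cfsg.quadFormPlus n F r = 0 ∧
    oB p r = 0

theorem oMinor_of_indep {p r : Fin n ⊕ Fin n → F} (h : LinearIndependent F ![p, r]) :
    ∃ i j, p i * r j - p j * r i ≠ 0 := by
  by_contra hcon
  push Not at hcon
  rw [LinearIndependent.pair_iff] at h
  have hp0 : p ≠ 0 := by
    rintro rfl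
    have := (h 1 0 (by simp)).1
    exact one_ne_zero this
  obtain ⟨i₀, hi₀⟩ := Function.ne_iff.1 hp0
  have h1 := (h (r i₀) (-p i₀) (by
    funext j
    have := hcon i₀ j
    simp only [Pi.add_apply, Pi.smul_apply, smul_eq_mul, Pi.zero_apply]
    linear_combination -this)).2
  exact hi₀ (neg_eq_zero.1 h1)

theorem oDual {p r : Fin n ⊕ Fin n → F} (h : LinearIndependent F ![p, r]) :
    ∃ x₁ x₂ : Fin n ⊕ Fin n → F, oB x₁ p = 1 ∧ oB x₁ r = 0 ∧ oB x₂ p = 0 ∧ oB x₂ r = 1 := by
  obtain ⟨i, j, hD⟩ := oMinor_of_indep h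
  have e : ∀ (k : Fin n ⊕ Fin n) (w : Fin n ⊕ Fin n → F),
      oB (Pi.single (Sum.swap k) 1) w = w k := by
    intro k w
    rw [oB_single_left, Sum.swap_swap]
  refine ⟨(p i * r j - p j * r i)⁻¹ • (r j • Pi.single (Sum.swap i) 1
      - r i • Pi.single (Sum.swap j) 1),
    (p i * r j - p j * r i)⁻¹ • (p i • Pi.single (Sum.swap j) 1
      - p j • Pi.single (Sum.swap i) 1), ?_, ?_, ?_, ?_⟩
  · simp only [oB_smul_left, oB_sub_left, e]
    field_simp
  · simp only [oB_smul_left, oB_sub_left, e]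
    field_simp
    ring
  · simp only [oB_smul_left, oB_sub_left, e]
    field_simp
    ring
  · simp only [oB_smul_left, oB_sub_left, e]
    field_simp

theorem OLine.ne_zero_left {p r : Fin n ⊕ Fin n → F} (h : OLine p r) : p ≠ 0 := by
  rintro rfl
  have := (LinearIndependent.pair_iff.1 h.1 1 0 (by simp)).1
  exact one_ne_zero this

theorem OLine.ne_zero_right {p r : Fin n ⊕ Fin n → F} (h : OLine p r) : r ≠ 0 := by
  rintro rfl
  have := (LinearIndependent.pair_iff.1 h.1 0 1 (by simp)).2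
  exact one_ne_zero this

theorem OLine.change {p r : Fin n ⊕ Fin n → F} (h : OLine p r) (a b a' b' : F)
    (hdet : a * b' - a' * b ≠ 0) : OLine (a • p + b • r) (a' • p + b' • r) := by
  obtain ⟨hli, hp, hr, hpr⟩ := h
  have hrp : oB r p = 0 := by rw [oB_comm, hpr]
  refine ⟨?_, oQ_comb hp hr hpr a b, oQ_comb hp hr hpr a' b', ?_⟩
  · rw [LinearIndependent.pair_iff] at hli ⊢
    intro s t hst
    have h1 := hli (s * a + t * a') (s * b + t * b') (by
      linear_combination (norm := module) hst)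
    constructor
    · have : s * (a * b' - a' * b) = 0 := by linear_combination b' * h1.1 - a' * h1.2
      exact (mul_eq_zero.1 this).resolve_right hdet
    · have : t * (a * b' - a' * b) = 0 := by linear_combination a * h1.2 - b * h1.1
      exact (mul_eq_zero.1 this).resolve_right hdet
  · simp only [oB_add_left, oB_add_right, oB_smul_left, oB_smul_right, hpr, hrp,
      oB_self_of_sing hp, oB_self_of_sing hr]
    ring

theorem OLine.swap {p r : Fin n ⊕ Fin n → F} (h : OLine p r) : OLine r p := by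
  have := h.change 0 1 1 0 (by norm_num)
  simpa using this

theorem OLine.act {p r : Fin n ⊕ Fin n → F} (h : OLine p r)
    (g : ↥(Cfsg.isometryGroup F (Cfsg.quadFormPlus n F))) : OLine (oAct g p) (oAct g r) := by
  obtain ⟨hli, hp, hr, hpr⟩ := h
  refine ⟨?_, by rw [oAct_Q]; exact hp, by rw [oAct_Q]; exact hr, by rw [oAct_B]; exact hpr⟩
  rw [LinearIndependent.pair_iff] at hli ⊢
  intro s t hst
  apply hli s t
  have := congrArg (oAct g⁻¹) hst
  rwa [oAct_add, oAct_smul, oAct_smul, oAct_inv_oAct, oAct_inv_oAct, oAct_zero] at this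

theorem osg_ne_one {p r : Fin n ⊕ Fin n → F} (h : OLine p r) {c : F} (hc : c ≠ 0) :
    osg p r c ≠ 1 := by
  intro h1
  obtain ⟨x₁, x₂, e1, e2, e3, e4⟩ := oDual h.1
  have := congrArg (fun g => oAct g x₁) h1
  simp only [oAct_osg p r h.2.1 h.2.2.1 h.2.2.2, oAct_one, e1, e2] at this
  have h2 : c • r = 0 := by
    have h3 : x₁ + c • ((0 : F) • p - (1 : F) • r) = x₁ + 0 := by rw [add_zero]; exact this
    have h4 := add_left_cancel h3
    rw [zero_smul, one_smul, zero_sub, smul_neg, neg_eq_zero] at h4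
    exact h4
  rcases smul_eq_zero.1 h2 with h3 | h3
  · exact hc h3
  · exact h.ne_zero_right h3

theorem OSG_ne_bot {p r : Fin n ⊕ Fin n → F} (h : OLine p r) : OSG p r ≠ ⊥ := by
  intro hb
  have h1 : osg p r (1 : F) ∈ OSG p r := ⟨1, rfl⟩
  rw [hb, Subgroup.mem_bot] at h1
  exact osg_ne_one h one_ne_zero h1

/-- an isometry fixing the perpendicular space of a singular line pointwise is a Siegel element. -/
theorem oFix_form {p r : Fin n ⊕ Fin n → F} (hL : OLine p r)
    (σ : ↥(Cfsg.isometryGroup F (Cfsg.quadFormPlus n F)))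
    (hσ : ∀ v, oB v p = 0 → oB v r = 0 → oAct σ v = v) : ∃ c : F, σ = osg p r c := by
  obtain ⟨hli, hp, hr, hpr⟩ := hL
  have hrp : oB r p = 0 := by rw [oB_comm, hpr]
  obtain ⟨x₁, x₂, e1, e2, e3, e4⟩ := oDual hli
  obtain ⟨w₁, hw₁⟩ : ∃ w₁, w₁ = oAct σ x₁ - x₁ := ⟨_, rfl⟩
  obtain ⟨w₂, hw₂⟩ : ∃ w₂, w₂ = oAct σ x₂ - x₂ := ⟨_, rfl⟩
  have key1 : ∀ x, oAct σ x = x + oB x p • w₁ + oB x r • w₂ := by
    intro x
    have h1 := hσ (x - oB x p • x₁ - oB x r • x₂)
      (by simp only [oB_sub_left, oB_smul_left, e1, e3]; ring)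
      (by simp only [oB_sub_left, oB_smul_left, e2, e4]; ring)
    rw [oAct_sub, oAct_sub, oAct_smul, oAct_smul] at h1
    rw [hw₁, hw₂]
    linear_combination (norm := module) h1
  have key2 : ∀ y, oB y p = 0 → oB y r = 0 → oB w₁ y = 0 ∧ oB w₂ y = 0 := by
    intro y hy1 hy2
    have h1 : ∀ x, oB x p * oB w₁ y + oB x r * oB w₂ y = 0 := by
      intro x
      have h2 := oAct_B σ x y
      rw [hσ y hy1 hy2, key1 x] at h2
      simp only [oB_add_left, oB_smul_left] at h2
      linear_combination h2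
    have h3 := h1 x₁
    have h4 := h1 x₂
    rw [e1, e2] at h3
    rw [e3, e4] at h4
    constructor
    · linear_combination h3
    · linear_combination h4
  have key3 : ∀ w, (∀ y, oB y p = 0 → oB y r = 0 → oB w y = 0) →
      w = oB w x₁ • p + oB w x₂ • r := by
    intro w hw
    have h0 : w - oB w x₁ • p - oB w x₂ • r = 0 := by
      apply oB_nondeg
      intro y
      have h1 := hw (y - oB y p • x₁ - oB y r • x₂)
        (by simp only [oB_sub_left, oB_smul_left, e1, e3]; ring)
        (by simp only [oB_sub_left, oB_smul_left, e2, e4]; ring)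
      simp only [oB_sub_right, oB_smul_right] at h1
      simp only [oB_sub_left, oB_smul_left]
      rw [oB_comm p y, oB_comm r y]
      linear_combination h1
    linear_combination (norm := module) h0
  have hw₁' := key3 w₁ (fun y h1 h2 => (key2 y h1 h2).1)
  have hw₂' := key3 w₂ (fun y h1 h2 => (key2 y h1 h2).2)
  obtain ⟨a₁, ha₁⟩ : ∃ a, a = oB w₁ x₁ := ⟨_, rfl⟩
  obtain ⟨b₁, hb₁⟩ : ∃ a, a = oB w₁ x₂ := ⟨_, rfl⟩
  obtain ⟨a₂, ha₂⟩ : ∃ a, a = oB w₂ x₁ := ⟨_, rfl⟩
  obtain ⟨b₂, hb₂⟩ : ∃ a, a = oB w₂ x₂ := ⟨_, rfl⟩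
  rw [← ha₁, ← hb₁] at hw₁'
  rw [← ha₂, ← hb₂] at hw₂'
  have key4 : ∀ x, (oB x p * a₁ + oB x r * a₂) * oB x p
      + (oB x p * b₁ + oB x r * b₂) * oB x r = 0 := by
    intro x
    have h1 := oAct_Q σ x
    have h2 : oAct σ x = x + ((oB x p * a₁ + oB x r * a₂) • p
        + (oB x p * b₁ + oB x r * b₂) • r) := by
      rw [key1 x, hw₁', hw₂']
      module
    rw [h2, oQ_add, oQ_comb hp hr hpr, oB_add_right, oB_smul_right, oB_smul_right] at h1
    linear_combination h1
  have h5 := key4 x₁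
  have h6 := key4 x₂
  have h7 := key4 (x₁ + x₂)
  simp only [oB_add_left, e1, e2, e3, e4] at h5 h6 h7
  have ha1 : a₁ = 0 := by linear_combination h5
  have hb2 : b₂ = 0 := by linear_combination h6
  have hb1 : b₁ = -a₂ := by linear_combination h7 - h5 - h6
  refine ⟨a₂, ?_⟩
  apply oAct_ext
  intro x
  rw [key1 x, oAct_osg p r hp hr hpr, hw₁', hw₂', ha1, hb2, hb1]
  module

end oline

end Cfsg.Agent.Helper13
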