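import Mathlib
import Cfsg.Prelude.Def_RootSubgroups
import Cfsg.Agent.Helper13.OSiegel2

/-!
# Pairs of Siegel root groups (helper13)

Commutator formula for two Siegel groups whose lines are not opposite, normal forms for pairs of
singular lines, the rank one condition for opposite lines, and the matrices of the `SL₂`-action
attached to a pair of opposite lines.
-/

set_option autoImplicit false
set_option linter.unusedSimpArgs false
set_option linter.unusedSectionVars false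
set_option linter.unusedVariables false

namespace Cfsg.Agent.Helper13

open Matrix

section opair
variable {F : Type*} [Field F] {n : ℕ}

theorem osg_dep (u u' : Fin n ⊕ Fin n → F) (h : ¬ LinearIndependent F ![u, u']) (e : F) :
    osg u u' e = 1 := by
  by_cases hs : Cfsg.quadFormPlus n F u = 0 ∧ Cfsg.quadFormPlus n F u' = 0 ∧ oB u u' = 0
  · rw [LinearIndependent.pair_iff] at h
    push Not at h
    obtain ⟨s, t, hst, hne⟩ := h
    apply oAct_ext
    intro x
    rw [oAct_osg u u' hs.1 hs.2.1 hs.2.2, oAct_one]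
    have h1 : oB x u' • u - oB x u • u' = 0 := by
      by_cases ht : t = 0
      · subst ht
        have hs0 : s ≠ 0 := fun h0 => hne h0 rfl
        rw [zero_smul, add_zero] at hst
        have hu0 : u = 0 := (smul_eq_zero.1 hst).resolve_left hs0
        rw [hu0, oB_zero_right, smul_zero, zero_smul, sub_zero]
      · have hu' : u' = (-s / t) • u := by
          have : t • u' = (-s) • u := by
            rw [neg_smul]
            exact eq_neg_of_add_eq_zero_right hst
          rw [div_eq_inv_mul, mul_smul, ← this, smul_smul, inv_mul_cancel₀ ht, one_smul]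
        rw [hu', oB_smul_right, smul_smul]
        rw [mul_comm, sub_self]
    rw [h1, smul_zero, add_zero]
  · unfold osg
    rw [dif_neg hs]

/-- the commutator of two Siegel elements whose lines are in special position. -/
theorem osg_commutator (u r u' r' : Fin n ⊕ Fin n → F) (hu : Cfsg.quadFormPlus n F u = 0)
    (hr : Cfsg.quadFormPlus n F r = 0) (hu' : Cfsg.quadFormPlus n F u' = 0)
    (hr' : Cfsg.quadFormPlus n F r' = 0) (h1 : oB u r = 0) (h2 : oB u' r' = 0)
    (h3 : oB u u' = 0) (h4 : oB u r' = 0) (h5 : oB r u' = 0) (c d : F) :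
    osg u r c * osg u' r' d * (osg u r c)⁻¹ * (osg u' r' d)⁻¹ = osg u u' (-(c * d * oB r r')) := by
  have h1' : oB r u = 0 := by rw [oB_comm, h1]
  have h2' : oB r' u' = 0 := by rw [oB_comm, h2]
  have h3' : oB u' u = 0 := by rw [oB_comm, h3]
  have h4' : oB r' u = 0 := by rw [oB_comm, h4]
  have h5' : oB u' r = 0 := by rw [oB_comm, h5]
  obtain ⟨κ, hκ⟩ : ∃ κ : F, κ = oB r r' := ⟨_, rfl⟩
  have hκ' : oB r' r = κ := by rw [oB_comm, hκ]
  rw [osg_inv, osg_inv, ← hκ]
  apply oAct_ext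
  intro x
  simp only [oAct_mul, oAct_osg u r hu hr h1, oAct_osg u' r' hu' hr' h2, oAct_osg u u' hu hu' h3]
  simp only [oB_add_left, oB_smul_left, oB_sub_left, h1, h2, h3, h4, h5, h1', h2', h3', h4', h5',
    ← hκ, hκ', oB_self_of_sing hu, oB_self_of_sing hr, oB_self_of_sing hu', oB_self_of_sing hr']
  module

theorem osg_commute (u r u' r' : Fin n ⊕ Fin n → F) (hu : Cfsg.quadFormPlus n F u = 0)
    (hr : Cfsg.quadFormPlus n F r = 0) (hu' : Cfsg.quadFormPlus n F u' = 0)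
    (hr' : Cfsg.quadFormPlus n F r' = 0) (h1 : oB u r = 0) (h2 : oB u' r' = 0)
    (h3 : oB u u' = 0) (h4 : oB u r' = 0) (h5 : oB r u' = 0) (h6 : oB r r' = 0) (c d : F) :
    osg u r c * osg u' r' d = osg u' r' d * osg u r c := by
  have := osg_commutator u r u' r' hu hr hu' hr' h1 h2 h3 h4 h5 c d
  rw [h6, mul_zero, neg_zero, osg_zero] at this
  have h7 : osg u r c * osg u' r' d * (osg u r c)⁻¹ = osg u' r' d := by
    rw [← mul_inv_eq_one]; exact this
  calc osg u r c * osg u' r' d = osg u r c * osg u' r' d * (osg u r c)⁻¹ * osg u r c := by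
        rw [inv_mul_cancel_right]
    _ = osg u' r' d * osg u r c := by rw [h7]

theorem oKer2 (g11 g12 g21 g22 : F) (hD : g11 * g22 - g12 * g21 = 0) :
    ∃ a b : F, (a ≠ 0 ∨ b ≠ 0) ∧ a * g11 + b * g21 = 0 ∧ a * g12 + b * g22 = 0 := by
  by_cases h21 : g21 = 0
  · by_cases h22 : g22 = 0
    · exact ⟨0, 1, Or.inr one_ne_zero, by rw [h21]; ring, by rw [h22]; ring⟩
    · refine ⟨g22, -g12, Or.inl h22, ?_, by ring⟩
      linear_combination hD
  · refine ⟨g21, -g11, Or.inl h21, by ring, ?_⟩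
    linear_combination -hD

theorem oLine_rebase {p r : Fin n ⊕ Fin n → F} (hL : OLine p r) (a b : F)
    (hab : a ≠ 0 ∨ b ≠ 0) :
    ∃ a' b' : F, OLine (a • p + b • r) (a' • p + b' • r) ∧
      OSG (a • p + b • r) (a' • p + b' • r) = OSG p r := by
  by_cases hb : b = 0
  · have ha : a ≠ 0 := hab.resolve_right (fun h => h hb)
    have hdet : a * 1 - 0 * b ≠ 0 := by rw [mul_one, zero_mul, sub_zero]; exact ha
    exact ⟨0, 1, hL.change a b 0 1 hdet, OSG_basis p r hL.2.1 hL.2.2.1 hL.2.2.2 a b 0 1 hdet⟩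
  · have hdet : a * 0 - 1 * b ≠ 0 := by rw [mul_zero, one_mul, zero_sub]; exact neg_ne_zero.2 hb
    exact ⟨1, 0, hL.change a b 1 0 hdet, OSG_basis p r hL.2.1 hL.2.2.1 hL.2.2.2 a b 1 0 hdet⟩

/-- normal form of a pair of singular lines which are not opposite. -/
theorem oLine_normal_zero {p r p' r' : Fin n ⊕ Fin n → F} (hL : OLine p r) (hL' : OLine p' r')
    (hD : oB p p' * oB r r' - oB p r' * oB r p' = 0) :
    ∃ u s u' s' : Fin n ⊕ Fin n → F, OLine u s ∧ OLine u' s' ∧ OSG u s = OSG p r ∧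
      OSG u' s' = OSG p' r' ∧ oB u u' = 0 ∧ oB u s' = 0 ∧ oB s u' = 0 := by
  obtain ⟨a, b, hab, e1, e2⟩ := oKer2 (oB p p') (oB p r') (oB r p') (oB r r') hD
  obtain ⟨a', b', hL1, hG1⟩ := oLine_rebase hL a b hab
  have hu1 : oB (a • p + b • r) p' = 0 := by
    rw [oB_add_left, oB_smul_left, oB_smul_left]; exact e1
  have hu2 : oB (a • p + b • r) r' = 0 := by
    rw [oB_add_left, oB_smul_left, oB_smul_left]; exact e2
  obtain ⟨c, d, hcd, e3⟩ : ∃ c d : F, (c ≠ 0 ∨ d ≠ 0) ∧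
      c * oB (a' • p + b' • r) p' + d * oB (a' • p + b' • r) r' = 0 := by
    by_cases h0 : oB (a' • p + b' • r) p' = 0 ∧ oB (a' • p + b' • r) r' = 0
    · exact ⟨1, 0, Or.inl one_ne_zero, by rw [h0.1]; ring⟩
    · by_cases h1 : oB (a' • p + b' • r) r' = 0
      · have h2 : oB (a' • p + b' • r) p' ≠ 0 := fun h => h0 ⟨h, h1⟩
        exact ⟨0, 1, Or.inr one_ne_zero, by rw [h1]; ring⟩
      · exact ⟨oB (a' • p + b' • r) r', -oB (a' • p + b' • r) p', Or.inl h1, by ring⟩
  obtain ⟨c', d', hL2, hG2⟩ := oLine_rebase hL' c d hcd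
  refine ⟨a • p + b • r, a' • p + b' • r, c • p' + d • r', c' • p' + d' • r', hL1, hL2, hG1, hG2,
    ?_, ?_, ?_⟩
  · rw [oB_add_right, oB_smul_right, oB_smul_right, hu1, hu2]; ring
  · rw [oB_add_right, oB_smul_right, oB_smul_right, hu1, hu2]; ring
  · rw [oB_add_right, oB_smul_right, oB_smul_right]; exact e3

/-- normal form of a pair of opposite singular lines. -/
theorem oLine_normal_opp {p r p' r' : Fin n ⊕ Fin n → F} (hL : OLine p r) (hL' : OLine p' r')
    (hD : oB p p' * oB r r' - oB p r' * oB r p' ≠ 0) :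
    ∃ p'' r'' : Fin n ⊕ Fin n → F, OLine p'' r'' ∧ OSG p'' r'' = OSG p' r' ∧
      oB p p'' = 1 ∧ oB p r'' = 0 ∧ oB r p'' = 0 ∧ oB r r'' = 1 := by
  obtain ⟨D, hDdef⟩ : ∃ D : F, D = oB p p' * oB r r' - oB p r' * oB r p' := ⟨_, rfl⟩
  rw [← hDdef] at hD
  have hdet : (oB r r' / D) * (oB p p' / D) - (-oB p r' / D) * (-oB r p' / D) ≠ 0 := by
    have : (oB r r' / D) * (oB p p' / D) - (-oB p r' / D) * (-oB r p' / D) = D⁻¹ := by
      field_simp
      rw [hDdef]; ring
    rw [this]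
    exact inv_ne_zero hD
  refine ⟨(oB r r' / D) • p' + (-oB r p' / D) • r', (-oB p r' / D) • p' + (oB p p' / D) • r',
    hL'.change _ _ _ _ hdet, OSG_basis p' r' hL'.2.1 hL'.2.2.1 hL'.2.2.2 _ _ _ _ hdet, ?_, ?_, ?_, ?_⟩
  · rw [oB_add_right, oB_smul_right, oB_smul_right]
    field_simp
    rw [hDdef]; ring
  · rw [oB_add_right, oB_smul_right, oB_smul_right]
    field_simp
    ring
  · rw [oB_add_right, oB_smul_right, oB_smul_right]
    field_simp
    ring
  · rw [oB_add_right, oB_smul_right, oB_smul_right]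
    field_simp
    rw [hDdef]; ring

theorem OSG_nilpotent (p r : Fin n ⊕ Fin n → F) : Group.IsNilpotent ↥(OSG p r) :=
  ⟨⟨1, Subgroup.upperCentralSeries_one_eq_top_iff.mpr (OSG_comm p r)⟩⟩

theorem OSG_rankOneCond {p r p' r' : Fin n ⊕ Fin n → F} (hL : OLine p r) (hL' : OLine p' r')
    (h1 : oB p p' = 1) (h2 : oB p r' = 0) (h3 : oB r p' = 0) (h4 : oB r r' = 1) :
    Cfsg.RankOneCondition (OSG p r) (OSG p' r') := by
  rintro _ ⟨c, rfl⟩ ha
  have hc : c ≠ 0 := by rintro rfl; exact ha (osg_zero p r)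
  have h1' : oB p' p = 1 := by rw [oB_comm, h1]
  have h2' : oB r' p = 0 := by rw [oB_comm, h2]
  have h3' : oB p' r = 0 := by rw [oB_comm, h3]
  have h4' : oB r' r = 1 := by rw [oB_comm, h4]
  refine ⟨osg p' r' (-c⁻¹), ⟨_, rfl⟩, osg_ne_one hL' (neg_ne_zero.2 (inv_ne_zero hc)), ?_⟩
  change (OSG p r).map (MulAut.conj (osg p' r' (-c⁻¹))⁻¹).toMonoidHom
    = (OSG p' r').map (MulAut.conj (osg p r c)⁻¹).toMonoidHom
  rw [OSG_conj, OSG_conj, osg_inv, osg_inv, neg_neg]
  have hLa := hL'.act (osg p r (-c))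
  have e1 : oAct (osg p' r' c⁻¹) p = (0 : F) • oAct (osg p r (-c)) p'
      + (-c⁻¹) • oAct (osg p r (-c)) r' := by
    rw [oAct_osg p' r' hL'.2.1 hL'.2.2.1 hL'.2.2.2, oAct_osg p r hL.2.1 hL.2.2.1 hL.2.2.2,
      oAct_osg p r hL.2.1 hL.2.2.1 hL.2.2.2, h1, h2, h1', h2', h3', h4']
    match_scalars <;> field_simp <;> ring
  have e2 : oAct (osg p' r' c⁻¹) r = c⁻¹ • oAct (osg p r (-c)) p'
      + (0 : F) • oAct (osg p r (-c)) r' := by
    rw [oAct_osg p' r' hL'.2.1 hL'.2.2.1 hL'.2.2.2, oAct_osg p r hL.2.1 hL.2.2.1 hL.2.2.2,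
      oAct_osg p r hL.2.1 hL.2.2.1 hL.2.2.2, h3, h4, h1', h2', h3', h4']
    match_scalars <;> field_simp <;> ring
  rw [e1, e2, OSG_basis _ _ hLa.2.1 hLa.2.2.1 hLa.2.2.2]
  intro h
  have : c⁻¹ * c⁻¹ = 0 := by linear_combination h
  exact inv_ne_zero hc (mul_self_eq_zero.1 this)

theorem OSG_ne_of_opp {p r p' r' : Fin n ⊕ Fin n → F} (hL : OLine p r) (hL' : OLine p' r')
    (h1 : oB p p' = 1) (h2 : oB p r' = 0) : OSG p r ≠ OSG p' r' := by
  intro h
  have hm : osg p r (1 : F) ∈ OSG p' r' := h ▸ ⟨1, rfl⟩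
  obtain ⟨d, hd⟩ := hm
  have e := congrArg (fun g => oAct g p) hd
  simp only [oAct_osg p r hL.2.1 hL.2.2.1 hL.2.2.2, oAct_osg p' r' hL'.2.1 hL'.2.2.1 hL'.2.2.2,
    hL.2.2.2, oB_self_of_sing hL.2.1, h1, h2] at e
  have h5 : d • r' = 0 := by
    have h6 : p + (1 : F) • ((0 : F) • p - (0 : F) • r) = p + d • ((0 : F) • p' - (1 : F) • r') := e
    have h7 : p + 0 = p + (-(d • r')) := by
      rw [add_zero]
      calc p = p + (1 : F) • ((0 : F) • p - (0 : F) • r) := by module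
        _ = p + d • ((0 : F) • p' - (1 : F) • r') := h6
        _ = p + (-(d • r')) := by module
    have h8 := add_left_cancel h7
    exact neg_eq_zero.1 h8.symm
  have hd0 : d = 0 := (smul_eq_zero.1 h5).resolve_right hL'.ne_zero_right
  rw [hd0, osg_zero] at hd
  exact osg_ne_one hL one_ne_zero hd

/-- two opposite lines (in normal form) give a rank one pair. -/
theorem OSG_rankOnePair {p r p' r' : Fin n ⊕ Fin n → F} (hL : OLine p r) (hL' : OLine p' r')
    (h1 : oB p p' = 1) (h2 : oB p r' = 0) (h3 : oB r p' = 0) (h4 : oB r r' = 1) :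
    Cfsg.IsRankOnePair (OSG p r) (OSG p' r') :=
  ⟨OSG_ne_of_opp hL hL' h1 h2, OSG_nilpotent p r, OSG_nilpotent p' r',
    OSG_rankOneCond hL hL' h1 h2 h3 h4,
    OSG_rankOneCond hL' hL (by rw [oB_comm, h1]) (by rw [oB_comm, h3]) (by rw [oB_comm, h2])
      (by rw [oB_comm, h4])⟩

/-- two opposite lines give a rank one pair. -/
theorem OSG_rankOnePair_of_opp {p r p' r' : Fin n ⊕ Fin n → F} (hL : OLine p r)
    (hL' : OLine p' r') (hD : oB p p' * oB r r' - oB p r' * oB r p' ≠ 0) :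
    Cfsg.IsRankOnePair (OSG p r) (OSG p' r') := by
  obtain ⟨p'', r'', hL'', hG, h1, h2, h3, h4⟩ := oLine_normal_opp hL hL' hD
  rw [← hG]
  exact OSG_rankOnePair hL hL'' h1 h2 h3 h4

end opair

end Cfsg.Agent.Helper13
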