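import Mathlib
import Cfsg.Prelude.Def_RootSubgroups
import Cfsg.Agent.Helper13.OSiegel3

/-!
# Root subgroup calculus for Siegel groups: auxiliary results (helper13)

* generic lemmas on rank one pairs (`oMem_conjBy_iff`, `oRankOneCond_subgroupOf`,
  `oNot_rankOne_of_comm`, `oNot_rankOne_of_commCase`);
* the matrices `oPhiMat` of the `SL₂`-action attached to two opposite singular lines;
* connectedness of the graph of opposite singular lines (`oSigma_connected`).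
-/

set_option autoImplicit false
set_option linter.unusedSimpArgs false
set_option linter.unusedSectionVars false
set_option linter.unusedVariables false

namespace Cfsg.Agent.Helper13

open Matrix
open scoped commutatorElement

section generic
variable {G : Type*} [Group G]

theorem oMem_conjBy_iff (A : Subgroup G) (g x : G) :
    x ∈ Cfsg.conjBy A g ↔ g⁻¹ * x * g ∈ A := by
  change x ∈ A.map (MulAut.conj g).toMonoidHom ↔ _
  rw [Subgroup.mem_map_equiv, MulAut.conj_symm_apply]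

theorem oRankOneCond_subgroupOf (H : Subgroup G) {A B : Subgroup G} (hB : B ≤ H)
    (h : Cfsg.RankOneCondition A B) :
    Cfsg.RankOneCondition (A.subgroupOf H) (B.subgroupOf H) := by
  intro a ha ha1
  obtain ⟨b, hb, hb1, hconj⟩ := h a.1 (Subgroup.mem_subgroupOf.1 ha)
    (fun h0 => ha1 (Subtype.ext h0))
  refine ⟨⟨b, hB hb⟩, Subgroup.mem_subgroupOf.2 hb, fun h0 => hb1 (congrArg Subtype.val h0), ?_⟩
  ext x
  rw [oMem_conjBy_iff, oMem_conjBy_iff, Subgroup.mem_subgroupOf, Subgroup.mem_subgroupOf]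
  have := SetLike.ext_iff.1 hconj x.1
  rw [oMem_conjBy_iff, oMem_conjBy_iff] at this
  exact this

theorem oRankOnePair_subgroupOf (H : Subgroup G) {A B : Subgroup G} (hA : A ≤ H) (hB : B ≤ H)
    (hnA : Group.IsNilpotent ↥(A.subgroupOf H)) (hnB : Group.IsNilpotent ↥(B.subgroupOf H))
    (h : Cfsg.IsRankOnePair A B) : Cfsg.IsRankOnePair (A.subgroupOf H) (B.subgroupOf H) := by
  refine ⟨?_, hnA, hnB, oRankOneCond_subgroupOf H hB h.cond_left,
    oRankOneCond_subgroupOf H hA h.cond_right⟩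
  intro e
  apply h.ne
  ext x
  constructor
  · intro hx
    have : (⟨x, hA hx⟩ : ↥H) ∈ A.subgroupOf H := Subgroup.mem_subgroupOf.2 hx
    rw [e] at this
    exact Subgroup.mem_subgroupOf.1 this
  · intro hx
    have : (⟨x, hB hx⟩ : ↥H) ∈ B.subgroupOf H := Subgroup.mem_subgroupOf.2 hx
    rw [← e] at this
    exact Subgroup.mem_subgroupOf.1 this

theorem oNot_rankOne_of_comm {A B : Subgroup G} (hA : A ≠ ⊥) (h : ⁅A, B⁆ = ⊥) :
    ¬ Cfsg.IsRankOnePair A B := by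
  intro hp
  obtain ⟨a, ha1⟩ := (Subgroup.ne_bot_iff_exists_ne_one).1 hA
  obtain ⟨b, hb, hb1, hconj⟩ := hp.cond_left a.1 a.2 (fun h0 => ha1 (Subtype.ext h0))
  rw [Subgroup.commutator_eq_bot_iff_le_centralizer] at h
  apply hp.ne
  ext x
  have e1 : x ∈ Cfsg.conjBy A b⁻¹ ↔ x ∈ A := by
    rw [oMem_conjBy_iff, inv_inv]
    constructor
    · intro hx
      have h1 := Subgroup.mem_centralizer_iff.1 (h hx) b hb
      have h2 : x = b * x * b⁻¹ := by
        have : b * x = b * (b * x * b⁻¹) := by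
          rw [h1]; group
        exact mul_left_cancel this
      rw [h2]; exact hx
    · intro hx
      have h1 := Subgroup.mem_centralizer_iff.1 (h hx) b hb
      rw [h1, mul_inv_cancel_right]; exact hx
  have e2 : x ∈ Cfsg.conjBy B a.1⁻¹ ↔ x ∈ B := by
    rw [oMem_conjBy_iff, inv_inv]
    constructor
    · intro hx
      have h1 := Subgroup.mem_centralizer_iff.1 (h a.2) _ hx
      have h2 : x = a.1 * x * a.1⁻¹ := by
        have : a.1 * x = a.1 * x * a.1⁻¹ * a.1 := by group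
        rw [h1] at this
        exact mul_left_cancel this
      rw [h2]; exact hx
    · intro hx
      have h1 := Subgroup.mem_centralizer_iff.1 (h a.2) x hx
      rw [← h1, mul_inv_cancel_right]; exact hx
  rw [← e1, hconj, e2]

theorem oNot_rankOne_of_commCase {S : Set (Subgroup G)} {A B : Subgroup G} (hA : A ≠ ⊥)
    (hAc : IsMulCommutative ↥A) (hS : ∀ C ∈ S, C ≠ ⊥) (h : Cfsg.RootCommutatorCase S A B) :
    ¬ Cfsg.IsRankOnePair A B := by
  intro hp
  obtain ⟨hmem, hcent, -, -⟩ := h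
  apply hS _ hmem
  obtain ⟨a, ha1⟩ := (Subgroup.ne_bot_iff_exists_ne_one).1 hA
  obtain ⟨b, hb, hb1, hconj⟩ := hp.cond_left a.1 a.2 (fun h0 => ha1 (Subtype.ext h0))
  rw [Subgroup.commutator_eq_bot_iff_le_centralizer]
  intro a₂ ha₂
  rw [Subgroup.mem_centralizer_iff]
  intro b₂ hb₂
  have h1 : a.1⁻¹ * b₂ * a.1 ∈ Cfsg.conjBy B a.1⁻¹ := by
    rw [oMem_conjBy_iff, inv_inv]
    have : a.1 * (a.1⁻¹ * b₂ * a.1) * a.1⁻¹ = b₂ := by group
    rw [this]; exact hb₂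
  rw [← hconj, oMem_conjBy_iff, inv_inv] at h1
  obtain ⟨a₃, ha₃⟩ : ∃ a₃, a₃ = b * (a.1⁻¹ * b₂ * a.1) * b⁻¹ := ⟨_, rfl⟩
  rw [← ha₃] at h1
  have hz : ⁅a₃⁻¹, b⁻¹⁆ ∈ ⁅A, B⁆ := Subgroup.commutator_mem_commutator (inv_mem h1) (inv_mem hb)
  have hcomm : a.1 * a₃ = a₃ * a.1 := congrArg Subtype.val (hAc.is_comm.comm a ⟨a₃, h1⟩)
  have hcomm2 : a₂ * a₃ = a₃ * a₂ :=
    congrArg Subtype.val (hAc.is_comm.comm ⟨a₂, ha₂⟩ ⟨a₃, h1⟩)
  have hz1 := hcent _ hz a.1⁻¹ (Subgroup.mem_sup_left (inv_mem a.2))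
  have hz2 := hcent _ hz a₂ (Subgroup.mem_sup_left ha₂)
  have hb₂' : b₂ = a₃ * ⁅a₃⁻¹, b⁻¹⁆ := by
    have e1 : b₂ = a.1 * (b⁻¹ * a₃ * b) * a.1⁻¹ := by rw [ha₃]; group
    have e2 : b⁻¹ * a₃ * b = a₃ * ⁅a₃⁻¹, b⁻¹⁆ := by rw [commutatorElement_def]; group
    rw [e1, e2, mul_assoc, mul_assoc, hz1, ← mul_assoc, ← mul_assoc, hcomm, mul_assoc a₃,
      mul_inv_cancel, mul_one]
  rw [hb₂', mul_assoc, hz2, ← mul_assoc, ← mul_assoc, hcomm2]

end generic

section ophi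
variable {F : Type*} [Field F] {n : ℕ}

/-- two opposite singular lines in normal form. -/
structure OOpp (p r p' r' : Fin n ⊕ Fin n → F) : Prop where
  L : OLine p r
  L' : OLine p' r'
  h1 : oB p p' = 1
  h2 : oB p r' = 0
  h3 : oB r p' = 0
  h4 : oB r r' = 1

/-- the matrix of the action of a `2 × 2` matrix attached to two opposite lines. -/
def oPhiMat (p r p' r' : Fin n ⊕ Fin n → F) (M : Matrix (Fin 2) (Fin 2) F) :
    Matrix (Fin n ⊕ Fin n) (Fin n ⊕ Fin n) F :=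
  1 + vecMulVec ((M 0 0 - 1) • p + M 1 0 • r') (oSw p')
    + vecMulVec (M 0 1 • p + (M 1 1 - 1) • r') (oSw r)
    + vecMulVec ((M 0 0 - 1) • r - M 1 0 • p') (oSw r')
    + vecMulVec ((M 1 1 - 1) • p' - M 0 1 • r) (oSw p)

theorem oPhiMat_mulVec (p r p' r' : Fin n ⊕ Fin n → F) (M : Matrix (Fin 2) (Fin 2) F)
    (x : Fin n ⊕ Fin n → F) :
    oPhiMat p r p' r' M *ᵥ x = x
      + oB x p' • ((M 0 0 - 1) • p + M 1 0 • r')
      + oB x r • (M 0 1 • p + (M 1 1 - 1) • r')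
      + oB x r' • ((M 0 0 - 1) • r - M 1 0 • p')
      + oB x p • ((M 1 1 - 1) • p' - M 0 1 • r) := by
  have e : ∀ w : Fin n ⊕ Fin n → F, oSw w ⬝ᵥ x = oB x w := fun w => dotProduct_comm _ _
  rw [oPhiMat]
  simp only [add_mulVec, one_mulVec, vecMulVec_mulVec, op_smul_eq_smul, e]

theorem oPhi_mul {p r p' r' : Fin n ⊕ Fin n → F} (h : OOpp p r p' r')
    (M M' : Matrix (Fin 2) (Fin 2) F) :
    oPhiMat p r p' r' (M * M') = oPhiMat p r p' r' M * oPhiMat p r p' r' M' := by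
  have e1 : oB p' p = 1 := by rw [oB_comm, h.h1]
  have e2 : oB r' p = 0 := by rw [oB_comm, h.h2]
  have e3 : oB p' r = 0 := by rw [oB_comm, h.h3]
  have e4 : oB r' r = 1 := by rw [oB_comm, h.h4]
  have e5 : oB r p = 0 := by rw [oB_comm, h.L.2.2.2]
  have e6 : oB r' p' = 0 := by rw [oB_comm, h.L'.2.2.2]
  apply omat_ext
  intro x
  rw [← mulVec_mulVec, oPhiMat_mulVec, oPhiMat_mulVec p r p' r' M', oPhiMat_mulVec]
  simp only [oB_add_left, oB_smul_left, oB_sub_left, h.h1, h.h2, h.h3, h.h4, e1, e2, e3, e4, e5,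
    e6, h.L.2.2.2, h.L'.2.2.2, oB_self_of_sing h.L.2.1, oB_self_of_sing h.L.2.2.1,
    oB_self_of_sing h.L'.2.1, oB_self_of_sing h.L'.2.2.1, Matrix.mul_apply, Fin.sum_univ_two]
  module

theorem oPhi_one (p r p' r' : Fin n ⊕ Fin n → F) : oPhiMat p r p' r' 1 = 1 := by
  apply omat_ext
  intro x
  rw [oPhiMat_mulVec, one_mulVec]
  simp

theorem oPhi_U {p r p' r' : Fin n ⊕ Fin n → F} (h : OOpp p r p' r') (t : F)
    (x : Fin n ⊕ Fin n → F) :
    oPhiMat p r p' r' !![1, t; 0, 1] *ᵥ x = oAct (osg p r t) x := by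
  rw [oPhiMat_mulVec, oAct_osg p r h.L.2.1 h.L.2.2.1 h.L.2.2.2]
  simp
  module

theorem oPhi_L {p r p' r' : Fin n ⊕ Fin n → F} (h : OOpp p r p' r') (t : F)
    (x : Fin n ⊕ Fin n → F) :
    oPhiMat p r p' r' !![1, 0; t, 1] *ᵥ x = oAct (osg p' r' (-t)) x := by
  rw [oPhiMat_mulVec, oAct_osg p' r' h.L'.2.1 h.L'.2.2.1 h.L'.2.2.2]
  simp
  module

theorem oPhi_inj {p r p' r' : Fin n ⊕ Fin n → F} (h : OOpp p r p' r')
    (M : Matrix (Fin 2) (Fin 2) F) (hM : ∀ x, oPhiMat p r p' r' M *ᵥ x = x) :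
    M 0 0 = 1 ∧ M 0 1 = 0 ∧ M 1 0 = 0 ∧ M 1 1 = 1 := by
  have e1 : oB p' p = 1 := by rw [oB_comm, h.h1]
  have e2 : oB r' p = 0 := by rw [oB_comm, h.h2]
  have e3 : oB p' r = 0 := by rw [oB_comm, h.h3]
  have e4 : oB r' r = 1 := by rw [oB_comm, h.h4]
  have e5 : oB r p = 0 := by rw [oB_comm, h.L.2.2.2]
  have e6 : oB r' p' = 0 := by rw [oB_comm, h.L'.2.2.2]
  have hp := hM p
  have hr := hM r'
  rw [oPhiMat_mulVec] at hp hr
  have a1 := congrArg (fun v => oB v p') hp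
  have a2 := congrArg (fun v => oB v r) hp
  have a3 := congrArg (fun v => oB v p') hr
  have a4 := congrArg (fun v => oB v r) hr
  simp only [oB_add_left, oB_smul_left, oB_sub_left, h.h1, h.h2, h.h3, h.h4, e1, e2, e3, e4, e5,
    e6, h.L.2.2.2, h.L'.2.2.2, oB_self_of_sing h.L.2.1, oB_self_of_sing h.L.2.2.1,
    oB_self_of_sing h.L'.2.1, oB_self_of_sing h.L'.2.2.1] at a1 a2 a3 a4
  refine ⟨?_, ?_, ?_, ?_⟩
  · linear_combination a1
  · linear_combination a3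
  · linear_combination a2
  · linear_combination a4

end ophi

end Cfsg.Agent.Helper13
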