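import Mathlib
import Cfsg.Prelude.Def_RootSubgroups
import Cfsg.Agent.Helper13.OSiegel4

/-!
# Connectedness of the graph of opposite singular lines (helper13)

`OSigma n F` is the set of Siegel root groups of `O⁺_{2n}(F)`; for `n ≥ 3` its graph of rank one
pairs is connected (`oSigma_connected`).
-/

set_option autoImplicit false
set_option linter.unusedSimpArgs false
set_option linter.unusedSectionVars false
set_option linter.unusedVariables false

namespace Cfsg.Agent.Helper13

open Matrix

section oconn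
variable {F : Type*} [Field F] {n : ℕ}

/-- the set of Siegel root groups. -/
def OSigma (n : ℕ) (F : Type*) [Field F] :
    Set (Subgroup ↥(Cfsg.isometryGroup F (Cfsg.quadFormPlus n F))) :=
  {A | ∃ p r : Fin n ⊕ Fin n → F, OLine p r ∧ A = OSG p r}

theorem oAdj_of_opp {p r p' r' : Fin n ⊕ Fin n → F} (hL : OLine p r) (hL' : OLine p' r')
    (hD : oB p p' * oB r r' - oB p r' * oB r p' ≠ 0) :
    Cfsg.FAdj (OSigma n F) (OSG p r) (OSG p' r') :=
  ⟨⟨p, r, hL, rfl⟩, ⟨p', r', hL', rfl⟩, OSG_rankOnePair_of_opp hL hL' hD⟩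

theorem oAdj_symm {A B : Subgroup ↥(Cfsg.isometryGroup F (Cfsg.quadFormPlus n F))}
    (h : Cfsg.FAdj (OSigma n F) A B) : Cfsg.FAdj (OSigma n F) B A :=
  ⟨h.2.1, h.1, Cfsg.RankOnePair_symm h.2.2⟩

theorem oB_EE (a b : Fin n ⊕ Fin n) :
    oB (Pi.single a (1 : F)) (Pi.single b 1) = if a = Sum.swap b then 1 else 0 := by
  rw [oB_single_right, Pi.single_apply]
  by_cases h : a = Sum.swap b
  · rw [if_pos h, if_pos h.symm]
  · rw [if_neg h, if_neg (fun h' => h h'.symm)]

theorem oSwap_ne (a : Fin n ⊕ Fin n) : Sum.swap a ≠ a := by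
  rcases a with a | a <;> simp

theorem oSwap_eq_iff (a b : Fin n ⊕ Fin n) : Sum.swap a = b ↔ a = Sum.swap b := by
  constructor
  · rintro rfl; rw [Sum.swap_swap]
  · rintro rfl; rw [Sum.swap_swap]

theorem oLine_coord (a b : Fin n ⊕ Fin n) (hab : a ≠ b) (hab' : a ≠ Sum.swap b) :
    OLine (Pi.single a (1 : F)) (Pi.single b 1) := by
  refine ⟨?_, oQ_single a, oQ_single b, by rw [oB_EE, if_neg hab']⟩
  rw [LinearIndependent.pair_iff]
  intro s t hst
  have h1 := congrFun hst a
  have h2 := congrFun hst b
  simp only [Pi.add_apply, Pi.smul_apply, Pi.single_apply, smul_eq_mul, Pi.zero_apply, if_true,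
    if_neg hab, if_neg hab.symm, mul_one, mul_zero, add_zero, zero_add] at h1 h2
  exact ⟨h1, h2⟩

/-- every singular line is opposite to a coordinate line. -/
theorem oLine_opp_coord {p r : Fin n ⊕ Fin n → F} (hL : OLine p r) :
    ∃ a b : Fin n ⊕ Fin n, a ≠ b ∧ a ≠ Sum.swap b ∧
      oB p (Pi.single a 1) * oB r (Pi.single b 1)
        - oB p (Pi.single b 1) * oB r (Pi.single a 1) ≠ 0 := by
  obtain ⟨hli, hp, hr, hpr⟩ := hL
  -- reformulation with `i = swap a`, `j = swap b`
  suffices h : ∃ i j : Fin n ⊕ Fin n, i ≠ j ∧ Sum.swap i ≠ j ∧ p i * r j - p j * r i ≠ 0 by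
    obtain ⟨i, j, hij, hij', hm⟩ := h
    refine ⟨Sum.swap i, Sum.swap j, fun h => hij (Sum.swap_leftInverse.injective h), ?_, ?_⟩
    · rw [Sum.swap_swap]; exact hij'
    · rw [oB_single_right, oB_single_right, oB_single_right, oB_single_right, Sum.swap_swap,
        Sum.swap_swap]
      exact hm
  obtain ⟨i, j, hm⟩ := oMinor_of_indep hli
  have hij : i ≠ j := by
    rintro rfl
    exact hm (by ring)
  by_cases hij' : Sum.swap i = j
  · subst hij'
    by_contra hcon
    push Not at hcon
    obtain ⟨D, hD⟩ : ∃ D : F, D = p i * r (Sum.swap i) - p (Sum.swap i) * r i := ⟨_, rfl⟩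
    rw [← hD] at hm
    have hk : ∀ k, k ≠ i → k ≠ Sum.swap i → p k = 0 ∧ r k = 0 := by
      intro k hki hki'
      have m1 := hcon i k (fun h => hki h.symm) (fun h => hki' h.symm)
      have m2 := hcon (Sum.swap i) k (fun h => hki' h.symm)
        (by rw [Sum.swap_swap]; exact fun h => hki h.symm)
      constructor
      · have : D * p k = 0 := by rw [hD]; linear_combination p (Sum.swap i) * m1 - p i * m2
        exact (mul_eq_zero.1 this).resolve_left hm
      · have : D * r k = 0 := by rw [hD]; linear_combination r (Sum.swap i) * m1 - r i * m2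
        exact (mul_eq_zero.1 this).resolve_left hm
    have hsi : Sum.swap i ≠ i := oSwap_ne i
    have ep : p = p i • Pi.single i 1 + p (Sum.swap i) • Pi.single (Sum.swap i) 1 := by
      funext k
      simp only [Pi.add_apply, Pi.smul_apply, Pi.single_apply, smul_eq_mul]
      by_cases hki : k = i
      · subst hki; simp [hsi.symm]
      · by_cases hki' : k = Sum.swap i
        · subst hki'; simp [hsi]
        · simp [hki, hki', (hk k hki hki').1]
    have er : r = r i • Pi.single i 1 + r (Sum.swap i) • Pi.single (Sum.swap i) 1 := by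
      funext k
      simp only [Pi.add_apply, Pi.smul_apply, Pi.single_apply, smul_eq_mul]
      by_cases hki : k = i
      · subst hki; simp [hsi.symm]
      · by_cases hki' : k = Sum.swap i
        · subst hki'; simp [hsi]
        · simp [hki, hki', (hk k hki hki').2]
    have b1 : oB (Pi.single i (1 : F)) (Pi.single (Sum.swap i) 1) = 1 := by
      rw [oB_EE, Sum.swap_swap, if_pos rfl]
    have b2 : oB (Pi.single (Sum.swap i) (1 : F)) (Pi.single i 1) = 1 := by
      rw [oB_EE, if_pos rfl]
    have b3 : oB (Pi.single i (1 : F)) (Pi.single i 1) = 0 := by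
      rw [oB_EE, if_neg hsi.symm]
    have b4 : oB (Pi.single (Sum.swap i) (1 : F)) (Pi.single (Sum.swap i) 1) = 0 := by
      rw [oB_EE, Sum.swap_swap, if_neg hsi]
    have q1 : p i * p (Sum.swap i) = 0 := by
      have := hp
      rw [ep, oQ_add, oQ_smul, oQ_smul, oQ_single, oQ_single, oB_smul_left, oB_smul_right, b1]
        at this
      linear_combination this
    have q3 : p i * r (Sum.swap i) + p (Sum.swap i) * r i = 0 := by
      have := hpr
      rw [ep, er] at this
      simp only [oB_add_left, oB_add_right, oB_smul_left, oB_smul_right, b1, b2, b3, b4] at this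
      linear_combination this
    have hA : p i * r (Sum.swap i) ≠ 0 := by
      intro h0
      apply hm
      rw [hD]
      linear_combination 2 * h0 - q3
    have hpi : p i ≠ 0 := left_ne_zero_of_mul hA
    have hps : p (Sum.swap i) = 0 := (mul_eq_zero.1 q1).resolve_left hpi
    apply hA
    rw [hps] at q3
    linear_combination q3
  · exact ⟨i, j, hij, hij', hm⟩

/-- one elementary step between coordinate lines. -/
theorem oCoord_step (a b c : Fin n ⊕ Fin n) (hab : a ≠ b) (hab' : a ≠ Sum.swap b) (hac : a ≠ c)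
    (hac' : a ≠ Sum.swap c) (hbc : b ≠ c) (hbc' : b ≠ Sum.swap c) :
    Relation.ReflTransGen (Cfsg.FAdj (OSigma n F))
      (OSG (Pi.single a (1 : F)) (Pi.single b 1)) (OSG (Pi.single a (1 : F)) (Pi.single c 1)) := by
  have hL1 : OLine (Pi.single a (1 : F)) (Pi.single b 1) := oLine_coord a b hab hab'
  have hL2 : OLine (Pi.single a (1 : F)) (Pi.single c 1) := oLine_coord a c hac hac'
  have n1 : Sum.swap a ≠ b := fun h => hab' ((oSwap_eq_iff a b).1 h)
  have n2 : Sum.swap a ≠ c := fun h => hac' ((oSwap_eq_iff a c).1 h)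
  have n3 : Sum.swap b ≠ c := fun h => hbc' ((oSwap_eq_iff b c).1 h)
  have n4 : Sum.swap a ≠ Sum.swap b := fun h => hab (Sum.swap_leftInverse.injective h)
  have n5 : Sum.swap a ≠ Sum.swap c := fun h => hac (Sum.swap_leftInverse.injective h)
  have n6 : Sum.swap b ≠ Sum.swap c := fun h => hbc (Sum.swap_leftInverse.injective h)
  have hLm : OLine (Pi.single (Sum.swap a) (1 : F))
      (Pi.single (Sum.swap b) 1 + Pi.single (Sum.swap c) 1) := by
    refine ⟨?_, oQ_single _, ?_, ?_⟩
    · rw [LinearIndependent.pair_iff]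
      intro s t hst
      have h1 := congrFun hst (Sum.swap a)
      have h2 := congrFun hst (Sum.swap b)
      simp only [Pi.add_apply, Pi.smul_apply, Pi.single_apply, smul_eq_mul, Pi.zero_apply, if_true,
        if_neg n4, if_neg n4.symm, if_neg n5, if_neg n6, mul_one, mul_zero, add_zero, zero_add]
        at h1 h2
      exact ⟨h1, h2⟩
    · rw [oQ_add, oQ_single, oQ_single, oB_EE, Sum.swap_swap, if_neg n3, add_zero, add_zero]
    · rw [oB_add_right, oB_EE, oB_EE, Sum.swap_swap, Sum.swap_swap, if_neg n1, if_neg n2,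
        add_zero]
  have adj1 : Cfsg.FAdj (OSigma n F) (OSG (Pi.single a (1 : F)) (Pi.single b 1))
      (OSG (Pi.single (Sum.swap a) (1 : F))
        (Pi.single (Sum.swap b) 1 + Pi.single (Sum.swap c) 1)) := by
    apply oAdj_of_opp hL1 hLm
    simp only [oB_add_right, oB_EE, Sum.swap_swap, if_true, if_neg hab, if_neg hac,
      if_neg hab.symm, if_neg hbc]
    norm_num
  have adj2 : Cfsg.FAdj (OSigma n F) (OSG (Pi.single a (1 : F)) (Pi.single c 1))
      (OSG (Pi.single (Sum.swap a) (1 : F))
        (Pi.single (Sum.swap b) 1 + Pi.single (Sum.swap c) 1)) := by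
    apply oAdj_of_opp hL2 hLm
    simp only [oB_add_right, oB_EE, Sum.swap_swap, if_true, if_neg hab, if_neg hac,
      if_neg hac.symm, if_neg hbc.symm]
    norm_num
  exact Relation.ReflTransGen.trans (Relation.ReflTransGen.single adj1)
    (Relation.ReflTransGen.single (oAdj_symm adj2))

theorem oExists_other (hn : 3 ≤ n) (a b : Fin n ⊕ Fin n) :
    ∃ d : Fin n ⊕ Fin n, d ≠ a ∧ d ≠ Sum.swap a ∧ d ≠ b ∧ d ≠ Sum.swap b := by
  classical
  have hcard : ({Sum.elim id id a, Sum.elim id id b} : Finset (Fin n)).card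
      < (Finset.univ : Finset (Fin n)).card := by
    rw [Finset.card_univ, Fintype.card_fin]
    exact lt_of_le_of_lt Finset.card_le_two (by omega)
  obtain ⟨l, -, hl⟩ := Finset.exists_mem_notMem_of_card_lt_card hcard
  rw [Finset.mem_insert, Finset.mem_singleton] at hl
  push Not at hl
  refine ⟨Sum.inl l, ?_, ?_, ?_, ?_⟩
  · rintro rfl; exact hl.1 rfl
  · intro h
    apply hl.1
    rcases a with a | a
    · simp at h
    · simp at h; simp [h]
  · rintro rfl; exact hl.2 rfl
  · intro h
    apply hl.2
    rcases b with b | b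
    · simp at h
    · simp at h; simp [h]

/-- fix one basis vector, change the other. -/
theorem oCoord_fix (hn : 3 ≤ n) (a b c : Fin n ⊕ Fin n) (hab : a ≠ b) (hab' : a ≠ Sum.swap b)
    (hac : a ≠ c) (hac' : a ≠ Sum.swap c) :
    Relation.ReflTransGen (Cfsg.FAdj (OSigma n F))
      (OSG (Pi.single a (1 : F)) (Pi.single b 1)) (OSG (Pi.single a (1 : F)) (Pi.single c 1)) := by
  by_cases hbc : b = c
  · subst hbc; exact Relation.ReflTransGen.refl
  · by_cases hbc' : b = Sum.swap c
    · obtain ⟨d, hd1, hd2, hd3, hd4⟩ := oExists_other hn a b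
      have hd2' : a ≠ Sum.swap d := fun h => hd2 ((oSwap_eq_iff a d).2 h).symm
      have hd4' : b ≠ Sum.swap d := fun h => hd4 ((oSwap_eq_iff b d).2 h).symm
      have hdc : d ≠ c := by
        intro h
        apply hd4
        rw [h, hbc', Sum.swap_swap]
      have hdc' : d ≠ Sum.swap c := by
        intro h
        apply hd3
        rw [h, hbc']
      exact Relation.ReflTransGen.trans (oCoord_step a b d hab hab' hd1.symm hd2' hd3.symm hd4')
        (oCoord_step a d c hd1.symm hd2' hac hac' hdc hdc')
    · exact oCoord_step a b c hab hab' hac hac' hbc hbc'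

theorem oCoord_sym (a b : Fin n ⊕ Fin n) :
    OSG (Pi.single a (1 : F)) (Pi.single b 1) = OSG (Pi.single b (1 : F)) (Pi.single a 1) := by
  by_cases hL : OLine (Pi.single b (1 : F)) (Pi.single a 1)
  · have := OSG_basis (Pi.single b (1 : F)) (Pi.single a 1) hL.2.1 hL.2.2.1 hL.2.2.2 0 1 1 0
      (by norm_num)
    simpa using this
  · ext g
    have hL' : ¬ OLine (Pi.single a (1 : F)) (Pi.single b 1) := fun h => hL h.swap
    have key : ∀ (u v : Fin n ⊕ Fin n → F), ¬ OLine u v → ∀ c : F, osg u v c = 1 := by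
      intro u v huv c
      by_cases hs : Cfsg.quadFormPlus n F u = 0 ∧ Cfsg.quadFormPlus n F v = 0 ∧ oB u v = 0
      · exact osg_dep u v (fun hli => huv ⟨hli, hs⟩) c
      · unfold osg
        rw [dif_neg hs]
    constructor
    · rintro ⟨c, rfl⟩
      rw [key _ _ hL']
      exact Subgroup.one_mem _
    · rintro ⟨c, rfl⟩
      rw [key _ _ hL]
      exact Subgroup.one_mem _

/-- all coordinate lines are connected. -/
theorem oCoord_conn (hn : 3 ≤ n) (a b c d : Fin n ⊕ Fin n) (hab : a ≠ b) (hab' : a ≠ Sum.swap b)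
    (hcd : c ≠ d) (hcd' : c ≠ Sum.swap d) :
    Relation.ReflTransGen (Cfsg.FAdj (OSigma n F))
      (OSG (Pi.single a (1 : F)) (Pi.single b 1)) (OSG (Pi.single c (1 : F)) (Pi.single d 1)) := by
  by_cases hca : c = a
  · subst hca
    exact oCoord_fix hn c b d hab hab' hcd hcd'
  · by_cases hca' : c = Sum.swap a
    · subst hca'
      have had : a ≠ d := by
        intro h
        apply hcd'
        rw [h]
      have had' : a ≠ Sum.swap d := by
        intro h
        apply hcd
        rw [h, Sum.swap_swap]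
      have s1 := oCoord_fix (F := F) hn a b d hab hab' had had'
      have s2 := oCoord_fix (F := F) hn d a (Sum.swap a) had.symm hcd.symm hcd.symm
        (by rw [Sum.swap_swap]; exact had.symm)
      rw [oCoord_sym d a, oCoord_sym d (Sum.swap a)] at s2
      exact Relation.ReflTransGen.trans s1 s2
    · have hac : a ≠ c := fun h => hca h.symm
      have hac' : a ≠ Sum.swap c := fun h => hca' (by rw [h, Sum.swap_swap])
      have s1 := oCoord_fix (F := F) hn a b c hab hab' hac hac'
      have s2 := oCoord_fix (F := F) hn c a d hca (fun h => hca' h) hcd hcd'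
      rw [oCoord_sym c a] at s2
      exact Relation.ReflTransGen.trans s1 s2

/-- the graph of opposite singular lines is connected in rank at least three. -/
theorem oSigma_connected (hn : 3 ≤ n) :
    Cfsg.IsConnectedFamily (Cfsg.FAdj (OSigma n F)) (OSigma n F) := by
  rintro A ⟨p, r, hL, rfl⟩ B ⟨p', r', hL', rfl⟩
  obtain ⟨a, b, hab, hab', h1⟩ := oLine_opp_coord hL
  obtain ⟨c, d, hcd, hcd', h2⟩ := oLine_opp_coord hL'
  have adj1 := oAdj_of_opp hL (oLine_coord a b hab hab') h1
  have adj2 := oAdj_of_opp hL' (oLine_coord c d hcd hcd') h2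
  exact Relation.ReflTransGen.trans (Relation.ReflTransGen.single adj1)
    (Relation.ReflTransGen.trans (oCoord_conn hn a b c d hab hab' hcd hcd')
      (Relation.ReflTransGen.single (oAdj_symm adj2)))

end oconn

end Cfsg.Agent.Helper13
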