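import Mathlib
import Cfsg.Prelude.Def_ClassicalGeometry
import Cfsg.Agent.Helper13.Parabolic

set_option autoImplicit false

namespace Cfsg.Agent.Helper13

open Matrix Module

section parabolic2
variable {F : Type*} [Field F]

theorem mem_stab_iff' {n k : ℕ} (hk : k ≤ n) (g : GL (Fin n) F) :
    g ∈ stabilizing (glToMat (Fin n) F) {v : Fin n → F | ∀ i : Fin n, k ≤ (i : ℕ) → v i = 0} ↔
      ∀ i j : Fin n, k ≤ (i : ℕ) → (j : ℕ) < k → (g : Matrix (Fin n) (Fin n) F) i j = 0 := by
  rw [mem_stab_iff hk]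
  constructor
  · intro h i j hi hj
    have hi' : i = splitEquiv hk (Sum.inr ⟨(i : ℕ) - k, by omega⟩) := by
      apply Fin.ext; rw [splitEquiv_inr]; simp only; omega
    have hj' : j = splitEquiv hk (Sum.inl ⟨(j : ℕ), hj⟩) := by
      apply Fin.ext; rw [splitEquiv_inl]
    have := congrFun (congrFun h ⟨(i : ℕ) - k, by omega⟩) ⟨(j : ℕ), hj⟩
    rw [hi', hj']; exact this
  · intro h
    ext b a
    exact h _ _ (by rw [splitEquiv_inr]; omega) (by rw [splitEquiv_inl]; exact a.2)

/-- reverse-transpose of a matrix. -/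
def revT {n : ℕ} (M : Matrix (Fin n) (Fin n) F) : Matrix (Fin n) (Fin n) F :=
  fun i j => M (Fin.rev j) (Fin.rev i)

theorem revT_apply {n : ℕ} (M : Matrix (Fin n) (Fin n) F) (i j : Fin n) :
    revT M i j = M (Fin.rev j) (Fin.rev i) := rfl

theorem revT_mul {n : ℕ} (M N : Matrix (Fin n) (Fin n) F) : revT (M * N) = revT N * revT M := by
  ext i j
  simp only [revT_apply, Matrix.mul_apply]
  rw [← Equiv.sum_comp Fin.revPerm]
  apply Finset.sum_congr rfl
  intro x _
  simp [mul_comm]

theorem revT_one {n : ℕ} : revT (1 : Matrix (Fin n) (Fin n) F) = 1 := by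
  ext i j
  simp [revT_apply, Matrix.one_apply, Fin.rev_inj, eq_comm]

theorem revT_revT {n : ℕ} (M : Matrix (Fin n) (Fin n) F) : revT (revT M) = M := by
  ext i j
  simp [revT_apply]

/-- the automorphism `g ↦ revT g⁻¹` of `GL_n`. -/
def tauHom (n : ℕ) : GL (Fin n) F →* GL (Fin n) F where
  toFun g := ⟨revT (g⁻¹ : GL (Fin n) F).1, revT g.1,
    by rw [← revT_mul, ← Units.val_mul, mul_inv_cancel, Units.val_one, revT_one],
    by rw [← revT_mul, ← Units.val_mul, inv_mul_cancel, Units.val_one, revT_one]⟩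
  map_one' := Units.ext (by simp [revT_one])
  map_mul' g h := Units.ext (by simp [_root_.mul_inv_rev, revT_mul])

theorem tauHom_val {n : ℕ} (g : GL (Fin n) F) :
    ((tauHom n g : GL (Fin n) F) : Matrix (Fin n) (Fin n) F) = revT (g⁻¹ : GL (Fin n) F).1 := rfl

theorem tau_tau {n : ℕ} (g : GL (Fin n) F) : tauHom n (tauHom n g) = g := by
  apply Units.ext
  rw [tauHom_val]
  have : ((tauHom n g)⁻¹ : GL (Fin n) F).1 = revT g.1 := rfl
  rw [this, revT_revT]

theorem tau_mem {n k : ℕ} (hk : k ≤ n) (g : GL (Fin n) F)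
    (hg : g ∈ stabilizing (glToMat (Fin n) F)
      {v : Fin n → F | ∀ i : Fin n, k ≤ (i : ℕ) → v i = 0}) :
    tauHom n g ∈ stabilizing (glToMat (Fin n) F)
      {v : Fin n → F | ∀ i : Fin n, n - k ≤ (i : ℕ) → v i = 0} := by
  rw [mem_stab_iff' (Nat.sub_le n k)]
  intro i j hi hj
  have hg' := (mem_stab_iff' hk g⁻¹).mp (inv_mem hg)
  rw [tauHom_val, revT_apply]
  apply hg'
  · rw [Fin.val_rev]; omega
  · rw [Fin.val_rev]; have := i.2; omega

/-- the isomorphism between the stabilisers of the `k`- and `(n-k)`-dimensional coordinate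
subspaces. -/
def parabolicIso {n k : ℕ} (hk : k ≤ n) :
    ↥(stabilizing (glToMat (Fin n) F) {v : Fin n → F | ∀ i : Fin n, k ≤ (i : ℕ) → v i = 0}) ≃*
      ↥(stabilizing (glToMat (Fin n) F)
        {v : Fin n → F | ∀ i : Fin n, n - k ≤ (i : ℕ) → v i = 0}) where
  toFun g := ⟨tauHom n g.1, tau_mem hk g.1 g.2⟩
  invFun g := ⟨tauHom n g.1, by
    have := tau_mem (Nat.sub_le n k) g.1 g.2
    rwa [Nat.sub_sub_self hk] at this⟩
  left_inv g := Subtype.ext (tau_tau g.1)
  right_inv g := Subtype.ext (tau_tau g.1)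
  map_mul' g h := Subtype.ext (map_mul (tauHom n) g.1 h.1)

/-- the coordinate subspace as a submodule. -/
def coordSubmodule (n j : ℕ) : Submodule F (Fin n → F) where
  carrier := {v : Fin n → F | ∀ i : Fin n, j ≤ (i : ℕ) → v i = 0}
  add_mem' := by
    intro a b ha hb i hi
    simp [ha i hi, hb i hi]
  zero_mem' := by intro i _; rfl
  smul_mem' := by
    intro c x hx i hi
    simp [hx i hi]

theorem finrank_coord {n j : ℕ} (hj : j ≤ n) :
    Module.finrank F (coordSubmodule (F := F) n j) = j := by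
  let π : (Fin n → F) →ₗ[F] (Fin (n - j) → F) :=
    LinearMap.funLeft F F (fun b => splitEquiv hj (Sum.inr b))
  have hker : LinearMap.ker π = coordSubmodule n j := by
    ext v
    rw [LinearMap.mem_ker]
    show _ ↔ ∀ i : Fin n, j ≤ (i : ℕ) → v i = 0
    rw [mem_coordSub_iff hj]
    constructor
    · intro h b; exact congrFun h b
    · intro h; funext b; exact h b
  have hsurj : Function.Surjective π :=
    LinearMap.funLeft_surjective_of_injective _ _ _
      (fun b b' h => by simpa using (splitEquiv hj).injective h)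
  have h1 := LinearMap.finrank_range_add_finrank_ker π
  rw [LinearMap.range_eq_top.mpr hsurj, finrank_top, hker] at h1
  simp only [Module.finrank_fintype_fun_eq_card, Fintype.card_fin] at h1
  omega

theorem transv_mem {n k : ℕ} (hk : k ≤ n) (a b : Fin n) (hab : a ≠ b)
    (h : (a : ℕ) < k ∨ k ≤ (b : ℕ)) :
    ∃ t : GL (Fin n) F, t ∈ stabilizing (glToMat (Fin n) F)
        {v : Fin n → F | ∀ i : Fin n, k ≤ (i : ℕ) → v i = 0} ∧
      ∀ u : Fin n → F, (t : Matrix (Fin n) (Fin n) F) *ᵥ u = u + Pi.single a (u b) := by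
  refine ⟨Matrix.GeneralLinearGroup.mkOfDetNeZero (Matrix.transvection a b (1 : F))
    (by rw [Matrix.det_transvection_of_ne _ _ hab]; exact one_ne_zero), ?_, ?_⟩
  · rw [mem_stab_iff' hk]
    intro i j hi hj
    show Matrix.transvection a b (1 : F) i j = 0
    have hij : i ≠ j := by
      intro h'; rw [h'] at hi; omega
    have hne : ¬ (a = i ∧ b = j) := by
      rintro ⟨rfl, rfl⟩
      omega
    simp [Matrix.transvection, Matrix.one_apply, hij, Matrix.single_apply, hne]
  · intro u
    show Matrix.transvection a b (1 : F) *ᵥ u = _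
    rw [Matrix.transvection, Matrix.add_mulVec, Matrix.one_mulVec, Matrix.single_mulVec, one_mul]
    rfl

theorem not_conj {n k : ℕ} (hk0 : 0 < k) (hkn : k < n) (h2 : 2 * k ≠ n) (g : GL (Fin n) F) :
    (stabilizing (glToMat (Fin n) F)
      {v : Fin n → F | ∀ i : Fin n, k ≤ (i : ℕ) → v i = 0}).map (MulAut.conj g).toMonoidHom ≠
    stabilizing (glToMat (Fin n) F) {v : Fin n → F | ∀ i : Fin n, n - k ≤ (i : ℕ) → v i = 0} := by
  intro hconj
  let gL : (Fin n → F) ≃ₗ[F] (Fin n → F) :=
    LinearEquiv.ofLinearMap (Matrix.mulVecLin g.1) (Matrix.mulVecLin (g⁻¹ : GL (Fin n) F).1)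
      (by rw [← Matrix.mulVecLin_mul, ← Units.val_mul, mul_inv_cancel, Units.val_one,
        Matrix.mulVecLin_one])
      (by rw [← Matrix.mulVecLin_mul, ← Units.val_mul, inv_mul_cancel, Units.val_one,
        Matrix.mulVecLin_one])
  have hgL : ∀ u, gL u = g.1 *ᵥ u := fun u => rfl
  let U : Submodule F (Fin n → F) := (coordSubmodule n (n - k)).comap gL.toLinearMap
  have hU : ∀ u, u ∈ U ↔ ∀ i : Fin n, n - k ≤ (i : ℕ) → (g.1 *ᵥ u) i = 0 := fun u => Iff.rfl
  have hinv : ∀ p ∈ stabilizing (glToMat (Fin n) F)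
      {v : Fin n → F | ∀ i : Fin n, k ≤ (i : ℕ) → v i = 0}, ∀ u ∈ U, p.1 *ᵥ u ∈ U := by
    intro p hp u hu
    have hmem : g * p * g⁻¹ ∈ stabilizing (glToMat (Fin n) F)
        {v : Fin n → F | ∀ i : Fin n, n - k ≤ (i : ℕ) → v i = 0} := by
      rw [← hconj]; exact ⟨p, hp, rfl⟩
    have h1 := (hmem (g.1 *ᵥ u)).mp ((hU u).mp hu)
    have h3 : (glToMat (Fin n) F) (g * p * g⁻¹) *ᵥ (g.1 *ᵥ u) = g.1 *ᵥ (p.1 *ᵥ u) := by
      show (g * p * g⁻¹ : GL (Fin n) F).1 *ᵥ (g.1 *ᵥ u) = g.1 *ᵥ (p.1 *ᵥ u)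
      rw [Matrix.mulVec_mulVec, Matrix.mulVec_mulVec, ← Units.val_mul, ← Units.val_mul]
      congr 2
      group
    rw [h3] at h1
    exact (hU _).mpr h1
  have hstep : ∀ u ∈ U, ∀ a b : Fin n, a ≠ b → ((a : ℕ) < k ∨ k ≤ (b : ℕ)) →
      Pi.single a (u b) ∈ U := by
    intro u hu a b hab h
    obtain ⟨t, ht, htu⟩ := transv_mem (F := F) hkn.le a b hab h
    have := hinv t ht u hu
    rw [htu] at this
    exact (Submodule.add_mem_iff_right U hu).mp this
  have hsm : ∀ (a : Fin n) (c : F), Pi.single a (1 : F) ∈ U → Pi.single a c ∈ U := by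
    intro a c h
    have := U.smul_mem c h
    rwa [← Pi.single_smul, smul_eq_mul, mul_one] at this
  have hsingle : ∀ (a : Fin n) (c : F), c ≠ 0 → Pi.single a c ∈ U → Pi.single a (1 : F) ∈ U := by
    intro a c hc h
    have := U.smul_mem c⁻¹ h
    rwa [← Pi.single_smul, smul_eq_mul, inv_mul_cancel₀ hc] at this
  have hkey : ∀ u ∈ U, ∀ b, u b ≠ 0 → (∀ a, a ≠ b → Pi.single a (u a) ∈ U) →
      Pi.single b (1 : F) ∈ U := by
    intro u hu b hb h
    apply hsingle b (u b) hb
    have hsum : ∑ a, Pi.single a (u a) = u := Finset.univ_sum_single u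
    have : Pi.single b (u b) = u - ∑ a ∈ Finset.univ.erase b, Pi.single a (u a) := by
      rw [eq_sub_iff_add_eq,
        Finset.add_sum_erase Finset.univ (fun a => Pi.single a (u a)) (Finset.mem_univ b)]
      exact hsum
    rw [this]
    exact U.sub_mem hu (U.sum_mem fun a ha => h a (Finset.ne_of_mem_erase ha))
  by_cases hcase : ∃ u ∈ U, ∃ b : Fin n, k ≤ (b : ℕ) ∧ u b ≠ 0
  · obtain ⟨u, hu, b, hb, hub⟩ := hcase
    have h1 : ∀ a, a ≠ b → Pi.single a (1 : F) ∈ U := fun a hab =>
      hsingle a (u b) hub (hstep u hu a b hab (Or.inr hb))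
    have hall : ∀ a : Fin n, Pi.single a (1 : F) ∈ U := by
      intro a
      by_cases hab : a = b
      · rw [hab]
        exact hkey u hu b hub (fun a' ha' => hsm a' _ (h1 a' ha'))
      · exact h1 a hab
    have htop : ∀ v : Fin n → F, v ∈ U := by
      intro v
      rw [← Finset.univ_sum_single v]
      exact U.sum_mem fun a _ => hsm a _ (hall a)
    let l : Fin n := ⟨n - 1, by omega⟩
    have h3 := (hU ((g⁻¹ : GL (Fin n) F).1 *ᵥ Pi.single l 1)).mp (htop _) l
      (by simp only [l]; omega)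
    rw [Matrix.mulVec_mulVec, ← Units.val_mul, mul_inv_cancel, Units.val_one,
      Matrix.one_mulVec] at h3
    simp at h3
  · push Not at hcase
    let z : Fin n := ⟨0, by omega⟩
    have hgz : g.1 *ᵥ ((g⁻¹ : GL (Fin n) F).1 *ᵥ Pi.single z (1 : F)) = Pi.single z (1 : F) := by
      rw [Matrix.mulVec_mulVec, ← Units.val_mul, mul_inv_cancel, Units.val_one,
        Matrix.one_mulVec]
    have hz : (g⁻¹ : GL (Fin n) F).1 *ᵥ Pi.single z (1 : F) ∈ U := by
      rw [hU, hgz]
      intro i hi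
      have : i ≠ z := by
        intro h'; rw [h'] at hi; simp only [z] at hi; omega
      simp [this]
    have hz0 : (g⁻¹ : GL (Fin n) F).1 *ᵥ Pi.single z (1 : F) ≠ 0 := by
      intro h0
      rw [h0, Matrix.mulVec_zero] at hgz
      have := congrFun hgz z
      simp at this
    obtain ⟨b, hb⟩ : ∃ b, ((g⁻¹ : GL (Fin n) F).1 *ᵥ Pi.single z (1 : F)) b ≠ 0 := by
      by_contra hcon
      push Not at hcon
      exact hz0 (funext hcon)
    set u := (g⁻¹ : GL (Fin n) F).1 *ᵥ Pi.single z (1 : F) with hu_def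
    have hbk : (b : ℕ) < k := by
      by_contra hge
      exact hb (hcase u hz b (not_lt.mp hge))
    have h1 : ∀ a : Fin n, (a : ℕ) < k → a ≠ b → Pi.single a (1 : F) ∈ U := fun a ha hab =>
      hsingle a (u b) hb (hstep u hz a b hab (Or.inl ha))
    have hall : ∀ a : Fin n, (a : ℕ) < k → Pi.single a (1 : F) ∈ U := by
      intro a ha
      by_cases hab : a = b
      · rw [hab]
        apply hkey u hz b hb
        intro a' ha'
        by_cases hak : (a' : ℕ) < k
        · exact hsm a' _ (h1 a' hak ha')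
        · rw [hcase u hz a' (not_lt.mp hak)]
          simp
      · exact h1 a ha hab
    have hUE : U = coordSubmodule n k := by
      apply le_antisymm
      · intro u' hu' i hi
        exact hcase u' hu' i hi
      · intro v hv
        rw [← Finset.univ_sum_single v]
        apply U.sum_mem
        intro a _
        by_cases hak : (a : ℕ) < k
        · exact hsm a _ (hall a hak)
        · have : v a = 0 := hv a (not_lt.mp hak)
          rw [this]
          simp
    have hd1 : Module.finrank F U = n - k := by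
      have : U = (coordSubmodule n (n - k)).map gL.symm.toLinearMap :=
        Submodule.comap_equiv_eq_map_symm gL _
      rw [this]
      rw [LinearEquiv.finrank_map_eq gL.symm, finrank_coord (Nat.sub_le n k)]
    rw [hUE, finrank_coord hkn.le] at hd1
    omega

end parabolic2

end Cfsg.Agent.Helper13
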