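import Mathlib
import Cfsg.Agent.Helper5.SLGen

/-!
# Generation of `SL_{n+1}` by a root group and the cyclic monomial matrix (helper13)

`cycW n K` is the monomial matrix with entries `1` in positions `(i, i+1)` and `(-1)^n` in position
`(n, 0)`.  A subgroup of `SL_{n+1}(K)` (`n ≥ 1`) containing an element with this matrix and all
elementary transvections `1 + t E₀₁` is everything (`sl_cyc_top`).
-/

set_option autoImplicit false
set_option linter.unusedSimpArgs false
set_option linter.unusedSectionVars false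
set_option linter.unusedVariables false

namespace Cfsg.Agent.Helper13

open Matrix
open scoped commutatorElement
open Fin.NatCast

section slcyc
variable {K : Type*} [Field K] {n : ℕ}

/-- the non-zero coefficient in row `i` of the cyclic monomial matrix. -/
def cycC (n : ℕ) (K : Type*) [Field K] (i : Fin (n + 1)) : K :=
  if i.val = n then (-1) ^ n else 1

theorem cycC_ne_zero (i : Fin (n + 1)) : cycC n K i ≠ 0 := by
  unfold cycC
  split_ifs
  · exact pow_ne_zero _ (neg_ne_zero.2 one_ne_zero)
  · exact one_ne_zero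

/-- the cyclic monomial matrix. -/
def cycW (n : ℕ) (K : Type*) [Field K] : Matrix (Fin (n + 1)) (Fin (n + 1)) K :=
  Matrix.of (fun i j => if j.val = i.val + 1 then 1 else
    if i.val = n ∧ j.val = 0 then (-1) ^ n else 0)

theorem fin_succ_iff (i j : Fin (n + 1)) :
    j = i + 1 ↔ (j.val = i.val + 1 ∨ (i.val = n ∧ j.val = 0)) := by
  have h1 : (i + 1).val = (i.val + 1) % (n + 1) := by
    rw [Fin.val_add, Fin.val_one', Nat.add_mod_mod]
  rw [Fin.ext_iff, h1]
  have hi := i.2
  have hj := j.2
  by_cases hin : i.val = n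
  · rw [hin, Nat.mod_self]
    omega
  · rw [Nat.mod_eq_of_lt (by omega)]
    omega

theorem cycW_apply (i j : Fin (n + 1)) :
    cycW n K i j = if j = i + 1 then cycC n K i else 0 := by
  unfold cycW cycC
  simp only [Matrix.of_apply]
  have hj := j.2
  by_cases h : j = i + 1
  · rw [if_pos h]
    rcases (fin_succ_iff i j).1 h with h1 | ⟨h1, h2⟩
    · rw [if_pos h1, if_neg (by omega)]
    · rw [if_neg (by omega), if_pos ⟨h1, h2⟩, if_pos h1]
  · rw [if_neg h]
    have := (fin_succ_iff i j).not.1 h
    push Not at this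
    rw [if_neg this.1, if_neg (fun h' => this.2 h'.1 h'.2)]

theorem single_mul_cycW (i j : Fin (n + 1)) (t : K) :
    Matrix.single i j t * cycW n K = Matrix.single i (j + 1) (t * cycC n K j) := by
  ext a b
  by_cases ha : a = i
  · subst ha
    rw [Matrix.single_mul_apply_same, cycW_apply, Matrix.single_apply]
    by_cases hb : b = j + 1
    · subst hb; simp
    · have : ¬ (j + 1 = b) := fun h => hb h.symm
      simp [hb, this]
  · rw [Matrix.single_mul_apply_of_ne _ _ _ _ _ ha, Matrix.single_apply]
    have : ¬ (i = a) := fun h => ha h.symm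
    simp [this]

theorem cycW_mul_single (i j : Fin (n + 1)) (t : K) :
    cycW n K * Matrix.single (i + 1) j t = Matrix.single i j (cycC n K i * t) := by
  ext a b
  by_cases hb : b = j
  · subst hb
    rw [Matrix.mul_single_apply_same, cycW_apply, Matrix.single_apply]
    by_cases ha : a = i
    · subst ha; simp
    · have h1 : ¬ (i + 1 = a + 1) := fun h => ha (add_right_cancel h).symm
      have h2 : ¬ (i = a) := fun h => ha h.symm
      simp [h1, h2]
  · rw [Matrix.mul_single_apply_of_ne _ _ _ _ _ hb, Matrix.single_apply]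
    have : ¬ (j = b) := fun h => hb h.symm
    simp [this]

theorem tv_mul_cycW (i j : Fin (n + 1)) (t : K) :
    Matrix.transvection i j t * cycW n K
      = cycW n K * Matrix.transvection (i + 1) (j + 1) (t * cycC n K j / cycC n K i) := by
  unfold Matrix.transvection
  rw [add_mul, one_mul, mul_add, mul_one, single_mul_cycW, cycW_mul_single]
  congr 2
  field_simp [cycC_ne_zero]

/-- all matrices `1 + t E_{ij}` belong to `H`. -/
def TvIn (H : Subgroup (Matrix.SpecialLinearGroup (Fin (n + 1)) K)) (i j : Fin (n + 1)) : Prop :=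
  ∀ (t : K) (g : Matrix.SpecialLinearGroup (Fin (n + 1)) K),
    g.1 = Matrix.transvection i j t → g ∈ H

theorem sl_coe_mul_inv (w : Matrix.SpecialLinearGroup (Fin (n + 1)) K) :
    w.1 * (w⁻¹).1 = 1 := by
  rw [← Matrix.SpecialLinearGroup.coe_mul, mul_inv_cancel]
  rfl

theorem TvIn.shift {H : Subgroup (Matrix.SpecialLinearGroup (Fin (n + 1)) K)}
    {i j : Fin (n + 1)} (h : TvIn H i j) (w : Matrix.SpecialLinearGroup (Fin (n + 1)) K)
    (hw : w.1 = cycW n K) (hwH : w ∈ H) : TvIn H (i + 1) (j + 1) := by
  intro t' g hg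
  have e : Matrix.transvection i j (t' * cycC n K i / cycC n K j) * w.1 = w.1 * g.1 := by
    rw [hw, hg, tv_mul_cycW]
    congr 2
    field_simp [cycC_ne_zero]
  have h1 : (w * g * w⁻¹).1 = Matrix.transvection i j (t' * cycC n K i / cycC n K j) := by
    rw [Matrix.SpecialLinearGroup.coe_mul, Matrix.SpecialLinearGroup.coe_mul, ← e, mul_assoc,
      sl_coe_mul_inv, mul_one]
  have h2 := h _ _ h1
  have h3 : g = w⁻¹ * (w * g * w⁻¹) * w := by group
  rw [h3]
  exact mul_mem (mul_mem (inv_mem hwH) h2) hwH

theorem TvIn.comp {H : Subgroup (Matrix.SpecialLinearGroup (Fin (n + 1)) K)}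
    {i k j : Fin (n + 1)} (h1 : TvIn H i k) (h2 : TvIn H k j) (hik : i ≠ k) (hkj : k ≠ j)
    (hij : i ≠ j) : TvIn H i j := by
  intro t g hg
  have e : g = ⁅Matrix.SpecialLinearGroup.transvection hik t,
      Matrix.SpecialLinearGroup.transvection hkj (1 : K)⁆ := by
    rw [Cfsg.Agent.Helper5.transvection_commutator hik hkj hij, mul_one]
    exact Subtype.ext hg
  rw [e, commutatorElement_def]
  have ha := h1 t (Matrix.SpecialLinearGroup.transvection hik t) rfl
  have hb := h2 1 (Matrix.SpecialLinearGroup.transvection hkj (1 : K)) rfl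
  exact mul_mem (mul_mem (mul_mem ha hb) (inv_mem ha)) (inv_mem hb)

theorem tvIn_succ {H : Subgroup (Matrix.SpecialLinearGroup (Fin (n + 1)) K)}
    (w : Matrix.SpecialLinearGroup (Fin (n + 1)) K) (hw : w.1 = cycW n K) (hwH : w ∈ H)
    (h01 : TvIn H 0 1) (i : Fin (n + 1)) : TvIn H i (i + 1) := by
  have key : ∀ m : ℕ, TvIn H ((m : ℕ) : Fin (n + 1)) (((m : ℕ) : Fin (n + 1)) + 1) := by
    intro m
    induction m with
    | zero =>
      rw [Nat.cast_zero, zero_add]
      exact h01
    | succ m ih =>
      rw [Nat.cast_succ]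
      exact ih.shift w hw hwH
  have := key i.val
  rwa [Fin.cast_val_eq_self] at this

theorem tvIn_add {H : Subgroup (Matrix.SpecialLinearGroup (Fin (n + 1)) K)} (hn : 1 ≤ n)
    (w : Matrix.SpecialLinearGroup (Fin (n + 1)) K) (hw : w.1 = cycW n K) (hwH : w ∈ H)
    (h01 : TvIn H 0 1) :
    ∀ (d : ℕ) (i : Fin (n + 1)), ((d : ℕ) : Fin (n + 1)) ≠ 0 →
      TvIn H i (i + ((d : ℕ) : Fin (n + 1))) := by
  have h10 : (1 : Fin (n + 1)) ≠ 0 := by
    intro h
    have := congrArg Fin.val h
    rw [Fin.val_one', Fin.val_zero, Nat.mod_eq_of_lt (by omega)] at this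
    exact one_ne_zero this
  intro d
  induction d with
  | zero =>
    intro i h
    exact absurd Nat.cast_zero h
  | succ d ih =>
    intro i h
    by_cases hd : ((d : ℕ) : Fin (n + 1)) = 0
    · rw [Nat.cast_succ, hd, zero_add]
      exact tvIn_succ w hw hwH h01 i
    · have h1 := ih i hd
      have h2 := tvIn_succ w hw hwH h01 (i + ((d : ℕ) : Fin (n + 1)))
      rw [Nat.cast_succ, ← add_assoc]
      refine h1.comp h2 ?_ ?_ ?_
      · intro h'
        apply hd
        have : i + 0 = i + ((d : ℕ) : Fin (n + 1)) := by rw [add_zero]; exact h'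
        exact (add_left_cancel this).symm
      · intro h'
        apply h10
        have : i + ((d : ℕ) : Fin (n + 1)) + 0 = i + ((d : ℕ) : Fin (n + 1)) + 1 := by
          rw [add_zero]; exact h'
        exact (add_left_cancel this).symm
      · intro h'
        apply h
        rw [Nat.cast_succ]
        have : i + 0 = i + (((d : ℕ) : Fin (n + 1)) + 1) := by rw [add_zero, ← add_assoc]; exact h'
        exact (add_left_cancel this).symm

theorem tvIn_all {H : Subgroup (Matrix.SpecialLinearGroup (Fin (n + 1)) K)} (hn : 1 ≤ n)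
    (w : Matrix.SpecialLinearGroup (Fin (n + 1)) K) (hw : w.1 = cycW n K) (hwH : w ∈ H)
    (h01 : TvIn H 0 1) (i j : Fin (n + 1)) (hij : i ≠ j) : TvIn H i j := by
  have := tvIn_add hn w hw hwH h01 (j - i).val i (by
    rw [Fin.cast_val_eq_self]
    exact sub_ne_zero.2 hij.symm)
  rwa [Fin.cast_val_eq_self, add_sub_cancel] at this

/-- a subgroup of `SL_{n+1}(K)` containing the root group `1 + t E₀₁` and the cyclic monomial
matrix is the whole group. -/
theorem sl_cyc_top {H : Subgroup (Matrix.SpecialLinearGroup (Fin (n + 1)) K)} (hn : 1 ≤ n)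
    (w : Matrix.SpecialLinearGroup (Fin (n + 1)) K) (hw : w.1 = cycW n K) (hwH : w ∈ H)
    (h01 : TvIn H 0 1) : H = ⊤ := by
  rw [eq_top_iff]
  intro g _
  have : Nontrivial (Fin (n + 1)) := Fin.nontrivial_iff_two_le.2 (by omega)
  exact Cfsg.Agent.Helper5.SL_transvection_induction (fun g => g ∈ H)
    (fun i j hij a => tvIn_all hn w hw hwH h01 i j hij a _ rfl) (fun _ _ => mul_mem) g

end slcyc

end Cfsg.Agent.Helper13
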