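import Mathlib
import Cfsg.Prelude.Def_ClassicalGeometry
import Cfsg.Agent.Helper13.SympGen

set_option autoImplicit false

namespace Cfsg.Agent.Helper13

open Matrix
open scoped LinearAlgebra.Projectivization Pointwise

section sympprim
variable {F : Type*} [Field F] {m : ℕ}

/-- an element of `spGL` from a symplectic matrix. -/
theorem exists_spGL_of_symp (A : Matrix (Fin m ⊕ Fin m) (Fin m ⊕ Fin m) F)
    (hA : A ∈ symplecticGroup (Fin m) F) :
    ∃ g : ↥(Cfsg.spGL m F), ∀ x : Fin m ⊕ Fin m → F,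
      (g : Matrix.GeneralLinearGroup (Fin m ⊕ Fin m) F) • x = A *ᵥ x := by
  have hdet : A.det ≠ 0 := (SymplecticGroup.symplectic_det hA).ne_zero
  refine ⟨⟨Matrix.GeneralLinearGroup.mkOfDetNeZero A hdet, ?_⟩, fun x => rfl⟩
  intro u v
  exact (mem_symplecticGroup_iff_sympForm A).mp hA u v

theorem exists_partner_symp (u : Fin m ⊕ Fin m → F) (hu : u ≠ 0) :
    ∃ v, Cfsg.sympForm m F u v = 1 := by
  have : ∃ y, Cfsg.sympForm m F u y ≠ 0 := by
    by_contra hcon
    push Not at hcon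
    exact hu (sympForm_sep u hcon)
  obtain ⟨y, hy⟩ := this
  exact ⟨(Cfsg.sympForm m F u y)⁻¹ • y, by rw [sympForm_smul_right, inv_mul_cancel₀ hy]⟩

theorem exists_nonperp_both (a b : Fin m ⊕ Fin m → F) (ha : a ≠ 0) (hb : b ≠ 0) :
    ∃ p, Cfsg.sympForm m F a p ≠ 0 ∧ Cfsg.sympForm m F p b ≠ 0 := by
  obtain ⟨p₁, h1⟩ := exists_partner_symp a ha
  obtain ⟨p₂, h2⟩ := exists_partner_symp b hb
  have h2' : Cfsg.sympForm m F p₂ b = -1 := by rw [sympForm_swap, h2]
  by_cases hc1 : Cfsg.sympForm m F p₁ b ≠ 0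
  · exact ⟨p₁, by rw [h1]; exact one_ne_zero, hc1⟩
  by_cases hc2 : Cfsg.sympForm m F a p₂ ≠ 0
  · exact ⟨p₂, hc2, by rw [h2']; exact neg_ne_zero.mpr one_ne_zero⟩
  push Not at hc1 hc2
  refine ⟨p₁ + p₂, ?_, ?_⟩
  · rw [sympForm_add_right, h1, hc2, add_zero]; exact one_ne_zero
  · rw [sympForm_add_left, hc1, h2', zero_add]; exact neg_ne_zero.mpr one_ne_zero

/-- transitivity on hyperbolic pairs, for `spGL`. -/
theorem spGL_TA (p q p' z : Fin m ⊕ Fin m → F) (hpq : Cfsg.sympForm m F p q = 1)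
    (hpz : Cfsg.sympForm m F p' z = 1) :
    ∃ g : ↥(Cfsg.spGL m F), (g : Matrix.GeneralLinearGroup (Fin m ⊕ Fin m) F) • p = p' ∧
      (g : Matrix.GeneralLinearGroup (Fin m ⊕ Fin m) F) • q = z := by
  obtain ⟨A, -, h1, h2⟩ := sp_trans_pairs p q p' z hpq hpz
  obtain ⟨g, hg⟩ := exists_spGL_of_symp (A : Matrix (Fin m ⊕ Fin m) (Fin m ⊕ Fin m) F) A.2
  exact ⟨g, by rw [hg, h1], by rw [hg, h2]⟩

/-- transitivity of the stabiliser of `a` on the vectors perpendicular to `a` outside its span. -/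
theorem spGL_TB (a b z : Fin m ⊕ Fin m → F) (ha : a ≠ 0) (hab : Cfsg.sympForm m F a b = 0)
    (haz : Cfsg.sympForm m F a z = 0) (hb : b ∉ Submodule.span F {a})
    (hz : z ∉ Submodule.span F {a}) :
    ∃ g : ↥(Cfsg.spGL m F), (g : Matrix.GeneralLinearGroup (Fin m ⊕ Fin m) F) • a = a ∧
      (g : Matrix.GeneralLinearGroup (Fin m ⊕ Fin m) F) • b = z := by
  have hasp : a ∉ Submodule.span F {b} := by
    intro h
    obtain ⟨c, hc⟩ := Submodule.mem_span_singleton.mp h
    have hc0 : c ≠ 0 := by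
      rintro rfl
      rw [zero_smul] at hc
      exact ha hc.symm
    apply hb
    rw [Submodule.mem_span_singleton]
    exact ⟨c⁻¹, by rw [← hc, smul_smul, inv_mul_cancel₀ hc0, one_smul]⟩
  obtain ⟨β₀, hβ₀b, hβ₀⟩ := Submodule.exists_dual_map_eq_bot_of_notMem hb inferInstance
  obtain ⟨α₀, hα₀a, hα₀⟩ := Submodule.exists_dual_map_eq_bot_of_notMem hasp inferInstance
  have hβ₀a : β₀ a = 0 :=
    (Submodule.eq_bot_iff _).mp hβ₀ _ (Submodule.mem_map_of_mem (Submodule.mem_span_singleton_self a))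
  have hα₀b : α₀ b = 0 :=
    (Submodule.eq_bot_iff _).mp hα₀ _ (Submodule.mem_map_of_mem (Submodule.mem_span_singleton_self b))
  let f : (Fin m ⊕ Fin m → F) →ₗ[F] (Fin m ⊕ Fin m → F) :=
    ((α₀ a)⁻¹ • α₀).smulRight a + ((β₀ b)⁻¹ • β₀).smulRight z
  have hfa : f a = a := by
    simp [f, hβ₀a, inv_mul_cancel₀ hα₀a]
  have hfb : f b = z := by
    simp [f, hα₀b, inv_mul_cancel₀ hβ₀b]
  have hspan : ∀ x ∈ Submodule.span F {a, b}, ∃ s t : F, x = s • a + t • b := by
    intro x hx
    obtain ⟨s, t, rfl⟩ := Submodule.mem_span_pair.mp hx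
    exact ⟨s, t, rfl⟩
  have hba : Cfsg.sympForm m F b a = 0 := by rw [sympForm_swap, hab, neg_zero]
  have hza : Cfsg.sympForm m F z a = 0 := by rw [sympForm_swap, haz, neg_zero]
  obtain ⟨g, hgG, hg⟩ := witt_alt (sympB m F) sympB_nondegenerate sympB_isAlt
    (Submodule.span F {a, b}) f
    (fun x hx x' hx' => by
      obtain ⟨s, t, rfl⟩ := hspan x hx
      obtain ⟨s', t', rfl⟩ := hspan x' hx'
      show Cfsg.sympForm m F (f (s • a + t • b)) (f (s' • a + t' • b)) =
        Cfsg.sympForm m F (s • a + t • b) (s' • a + t' • b)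
      rw [map_add, map_smul, map_smul, hfa, hfb, map_add, map_smul, map_smul, hfa, hfb]
      simp only [sympForm_add_left, sympForm_add_right, sympForm_smul_left, sympForm_smul_right,
        sympForm_self, hab, haz, hba, hza])
    (fun x hx h0 => by
      obtain ⟨s, t, rfl⟩ := hspan x hx
      rw [map_add, map_smul, map_smul, hfa, hfb] at h0
      have ht : t = 0 := by
        by_contra ht
        apply hz
        rw [Submodule.mem_span_singleton]
        refine ⟨-(t⁻¹ * s), ?_⟩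
        have h1 : t • z = -(s • a) := eq_neg_of_add_eq_zero_right h0
        have h2 : z = t⁻¹ • (t • z) := by rw [smul_smul, inv_mul_cancel₀ ht, one_smul]
        rw [h2, h1, smul_neg, smul_smul, neg_smul]
      rw [ht, zero_smul, add_zero] at h0
      have hs : s = 0 := by
        rcases smul_eq_zero.mp h0 with h | h
        · exact h
        · exact absurd h ha
      rw [hs, ht]; simp)
  obtain ⟨A, -, hAg⟩ := TG_to_matrix g hgG
  obtain ⟨g', hg'⟩ := exists_spGL_of_symp (A : Matrix (Fin m ⊕ Fin m) (Fin m ⊕ Fin m) F) A.2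
  refine ⟨g', ?_, ?_⟩
  · rw [hg', ← hAg, hg a (Submodule.subset_span (by simp)), hfa]
  · rw [hg', ← hAg, hg b (Submodule.subset_span (by simp)), hfb]

theorem smul_mk_eq (g : ↥(Cfsg.spGL m F)) (v w : Fin m ⊕ Fin m → F) (hv : v ≠ 0) (hw : w ≠ 0)
    (c : F) (h : c • ((g : Matrix.GeneralLinearGroup (Fin m ⊕ Fin m) F) • v) = w) :
    g • Projectivization.mk F v hv = Projectivization.mk F w hw := by
  rw [Subgroup.smul_def, Projectivization.smul_mk, Projectivization.mk_eq_mk_iff']
  have hc : c ≠ 0 := by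
    rintro rfl
    rw [zero_smul] at h
    exact hw h.symm
  exact ⟨c⁻¹, by rw [← h, smul_smul, inv_mul_cancel₀ hc, one_smul]⟩

theorem block_L1 (B : Set (ℙ F (Fin m ⊕ Fin m → F)))
    (hB : MulAction.IsBlock ↥(Cfsg.spGL m F) B) (p q z : Fin m ⊕ Fin m → F)
    (hp : p ≠ 0) (hq : q ≠ 0) (hz : z ≠ 0)
    (hpB : Projectivization.mk F p hp ∈ B) (hqB : Projectivization.mk F q hq ∈ B)
    (hpq : Cfsg.sympForm m F p q ≠ 0) (hpz : Cfsg.sympForm m F p z ≠ 0) :
    Projectivization.mk F z hz ∈ B := by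
  obtain ⟨g, hgp, hgq⟩ := spGL_TA p ((Cfsg.sympForm m F p q)⁻¹ • q) p
    ((Cfsg.sympForm m F p z)⁻¹ • z)
    (by rw [sympForm_smul_right, inv_mul_cancel₀ hpq])
    (by rw [sympForm_smul_right, inv_mul_cancel₀ hpz])
  have h1 : g • Projectivization.mk F p hp = Projectivization.mk F p hp :=
    smul_mk_eq g p p hp hp 1 (by rw [one_smul, hgp])
  have h2 : g • B = B := hB.smul_eq_of_mem hpB (by rw [h1]; exact hpB)
  have h3 : g • Projectivization.mk F q hq = Projectivization.mk F z hz := by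
    apply smul_mk_eq g q z hq hz (Cfsg.sympForm m F p z * (Cfsg.sympForm m F p q)⁻¹)
    rw [smul_comm _ _ q] at hgq
    have : (g : Matrix.GeneralLinearGroup (Fin m ⊕ Fin m) F) • q =
        Cfsg.sympForm m F p q • (Cfsg.sympForm m F p z)⁻¹ • z := by
      rw [← hgq, smul_smul, mul_inv_cancel₀ hpq, one_smul]
    rw [this, smul_smul, smul_smul]
    have : Cfsg.sympForm m F p z * (Cfsg.sympForm m F p q)⁻¹ * Cfsg.sympForm m F p q *
        (Cfsg.sympForm m F p z)⁻¹ = 1 := by field_simp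
    rw [this, one_smul]
  rw [← h3, ← h2]
  exact Set.smul_mem_smul_set hqB

theorem block_L2 (B : Set (ℙ F (Fin m ⊕ Fin m → F)))
    (hB : MulAction.IsBlock ↥(Cfsg.spGL m F) B) (a b z : Fin m ⊕ Fin m → F)
    (ha : a ≠ 0) (hb : b ≠ 0) (hz : z ≠ 0)
    (haB : Projectivization.mk F a ha ∈ B) (hbB : Projectivization.mk F b hb ∈ B)
    (hab : Cfsg.sympForm m F a b = 0) (haz : Cfsg.sympForm m F a z = 0)
    (hbs : b ∉ Submodule.span F {a}) (hzs : z ∉ Submodule.span F {a}) :
    Projectivization.mk F z hz ∈ B := by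
  obtain ⟨g, hga, hgb⟩ := spGL_TB a b z ha hab haz hbs hzs
  have h1 : g • Projectivization.mk F a ha = Projectivization.mk F a ha :=
    smul_mk_eq g a a ha ha 1 (by rw [one_smul, hga])
  have h2 : g • B = B := hB.smul_eq_of_mem haB (by rw [h1]; exact haB)
  have h3 : g • Projectivization.mk F b hb = Projectivization.mk F z hz :=
    smul_mk_eq g b z hb hz 1 (by rw [one_smul, hgb])
  rw [← h3, ← h2]
  exact Set.smul_mem_smul_set hbB

theorem spGL_pretransitive :
    MulAction.IsPretransitive ↥(Cfsg.spGL m F) (ℙ F (Fin m ⊕ Fin m → F)) := by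
  refine ⟨fun P P' => ?_⟩
  induction P using Projectivization.ind with
  | h u hu =>
    induction P' using Projectivization.ind with
    | h u' hu' =>
      obtain ⟨v, hv⟩ := exists_partner_symp u hu
      obtain ⟨v', hv'⟩ := exists_partner_symp u' hu'
      obtain ⟨g, hg, -⟩ := spGL_TA u v u' v' hv hv'
      exact ⟨g, smul_mk_eq g u u' hu hu' 1 (by rw [one_smul, hg])⟩

theorem sp_preprimitive (hm : 1 ≤ m) :
    MulAction.IsPreprimitive ↥(Cfsg.spGL m F) (ℙ F (Fin m ⊕ Fin m → F)) := by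
  have := spGL_pretransitive (F := F) (m := m)
  set u₀ : Fin m ⊕ Fin m → F := Pi.single (Sum.inl ⟨0, hm⟩) 1 with hu₀def
  have hu₀ : u₀ ≠ 0 := by
    intro h
    have := congrFun h (Sum.inl ⟨0, hm⟩)
    simp [hu₀def] at this
  apply MulAction.IsPreprimitive.of_isTrivialBlock_base (Projectivization.mk F u₀ hu₀)
  intro B hu₀B hB
  by_cases hsub : B.Subsingleton
  · exact Or.inl hsub
  right
  obtain ⟨P, hPB, hPne⟩ : ∃ P ∈ B, P ≠ Projectivization.mk F u₀ hu₀ := by
    by_contra hcon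
    push Not at hcon
    exact hsub (fun a ha b hb => by rw [hcon a ha, hcon b hb])
  induction P using Projectivization.ind with
  | h y hy =>
    have hys : y ∉ Submodule.span F {u₀} := by
      intro h
      obtain ⟨c, hc⟩ := Submodule.mem_span_singleton.mp h
      exact hPne ((Projectivization.mk_eq_mk_iff' F y u₀ hy hu₀).mpr ⟨c, hc⟩)
    have key : ∃ (y₁ : Fin m ⊕ Fin m → F) (hy₁ : y₁ ≠ 0), Projectivization.mk F y₁ hy₁ ∈ B ∧
        Cfsg.sympForm m F u₀ y₁ ≠ 0 := by
      by_cases h : Cfsg.sympForm m F u₀ y ≠ 0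
      · exact ⟨y, hy, hPB, h⟩
      push Not at h
      have hyu : Cfsg.sympForm m F y u₀ = 0 := by rw [sympForm_swap, h, neg_zero]
      have hu₀s : u₀ ∉ Submodule.span F {y} := by
        intro h'
        obtain ⟨c, hc⟩ := Submodule.mem_span_singleton.mp h'
        have hc0 : c ≠ 0 := by
          rintro rfl
          rw [zero_smul] at hc
          exact hu₀ hc.symm
        apply hys
        rw [Submodule.mem_span_singleton]
        exact ⟨c⁻¹, by rw [← hc, smul_smul, inv_mul_cancel₀ hc0, one_smul]⟩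
      obtain ⟨v, hv⟩ := exists_partner_symp u₀ hu₀
      obtain ⟨w, hwX, hwy, -⟩ := exists_good (fun a b => sympB m F a b)
        (fun ψ => ⟨((sympB m F).toDual sympB_nondegenerate).symm ψ,
          fun v => LinearMap.BilinForm.apply_toDual_symm_apply ψ v⟩)
        (Submodule.span F {u₀}) y y hys hys
      have hwu : Cfsg.sympForm m F u₀ w = 0 := by
        have := hwX u₀ (Submodule.mem_span_singleton_self u₀)
        rw [sympB_apply] at this
        rw [sympForm_swap, this, neg_zero]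
      have hyw : Cfsg.sympForm m F y w ≠ 0 := by
        rw [sympB_apply] at hwy
        rw [sympForm_swap]
        exact neg_ne_zero.mpr hwy
      set z := v - (Cfsg.sympForm m F y v / Cfsg.sympForm m F y w) • w with hzdef
      have hyz : Cfsg.sympForm m F y z = 0 := by
        rw [hzdef, sympForm_sub_right, sympForm_smul_right, div_mul_cancel₀ _ hyw, sub_self]
      have hu₀z : Cfsg.sympForm m F u₀ z = 1 := by
        rw [hzdef, sympForm_sub_right, sympForm_smul_right, hv, hwu, mul_zero, sub_zero]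
      have hz0 : z ≠ 0 := by
        intro h0
        rw [h0, sympForm_zero_right] at hu₀z
        exact zero_ne_one hu₀z
      have hzs : z ∉ Submodule.span F {y} := by
        intro h'
        obtain ⟨c, hc⟩ := Submodule.mem_span_singleton.mp h'
        rw [← hc, sympForm_smul_right, h, mul_zero] at hu₀z
        exact zero_ne_one hu₀z
      exact ⟨z, hz0, block_L2 B hB y u₀ z hy hu₀ hz0 hPB hu₀B hyu hyz hu₀s hzs,
        by rw [hu₀z]; exact one_ne_zero⟩
    obtain ⟨y₁, hy₁, hy₁B, hf⟩ := key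
    rw [Set.eq_univ_iff_forall]
    intro Z
    induction Z using Projectivization.ind with
    | h z hz =>
      by_cases hz1 : Cfsg.sympForm m F u₀ z ≠ 0
      · exact block_L1 B hB u₀ y₁ z hu₀ hy₁ hz hu₀B hy₁B hf hz1
      · obtain ⟨p, hp1, hp2⟩ := exists_nonperp_both u₀ z hu₀ hz
        have hp0 : p ≠ 0 := by
          rintro rfl
          rw [sympForm_zero_right] at hp1
          exact hp1 rfl
        have hpB := block_L1 B hB u₀ y₁ p hu₀ hy₁ hp0 hu₀B hy₁B hf hp1
        exact block_L1 B hB p u₀ z hp0 hu₀ hz hpB hu₀B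
          (by rw [sympForm_swap]; exact neg_ne_zero.mpr hp1) hp2

end sympprim

end Cfsg.Agent.Helper13
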