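import Mathlib
import Cfsg.Agent.Helper13.TKDefs
import Cfsg.Agent.Helper52.TKGRAM
import Cfsg.Agent.Helper46.TKNDBLK
import Cfsg.Agent.Helper46.TKJTBLK
import Cfsg.Agent.Helper52.TKINVBLK

set_option autoImplicit false

/-!
# S5956: piece ATOMP (helper13)
-/

namespace Cfsg.Agent.Helper13.TIsp

open Module Polynomial
open Cfsg.Agent.Helper42.SpForm Cfsg.Agent.Helper42.SpGroup Cfsg.Agent.Helper42.SpModels
open Cfsg.Agent.Helper90.BG Cfsg.Agent.Helper30
open Cfsg.Agent.Helper11.TI5955 Cfsg.Agent.Helper58.TI5955 Cfsg.Agent.Helper59.TI5955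
open Cfsg.Agent.Helper51.TI5955 Cfsg.Agent.Helper70.TI5955
open Cfsg.Agent.Helper39.TI5961 Cfsg.Agent.Helper58.TI5961 Cfsg.Agent.Helper59.TI5961
open Cfsg.Agent.Helper60.TI5961 Cfsg.Agent.Helper31.TI5961 Cfsg.Agent.Helper19.TI5961
open Cfsg.Agent.Helper46.TI5956
open Cfsg.Agent.Helper52.TI5956

variable {F : Type*} [Field F] {V : Type*} [AddCommGroup V] [Module F V] [FiniteDimensional F V]
  (B : LinearMap.BilinForm F V)

theorem atom_p (halt : ∀ v, B v v = 0) (h2 : (2 : F) ≠ 0) (T : Module.End F V)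
    (hT : Preserves B T) (n : ℕ) (hn : 0 < n) (hTn : T ^ n = 1) (p : ℕ)
    (hNp : (T - 1) ^ p = 0) (E : Submodule F V) (hET : E.map T ≤ E) (hE : NondegOn B E)
    (hE0 : E ≠ ⊥) :
    ∃ (Z : Submodule F V) (a s : ℕ), Z ≤ E ∧ Z.map T ≤ Z ∧ NondegOn B Z ∧ 0 < a ∧ a ≤ p ∧
      ((Even a ∧ s = 1) ∨ (Odd a ∧ s = 2)) ∧ JT (T - 1) Z (Multiset.replicate s a) := by
  classical
  have hskew : ∀ x y : V, B x y = - B y x := skew_of_alt B halt
  -- invariance under N
  have hNE : ∀ v ∈ E, (T - 1) v ∈ E := by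
    intro v hv
    rw [LinearMap.sub_apply, Module.End.one_apply]
    exact E.sub_mem (hET (Submodule.mem_map_of_mem hv)) hv
  have hNkE : ∀ (k : ℕ) (v : V), v ∈ E → ((T - 1) ^ k) v ∈ E := by
    intro k
    induction k with
    | zero => intro v hv; simpa using hv
    | succ k ih =>
      intro v hv
      rw [pow_succ, Module.End.mul_apply]
      exact ih _ (hNE v hv)
  -- the nilpotency index
  have hex : ∃ a : ℕ, ∀ v ∈ E, ((T - 1) ^ a) v = 0 := ⟨p, fun v _ => by rw [hNp]; rfl⟩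
  obtain ⟨a, hEa, hmin⟩ : ∃ a : ℕ, (∀ v ∈ E, ((T - 1) ^ a) v = 0) ∧
      ∀ b < a, ¬ ∀ v ∈ E, ((T - 1) ^ b) v = 0 :=
    ⟨Nat.find hex, Nat.find_spec hex, fun b hb => Nat.find_min hex hb⟩
  have hap : a ≤ p := by
    by_contra hlt
    push Not at hlt
    exact hmin p hlt (fun v _ => by rw [hNp]; rfl)
  have ha0 : 0 < a := by
    rcases Nat.eq_zero_or_pos a with rfl | h
    · exfalso
      apply hE0
      rw [eq_bot_iff]
      intro v hv
      have h1 := hEa v hv
      rw [pow_zero, Module.End.one_apply] at h1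
      exact (Submodule.mem_bot F).mpr h1
    · exact h
  -- the form β
  have hgram := fun (u v : V) (hu : u ∈ E) (hv : v ∈ E) (i j : ℕ) =>
    gram_blk B halt T hT n hn hTn E hET a hEa u v hu hv i j
  have hsym : ∀ u ∈ E, ∀ v ∈ E,
      B v (((T - 1) ^ (a - 1)) u) = (-1) ^ a * B u (((T - 1) ^ (a - 1)) v) := by
    intro u hu v hv
    have h1 := (hgram u v hu hv (a - 1) 0).2 (by omega)
    rw [pow_zero, Module.End.one_apply] at h1
    rw [hskew, h1]
    have h3 : (-1 : F) ^ a = (-1) ^ (a - 1) * (-1) := by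
      rw [← pow_succ, Nat.sub_add_cancel ha0]
    rw [h3]
    ring
  -- β is nonzero
  obtain ⟨u₀, hu₀, v₀, hv₀, hβ0⟩ : ∃ u₀ ∈ E, ∃ v₀ ∈ E, B u₀ (((T - 1) ^ (a - 1)) v₀) ≠ 0 := by
    have h1 := hmin (a - 1) (by omega)
    push Not at h1
    obtain ⟨v₀, hv₀, hv₀ne⟩ := h1
    have h3 : ∃ w ∈ E, B (((T - 1) ^ (a - 1)) v₀) w ≠ 0 := by
      by_contra hcon
      push Not at hcon
      exact hv₀ne (hE _ (hNkE (a - 1) v₀ hv₀) hcon)
    obtain ⟨w, hw, hne⟩ := h3
    refine ⟨w, hw, v₀, hv₀, ?_⟩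
    rw [hskew]
    exact neg_ne_zero.mpr hne
  -- the chains
  obtain ⟨s, u, huE, hs, hβ⟩ : ∃ (s : ℕ) (u : Fin s → V), (∀ j, u j ∈ E) ∧
      ((Even a ∧ s = 1) ∨ (Odd a ∧ s = 2)) ∧
      (∀ c : Fin s → F, (∀ l, ∑ j, c j * B (u j) (((T - 1) ^ (a - 1)) (u l)) = 0) → c = 0) := by
    rcases Nat.even_or_odd a with hae | hao
    · -- some β v v ≠ 0
      have hex2 : ∃ v ∈ E, B v (((T - 1) ^ (a - 1)) v) ≠ 0 := by
        by_contra hcon
        push Not at hcon
        have h1 := hcon (u₀ + v₀) (E.add_mem hu₀ hv₀)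
        have h3 := hsym u₀ hu₀ v₀ hv₀
        rw [Even.neg_one_pow hae, one_mul] at h3
        rw [map_add, map_add, LinearMap.add_apply, map_add, map_add, hcon u₀ hu₀,
          hcon v₀ hv₀, h3] at h1
        apply hβ0
        have h4 : (2 : F) * B u₀ (((T - 1) ^ (a - 1)) v₀) = 0 := by linear_combination h1
        exact (mul_eq_zero.mp h4).resolve_left h2
      obtain ⟨v, hv, hvne⟩ := hex2
      refine ⟨1, fun _ => v, fun _ => hv, Or.inl ⟨hae, rfl⟩, ?_⟩
      intro c hc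
      have h1 := hc 0
      rw [Fin.sum_univ_one] at h1
      funext j
      rw [Subsingleton.elim j 0]
      exact (mul_eq_zero.mp h1).resolve_right hvne
    · -- β alternating
      have halt' : ∀ u ∈ E, B u (((T - 1) ^ (a - 1)) u) = 0 := by
        intro u hu
        have h3 := hsym u hu u hu
        rw [Odd.neg_one_pow hao] at h3
        have h4 : (2 : F) * B u (((T - 1) ^ (a - 1)) u) = 0 := by linear_combination h3
        exact (mul_eq_zero.mp h4).resolve_left h2
      refine ⟨2, ![u₀, v₀], ?_, Or.inr ⟨hao, rfl⟩, ?_⟩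
      · intro j
        fin_cases j
        · exact hu₀
        · exact hv₀
      · intro c hc
        have h0 := hc 0
        have h1 := hc 1
        rw [Fin.sum_univ_two] at h0 h1
        simp only [Matrix.cons_val_zero, Matrix.cons_val_one] at h0 h1
        rw [halt' u₀ hu₀, mul_zero, zero_add] at h0
        rw [halt' v₀ hv₀, mul_zero, add_zero] at h1
        have h3 := hsym u₀ hu₀ v₀ hv₀
        rw [Odd.neg_one_pow hao] at h3
        have hc0 : c 0 = 0 := (mul_eq_zero.mp h1).resolve_right hβ0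
        have hc1 : c 1 = 0 := by
          rw [h3] at h0
          have h5 : c 1 * B u₀ (((T - 1) ^ (a - 1)) v₀) = 0 := by linear_combination -h0
          exact (mul_eq_zero.mp h5).resolve_right hβ0
        funext j
        fin_cases j
        · exact hc0
        · exact hc1
  -- assemble
  have hNu : ∀ j, ((T - 1) ^ a) (u j) = 0 := fun j => hEa _ (huE j)
  obtain ⟨hli, hnd⟩ := nd_blk B (T - 1) a s u
    (fun j l i i' h => (hgram (u j) (u l) (huE j) (huE l) i i').1 h)
    (fun j l i i' h => (hgram (u j) (u l) (huE j) (huE l) i i').2 h) hβ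
  have hJT := jt_blk (T - 1) a s u hNu hli
  have hinv := inv_blk (T - 1) a s u hNu
  refine ⟨_, a, s, ?_, ?_, hnd, ha0, hap, hs, hJT⟩
  · rw [Submodule.span_le]
    rintro _ ⟨x, rfl⟩
    exact hNkE _ _ (huE x.1)
  · rintro _ ⟨w, hw, rfl⟩
    have h1 := hinv w hw
    have h3 : T w = (T - 1) w + w := by
      rw [LinearMap.sub_apply, Module.End.one_apply]
      abel
    rw [h3]
    exact Submodule.add_mem _ h1 hw

end Cfsg.Agent.Helper13.TIsp
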