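import Mathlib
import Cfsg.Agent.Helper13.TLDefs
import Cfsg.Agent.Helper57.TLUZNORM
import Cfsg.Agent.Helper53.TLUSQ
import Cfsg.Agent.Helper26.TLUSMUL
import Cfsg.Agent.Helper73.TLUGROW
import Cfsg.Agent.Helper41.TLUDIAG
import Cfsg.Agent.Helper93.TLUDET2B
import Cfsg.Agent.Helper93.TLUATOM2B
import Cfsg.Agent.Helper61.TLUNT2

set_option autoImplicit false

/-!
# S5954: piece CASEBF (helper13)
-/

namespace Cfsg.Agent.Helper13.TI5954

open Module Polynomial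
open Cfsg.Agent.Helper13.TIu Cfsg.Agent.Helper13.TIsp

variable {F : Type*} [Field F] [Fintype F] {σ : F →+* F}

/-- CASEBF -/
theorem u_case_two_fwd (p : ℕ) [Fact p.Prime] [CharP F p] (hp2 : p ≠ 2) (q : ℕ)
    (hq : Fintype.card F = q ^ 2) (hσ : ∀ a, σ a = a ^ q) (hσ2 : ∀ a, σ (σ a) = a)
    (hσne : σ ≠ RingHom.id F) (n m : ℕ) (hn : 1 ≤ n) (hmn : m ≤ n)
    (hC : Odd n ∨ Even m ∨ (padicValNat 2 n ≤ padicValNat 2 (q + 1) ∧ q % 4 = 3)) :
    UAll σ n m 2 := by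
  rintro T hT hdet ⟨z, hz⟩ -
  obtain ⟨h2F, h2card⟩ := ti_char_facts (F := F) p 2 (Ne.symm hp2)
  have h2 : (2 : F) ≠ 0 := by exact_mod_cast h2F
  have hodd : Odd q := by
    rw [← Nat.not_even_iff_odd]
    intro he
    exact h2card (by rw [hq]; exact dvd_pow he.two_dvd two_ne_zero)
  have hS := stdH_symm σ hσ2 n
  have hnd := stdH_nd_top σ n
  have hn' : finrank F (Fin n → F) = n := by
    rw [Module.finrank_fintype_fun_eq_card, Fintype.card_fin]
  have hzn := Cfsg.Agent.Helper57.TI5954.u_z_norm n hn T hT 2 z hz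
  have hz1 : z ^ (q + 1) = 1 := by rw [pow_succ, ← hσ]; exact hzn
  obtain ⟨lam, hlam2, hlam⟩ := Cfsg.Agent.Helper53.TI5954.usq_dich q hq hodd z hz1
  have hlam0 : lam ≠ 0 := by
    rintro rfl
    rcases hlam with h | h <;> simp at h
  rcases hlam with hl | hl
  · have hln : σ lam * lam = 1 := by rw [hσ, ← pow_succ]; exact hl
    have hinvn : σ lam⁻¹ * lam⁻¹ = 1 := by rw [map_inv₀, ← mul_inv, hln, inv_one]
    set T' : Module.End F (Fin n → F) := lam⁻¹ • T with hT'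
    have hT'p : UPres (stdH σ n) T' := Cfsg.Agent.Helper26.TI5954.u_smul_pres (stdH σ n) T hT lam⁻¹ hinvn
    have hzne : z ≠ 0 := by rw [← hlam2]; exact pow_ne_zero 2 hlam0
    have hT'2 : T' ^ 2 = 1 := by
      rw [hT', _root_.smul_pow, hz, smul_smul, inv_pow, hlam2, inv_mul_cancel₀ hzne, one_smul]
    have hnorm : ∀ ζ : F, ζ ^ 2 = 1 → σ ζ * ζ = 1 := by
      intro ζ hζ
      rw [sq] at hζ
      rcases mul_self_eq_one_iff.mp hζ with rfl | rfl <;> simp
    have hm1 : (-1 : F) ≠ 1 := by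
      intro h
      apply h2
      have h3 : (2 : F) = 1 - (-1) := by ring
      rw [h3, h]
      ring
    obtain ⟨W, -, hW2, hW3, hW4⟩ := Cfsg.Agent.Helper73.TI5954.u_grow (stdH σ n) hσ2 hS T' hT'p 2 (by norm_num) hT'2 1
      Nat.one_pos ⊤
      (fun N _ hNT hNnd hN0 => Cfsg.Agent.Helper41.TI5954.uatom_diag (stdH σ n) hσ2 hσne hS T' hT'p 2 h2F hT'2 (-1)
        (by norm_num) hm1 hnorm N hNT hNnd hN0)
      ⊤ le_rfl le_top hnd m (by rw [one_mul, finrank_top, hn']; exact hmn)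
    refine ⟨W, by rw [hW4, one_mul], hW3, ?_⟩
    rintro _ ⟨v, hv, rfl⟩
    have h1 : T v = lam • T' v := by
      rw [hT', LinearMap.smul_apply, smul_smul, mul_inv_cancel₀ hlam0, one_smul]
    rw [h1]
    exact Submodule.smul_mem _ _ (hW2 (Submodule.mem_map_of_mem hv))
  · have hln : σ lam * lam = -1 := by rw [hσ, ← pow_succ]; exact hl
    have hT2 : T ^ 2 = (lam ^ 2) • (1 : Module.End F (Fin n → F)) := by rw [hz, hlam2]
    obtain ⟨hne, hdetT⟩ := Cfsg.Agent.Helper93.TI5954.udet_invB (stdH σ n) hσ2 hS hnd h2 T hT lam hln hT2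
    rw [hn'] at hne hdetT
    rw [hdet] at hdetT
    rcases hC with hodd_n | hme | ⟨hv, hq3⟩
    · exact absurd hne (Nat.not_even_iff_odd.mpr hodd_n)
    · have hTN : T ^ (2 * (q + 1)) = 1 := by
        rw [pow_mul, hT2, _root_.smul_pow, one_pow, ← pow_mul, mul_comm 2 (q + 1), pow_mul, hl]
        simp
      obtain ⟨m', hm'⟩ := hme
      obtain ⟨W, -, hW2, hW3, hW4⟩ := Cfsg.Agent.Helper73.TI5954.u_grow (stdH σ n) hσ2 hS T hT (2 * (q + 1)) (by omega) hTN
        2 (by norm_num) ⊤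
        (fun N _ hNT hNnd hN0 => Cfsg.Agent.Helper93.TI5954.uatom_invB (stdH σ n) hσ2 hS h2 T hT lam hln hT2 N hNT hNnd hN0)
        ⊤ le_rfl le_top hnd m' (by rw [finrank_top, hn']; omega)
      exact ⟨W, by rw [hW4]; omega, hW3, hW2⟩
    · exfalso
      have h := Cfsg.Agent.Helper61.TI5954.unt_two q hq hq3 n (by omega) hne lam hl hdetT.symm
      omega

end Cfsg.Agent.Helper13.TI5954
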