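import Mathlib
import Cfsg.Agent.Helper13.TLDefs
import Cfsg.Agent.Helper53.TLUARC
import Cfsg.Agent.Helper51.TLUCDVD
import Cfsg.Agent.Helper20.TLUBADALL
import Cfsg.Agent.Helper41.TLUFIX
import Cfsg.Agent.Helper10.TLUFIXCONGR
import Cfsg.Agent.Helper51.TLUEXND
import Cfsg.Agent.Helper86.TLUNDSUBCARD
import Cfsg.Agent.Helper57.TLUDETNORM
import Cfsg.Agent.Helper57.TLUZNORM

set_option autoImplicit false

/-!
# S5954: piece CASEDB (helper13)
-/

namespace Cfsg.Agent.Helper13.TI5954

open Module Polynomial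
open Cfsg.Agent.Helper13.TIu Cfsg.Agent.Helper13.TIsp

section cases

variable {F : Type*} [Field F] [Fintype F] {σ : F →+* F}

/-- CASEDB -/
theorem u_case_d_back (p : ℕ) [Fact p.Prime] [CharP F p] (q : ℕ) (hq : Fintype.card F = q ^ 2)
    (hσ : ∀ a, σ a = a ^ q) (hσ2 : ∀ a, σ (σ a) = a) (hσne : σ ≠ RingHom.id F) (r : ℕ)
    [Fact r.Prime] (hr2 : 2 < r) (hrp : r ≠ p) (hrq : ¬ r ∣ q + 1) (i c : ℕ)
    (hi : i = orderOf (q : ZMod r))
    (hc : c = if i % 4 = 0 then i else if i % 4 = 2 then i / 2 else 2 * i) (n m : ℕ)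
    (hn : 1 ≤ n) (hmn : m ≤ n)
    (hΩ : r ∣ Nat.card {W : Submodule F (Fin n → F) // finrank F W = m ∧ UNd (stdH σ n) W})
    (hL : UAll σ n m r) : c ≤ m ∧ m % c ≤ n % c := by
  classical
  have hrpr : r.Prime := Fact.out
  have hr0 : 0 < r := hrpr.pos
  obtain ⟨hrF, hrcard⟩ := ti_char_facts (F := F) p r hrp
  have hrq' : ¬ r ∣ q := fun h => hrcard (by rw [hq]; exact dvd_pow h two_ne_zero)
  obtain ⟨hi0, hc0, -⟩ := Cfsg.Agent.Helper53.TI5954.u_arith_c q r hr2 hrq' i c hi hc
  have hS := stdH_symm σ hσ2 n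
  have hnd := stdH_nd_top σ n
  have hn' : finrank F (⊤ : Submodule F (Fin n → F)) = n := by
    rw [finrank_top, Module.finrank_fintype_fun_eq_card, Fintype.card_fin]
  have hklt : n % c < c := Nat.mod_lt _ hc0
  have hana : ∀ T : Module.End F (Fin n → F), UPres (stdH σ n) T → T ^ r = 1 →
      ∀ W : Submodule F (Fin n → F), finrank F W = m → UNd (stdH σ n) W → W.map T ≤ W →
      c ∣ m - finrank F (W ⊓ LinearMap.ker (T - 1) : Submodule F (Fin n → F)) := by
    intro T hT hTr W hW1 hW2 hW3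
    have h3 := Cfsg.Agent.Helper51.TI5954.u_cdvd (stdH σ n) q hq hσ hσ2 hσne hS T hT r hr2 hrq' hrF hTr i c hi hc W hW3 hW2
    rwa [hW1] at h3
  have hbad : c ≤ n → ∃ T : Module.End F (Fin n → F), UPres (stdH σ n) T ∧ T ^ r = 1 ∧ T ≠ 1 ∧
      finrank F (LinearMap.ker (T - 1)) = n % c := by
    intro hcn
    exact Cfsg.Agent.Helper20.TI5954.u_bad_all q hq hσ hσ2 hσne r hr2 hrq' hrF i c hi hc n (n / c) (n % c)
      (by have := Nat.div_add_mod n c; omega) ((Nat.one_le_div_iff hc0).mpr hcn)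
  have hKnd : ∀ T : Module.End F (Fin n → F), UPres (stdH σ n) T → T ^ r = 1 →
      UNd (stdH σ n) (LinearMap.ker (T - 1)) := by
    intro T hT hTr
    have h := (Cfsg.Agent.Helper41.TI5954.u_fix (stdH σ n) hσ2 hS T hT r hr0 hrF hTr ⊤ le_top hnd).1
    rwa [top_inf_eq] at h
  -- step 1: counting
  have hcnt : n % c < m := by
    by_contra hge
    push Not at hge
    obtain ⟨K, hK, hKc, hKm, hrK⟩ : ∃ K : Submodule F (Fin n → F),
        UNd (stdH σ n) K ∧ finrank F K < c ∧ m ≤ finrank F K ∧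
        r ∣ Nat.card {W : Submodule F (Fin n → F) //
          (finrank F W = m ∧ UNd (stdH σ n) W) ∧ W ≤ K} := by
      by_cases hcn : c ≤ n
      · obtain ⟨T, hT, hTr, -, hT3⟩ := hbad hcn
        refine ⟨LinearMap.ker (T - 1), hKnd T hT hTr, by rw [hT3]; exact hklt,
          by rw [hT3]; exact hge, ?_⟩
        have h1 := Cfsg.Agent.Helper10.TI5954.u_fix_congr n m r T hT hTr
        have h2 := (h1.dvd_iff (dvd_refl r)).mp hΩ
        have h3 : Nat.card {W : Submodule F (Fin n → F) //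
            (finrank F W = m ∧ UNd (stdH σ n) W) ∧ W.map T ≤ W} =
            Nat.card {W : Submodule F (Fin n → F) //
            (finrank F W = m ∧ UNd (stdH σ n) W) ∧ W ≤ LinearMap.ker (T - 1)} := by
          apply Nat.card_congr
          apply Equiv.subtypeEquivRight
          intro W
          constructor
          · rintro ⟨⟨hW1, hW2⟩, hW3⟩
            refine ⟨⟨hW1, hW2⟩, ?_⟩
            have h4 := hana T hT hTr W hW1 hW2 hW3
            have h5 : finrank F (W ⊓ LinearMap.ker (T - 1) : Submodule F (Fin n → F)) ≤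
                finrank F W := Submodule.finrank_mono inf_le_left
            have h6 := Nat.eq_zero_of_dvd_of_lt h4 (by omega)
            have h7 : W ⊓ LinearMap.ker (T - 1) = W :=
              Submodule.eq_of_le_of_finrank_eq inf_le_left (by omega)
            rw [← h7]
            exact inf_le_right
          · rintro ⟨⟨hW1, hW2⟩, hW3⟩
            refine ⟨⟨hW1, hW2⟩, ?_⟩
            rintro _ ⟨w, hw, rfl⟩
            rw [(Cfsg.Agent.Helper90.BG.mem_ker_sub_one T w).mp (hW3 hw)]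
            exact hw
        rw [← h3]
        exact h2
      · push Not at hcn
        refine ⟨⊤, hnd, by rw [hn']; exact hcn, by rw [hn']; exact hmn, ?_⟩
        have h3 : Nat.card {W : Submodule F (Fin n → F) //
            (finrank F W = m ∧ UNd (stdH σ n) W) ∧ W ≤ ⊤} =
            Nat.card {W : Submodule F (Fin n → F) // finrank F W = m ∧ UNd (stdH σ n) W} := by
          apply Nat.card_congr
          apply Equiv.subtypeEquivRight
          intro W
          exact and_iff_left le_top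
        rw [h3]
        exact hΩ
    obtain ⟨W₀, hW₀1, hW₀2, hW₀3⟩ := Cfsg.Agent.Helper51.TI5954.u_exists_nd (stdH σ n) hσ2 hσne hS K hK m hKm
    exact Cfsg.Agent.Helper86.TI5954.u_nd_sub_card q hq hσ hσ2 hσne r hr2 hrq' hrF i c hi hc n m K hK hKc W₀
      ⟨⟨hW₀3, hW₀2⟩, hW₀1⟩ hrK
  -- step 2
  have hcn : c ≤ n := by
    by_contra hlt
    push Not at hlt
    rw [Nat.mod_eq_of_lt hlt] at hcnt
    omega
  obtain ⟨T, hT, hTr, hT1, hT3⟩ := hbad hcn
  have hcop : Nat.Coprime r (q + 1) := (Nat.Prime.coprime_iff_not_dvd hrpr).mpr hrq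
  have hone : ∀ x : F, x ^ r = 1 → x ^ (q + 1) = 1 → x = 1 := by
    intro x h1 h2
    have h3 : orderOf x ∣ Nat.gcd r (q + 1) :=
      Nat.dvd_gcd (orderOf_dvd_of_pow_eq_one h1) (orderOf_dvd_of_pow_eq_one h2)
    rw [hcop.gcd_eq_one] at h3
    exact orderOf_eq_one_iff.mp (Nat.dvd_one.mp h3)
  have hdet : LinearMap.det T = 1 := by
    apply hone
    · rw [← map_pow, hTr, map_one]
    · have h1 := Cfsg.Agent.Helper57.TI5954.u_det_norm n T hT
      rw [hσ] at h1
      rw [pow_succ]
      exact h1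
  have hns : ∀ z : F, T ≠ z • (1 : Module.End F (Fin n → F)) := by
    intro z hz
    have hzn := Cfsg.Agent.Helper57.TI5954.u_z_norm n hn T hT 1 z (by rw [pow_one]; exact hz)
    have hz1 : z ^ (q + 1) = 1 := by rw [pow_succ, ← hσ]; exact hzn
    have hzr : z ^ r = 1 := by
      have h1 : (z ^ r) • (1 : Module.End F (Fin n → F)) = 1 := by
        have h0 := hTr
        rw [hz, _root_.smul_pow, one_pow] at h0
        exact h0
      have h2 := congrArg (fun g : Module.End F (Fin n → F) =>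
        g (Pi.single (⟨0, hn⟩ : Fin n) (1 : F)) ⟨0, hn⟩) h1
      simpa using h2
    apply hT1
    rw [hz, hone z hzr hz1, one_smul]
  obtain ⟨W, hW1, hW2, hW3⟩ := hL T hT hdet ⟨1, by rw [hTr, one_smul]⟩ hns
  have h4 := hana T hT hTr W hW1 hW2 hW3
  have h5 : finrank F (W ⊓ LinearMap.ker (T - 1) : Submodule F (Fin n → F)) ≤
      finrank F W := Submodule.finrank_mono inf_le_left
  have h6 : finrank F (W ⊓ LinearMap.ker (T - 1) : Submodule F (Fin n → F)) ≤
      finrank F (LinearMap.ker (T - 1)) := Submodule.finrank_mono inf_le_right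
  rw [hW1] at h5
  rw [hT3] at h6
  obtain ⟨j, hj⟩ := h4
  have h7 : m = finrank F (W ⊓ LinearMap.ker (T - 1) : Submodule F (Fin n → F)) + c * j := by
    omega
  have h8 : m % c = finrank F (W ⊓ LinearMap.ker (T - 1) : Submodule F (Fin n → F)) := by
    conv_lhs => rw [h7]
    rw [Nat.add_mul_mod_self_left]
    exact Nat.mod_eq_of_lt (by omega)
  refine ⟨?_, by rw [h8]; exact h6⟩
  by_contra hlt
  push Not at hlt
  have hj0 : j = 0 := by
    by_contra hj0
    have h9 : c * 1 ≤ c * j := Nat.mul_le_mul_left c (by omega)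
    omega
  subst hj0
  omega

end cases

end Cfsg.Agent.Helper13.TI5954
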