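import Mathlib
import Cfsg.Agent.Helper13.TLDefs
import Cfsg.Agent.Helper53.TLUARC
import Cfsg.Agent.Helper53.TLUORD
import Cfsg.Agent.Helper51.TLUNOIRR
import Cfsg.Agent.Helper86.TLUPAIR
import Cfsg.Agent.Helper50.TLUAEA

set_option autoImplicit false

/-!
# S5954: piece UATOMD (helper13)
-/

namespace Cfsg.Agent.Helper13.TI5954

open Module Polynomial
open Cfsg.Agent.Helper13.TIu Cfsg.Agent.Helper13.TIsp

variable {F : Type*} [Field F] {σ : F →+* F} {V : Type*} [AddCommGroup V] [Module F V]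
  [FiniteDimensional F V] (B : V →ₛₗ[σ] V →ₗ[F] F)

/-- UATOMD -/
theorem u_atom_d [Fintype F] (q : ℕ) (hq : Fintype.card F = q ^ 2) (hσ : ∀ a, σ a = a ^ q)
    (hσ2 : ∀ a, σ (σ a) = a) (hσne : σ ≠ RingHom.id F) (hS : B.IsSymm) (T : Module.End F V)
    (hT : UPres B T) (r : ℕ) [Fact r.Prime] (hr2 : 2 < r) (hrq : ¬ r ∣ q) (hrF : (r : F) ≠ 0)
    (hTr : T ^ r = 1) (i c : ℕ) (hi : i = orderOf (q : ZMod r))
    (hc : c = if i % 4 = 0 then i else if i % 4 = 2 then i / 2 else 2 * i)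
    (N : Submodule F V) (hNT : N.map T ≤ N) (hN : UNd B N) (hN0 : N ≠ ⊥)
    (hNk : N ⊓ LinearMap.ker (T - 1) = ⊥) :
    ∃ E : Submodule F V, E ≤ N ∧ E.map T ≤ E ∧ UNd B E ∧ finrank F E = c := by
  obtain ⟨hi0, hc0, harc⟩ := Cfsg.Agent.Helper53.TI5954.u_arith_c q r hr2 hrq i c hi hc
  have hb : orderOf ((Fintype.card F : ℕ) : ZMod r) = if Even i then i / 2 else i := by
    rw [hq, Cfsg.Agent.Helper53.TI5954.u_ord_sq q r, ← hi]
  generalize orderOf ((Fintype.card F : ℕ) : ZMod r) = b at hb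
  have hcases : (i % 4 = 0 ∧ c = i ∧ b = i / 2) ∨ (i % 4 = 2 ∧ c = i / 2 ∧ b = i / 2) ∨
      (i % 2 = 1 ∧ c = 2 * i ∧ b = i) := by
    have hb' : b = if i % 2 = 0 then i / 2 else i := by
      rw [hb]
      by_cases he : Even i
      · rw [if_pos he, if_pos (Nat.even_iff.mp he)]
      · rw [if_neg he, if_neg (fun h => he (Nat.even_iff.mpr h))]
    split_ifs at hb' hc <;> omega
  have hsubk : ∀ U : Submodule F V, U ≤ N → U ⊓ LinearMap.ker (T - 1) = ⊥ := fun U hU => by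
    rw [eq_bot_iff, ← hNk]
    exact inf_le_inf_right _ hU
  have hdiv : ∀ U : Submodule F V, U ≤ N → U.map T ≤ U → UNd B U → c ∣ finrank F U :=
    fun U hU hUT hUnd =>
      (harc _).mp (Cfsg.Agent.Helper51.TI5954.u_noirr B q hq hσ hσ2 hσne hS T hT r hrq hTr U hUT hUnd (hsubk U hU))
  have hpair : (∃ U₁ : Submodule F V, U₁ ≤ N ∧ U₁.map T ≤ U₁ ∧ UNd B U₁ ∧ finrank F U₁ = b) ∨
      (∃ E₂ : Submodule F V, E₂ ≤ N ∧ E₂.map T ≤ E₂ ∧ UNd B E₂ ∧ finrank F E₂ = 2 * b) := by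
    have h := Cfsg.Agent.Helper86.TI5954.u_hyp_pair B hσ2 hS T hT r hrF hTr N hNT hN hN0 hNk
    rw [hq, Cfsg.Agent.Helper53.TI5954.u_ord_sq q r, ← hi] at h
    rw [hb]
    exact h
  rcases hpair with ⟨U₁, h1, h2, h3, h4⟩ | ⟨E₂, h1, h2, h3, h4⟩
  · have hd := hdiv U₁ h1 h2 h3
    rw [h4] at hd
    refine ⟨U₁, h1, h2, h3, ?_⟩
    rw [h4]
    have hle := Nat.le_of_dvd (by omega) hd
    omega
  · by_cases h42 : i % 4 = 2
    · have hE2 : finrank F E₂ = 2 * orderOf ((Fintype.card F : ℕ) : ZMod r) := by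
        rw [h4, hq, Cfsg.Agent.Helper53.TI5954.u_ord_sq q r, ← hi, hb]
      obtain ⟨E, hE1, hE2', hE3, hE4⟩ := Cfsg.Agent.Helper50.TI5954.u_atom_self B q hq hσ hσ2 hσne hS T hT r hr2 hrF hTr
        (by rw [← hi]; exact h42) E₂ h2 h3 (hsubk E₂ h1) hE2
      refine ⟨E, hE1.trans h1, hE2', hE3, ?_⟩
      rw [hE4, hq, Cfsg.Agent.Helper53.TI5954.u_ord_sq q r, ← hi, ← hb]
      omega
    · refine ⟨E₂, h1, h2, h3, ?_⟩
      rw [h4]
      omega

end Cfsg.Agent.Helper13.TI5954
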