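import Mathlib
import Cfsg.Agent.Helper13.TLDefs
import Cfsg.Agent.Helper53.TLUARC
import Cfsg.Agent.Helper57.TLUZNORM
import Cfsg.Agent.Helper57.TLUSCAL
import Cfsg.Agent.Helper26.TLUSMUL
import Cfsg.Agent.Helper41.TLUFIX
import Cfsg.Agent.Helper51.TLUCDVD
import Cfsg.Agent.Helper53.TLUDARITH
import Cfsg.Agent.Helper73.TLUGROW
import Cfsg.Agent.Helper13.TLUATOMD
import Cfsg.Agent.Helper51.TLUEXND
import Cfsg.Agent.Helper26.TLUSUM

set_option autoImplicit false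

/-!
# S5954: piece CASEDF (helper13)
-/

namespace Cfsg.Agent.Helper13.TI5954

open Module Polynomial
open Cfsg.Agent.Helper13.TIu Cfsg.Agent.Helper13.TIsp

section cases

variable {F : Type*} [Field F] [Fintype F] {σ : F →+* F}

/-- CASEDF -/
theorem u_case_d_fwd (p : ℕ) [Fact p.Prime] [CharP F p] (q : ℕ) (hq : Fintype.card F = q ^ 2)
    (hσ : ∀ a, σ a = a ^ q) (hσ2 : ∀ a, σ (σ a) = a) (hσne : σ ≠ RingHom.id F) (r : ℕ)
    [Fact r.Prime] (hr2 : 2 < r) (hrp : r ≠ p) (hrq : ¬ r ∣ q + 1) (i c : ℕ)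
    (hi : i = orderOf (q : ZMod r))
    (hc : c = if i % 4 = 0 then i else if i % 4 = 2 then i / 2 else 2 * i) (n m : ℕ)
    (hn : 1 ≤ n) (hmn : m ≤ n) (hC : c ≤ m ∧ m % c ≤ n % c) : UAll σ n m r := by
  rintro T hT - ⟨z, hz⟩ -
  have hrpr : r.Prime := Fact.out
  have hr0 : 0 < r := hrpr.pos
  obtain ⟨hrF, hrcard⟩ := ti_char_facts (F := F) p r hrp
  have hrq' : ¬ r ∣ q := fun h => hrcard (by rw [hq]; exact dvd_pow h two_ne_zero)
  obtain ⟨hi0, hc0, -⟩ := Cfsg.Agent.Helper53.TI5954.u_arith_c q r hr2 hrq' i c hi hc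
  have hzn := Cfsg.Agent.Helper57.TI5954.u_z_norm n hn T hT r z hz
  have hz1 : z ^ (q + 1) = 1 := by rw [pow_succ, ← hσ]; exact hzn
  have hcop : Nat.Coprime r (q + 1) := (Nat.Prime.coprime_iff_not_dvd hrpr).mpr hrq
  obtain ⟨z₀, hz₀1, hz₀r⟩ := Cfsg.Agent.Helper57.TI5954.u_scal_root z (q + 1) r hcop hz1
  have hz₀n : σ z₀ * z₀ = 1 := by rw [hσ, ← pow_succ]; exact hz₀1
  have hz₀ne : z₀ ≠ 0 := by
    rintro rfl
    simp at hz₀n
  have hzne : z ≠ 0 := by rw [← hz₀r]; exact pow_ne_zero r hz₀ne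
  have hinvn : σ z₀⁻¹ * z₀⁻¹ = 1 := by rw [map_inv₀, ← mul_inv, hz₀n, inv_one]
  set T' : Module.End F (Fin n → F) := z₀⁻¹ • T with hT'
  have hT'p : UPres (stdH σ n) T' := Cfsg.Agent.Helper26.TI5954.u_smul_pres (stdH σ n) T hT z₀⁻¹ hinvn
  have hT'r : T' ^ r = 1 := by
    rw [hT', _root_.smul_pow, hz, smul_smul, inv_pow, hz₀r, inv_mul_cancel₀ hzne, one_smul]
  have hS := stdH_symm σ hσ2 n
  have hnd := stdH_nd_top σ n
  have htopT : (⊤ : Submodule F (Fin n → F)).map T' ≤ ⊤ := le_top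
  obtain ⟨hV1, P, -, hPT, hPnd, hPk, -, hKP, hPK, hdim⟩ :=
    Cfsg.Agent.Helper41.TI5954.u_fix (stdH σ n) hσ2 hS T' hT'p r hr0 hrF hT'r ⊤ htopT hnd
  have hcd := Cfsg.Agent.Helper51.TI5954.u_cdvd (stdH σ n) q hq hσ hσ2 hσne hS T' hT'p r hr2 hrq' hrF hT'r i c hi hc ⊤
    htopT hnd
  have hn' : finrank F (⊤ : Submodule F (Fin n → F)) = n := by
    rw [finrank_top, Module.finrank_fintype_fun_eq_card, Fintype.card_fin]
  obtain ⟨ρ, hρ⟩ := hcd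
  have hPdim : finrank F P = c * ρ := by omega
  obtain ⟨h₁, e₁, hh₁, he₁, hsum⟩ := Cfsg.Agent.Helper53.TI5954.ud_arith c m n ρ hc0 hmn (by omega) hC.2
  obtain ⟨WR, hWR1, hWR2, hWR3, hWR4⟩ := Cfsg.Agent.Helper73.TI5954.u_grow (stdH σ n) hσ2 hS T' hT'p r hr0 hT'r c hc0 P
    (fun N hNle hNT hNnd hN0 => Cfsg.Agent.Helper13.TI5954.u_atom_d (stdH σ n) q hq hσ hσ2 hσne hS T' hT'p r hr2 hrq' hrF
      hT'r i c hi hc N hNT hNnd hN0 (by
        rw [eq_bot_iff]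
        intro v hv
        have h1 : v ∈ P ⊓ LinearMap.ker (T' - 1) := ⟨hNle hv.1, hv.2⟩
        rw [hPk] at h1
        exact h1))
    P le_rfl hPT hPnd h₁ (by rw [hPdim]; exact Nat.mul_le_mul_left c hh₁)
  obtain ⟨WK, hWK1, hWK3, hWK4⟩ := Cfsg.Agent.Helper51.TI5954.u_exists_nd (stdH σ n) hσ2 hσne hS _ hV1 e₁ (by omega)
  have hWK2 : WK.map T' ≤ WK := by
    rintro _ ⟨v, hv, rfl⟩
    have h1 : v ∈ LinearMap.ker (T' - 1) := (hWK1 hv).2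
    rw [(Cfsg.Agent.Helper90.BG.mem_ker_sub_one T' v).mp h1]
    exact hv
  obtain ⟨hnd', -, hdim'⟩ := Cfsg.Agent.Helper26.TI5954.u_sum (stdH σ n) WK WR hWK3 hWR3
    (fun u hu v hv => hKP u (hWK1 hu) v (hWR1 hv)) (fun u hu v hv => hPK u (hWR1 hu) v (hWK1 hv))
  have hinv' : (WK ⊔ WR).map T' ≤ WK ⊔ WR := by
    rw [Submodule.map_sup]
    exact sup_le_sup hWK2 hWR2
  refine ⟨WK ⊔ WR, by rw [hdim', hWK4, hWR4]; omega, hnd', ?_⟩
  rintro _ ⟨v, hv, rfl⟩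
  have h1 : T v = z₀ • T' v := by
    rw [hT', LinearMap.smul_apply, smul_smul, mul_inv_cancel₀ hz₀ne, one_smul]
  rw [h1]
  exact Submodule.smul_mem _ _ (hinv' (Submodule.mem_map_of_mem hv))

end cases

end Cfsg.Agent.Helper13.TI5954
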