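import Mathlib
import Cfsg.Agent.Helper13.TLDefs
import Cfsg.Agent.Helper7.TLCASEAF
import Cfsg.Agent.Helper7.TLCASEAB
import Cfsg.Agent.Helper13.TLCASEBF
import Cfsg.Agent.Helper61.TLCASEBB
import Cfsg.Agent.Helper98.TLCASECF
import Cfsg.Agent.Helper98.TLCASECB
import Cfsg.Agent.Helper13.TLCASEDF
import Cfsg.Agent.Helper13.TLCASEDB
import Cfsg.Agent.Helper10.TLPC2
import Cfsg.Agent.Helper53.TLUI2

set_option autoImplicit false

/-!
# S5954: final assembly (helper13)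
-/

namespace Cfsg.Agent.Helper13.TIu

open Module Polynomial
open Cfsg.Agent.Helper13.TIsp

variable {F : Type*} [Field F]

theorem stdH_herm {σ : F →+* F} (q : ℕ) (hσ : ∀ a, σ a = a ^ q) (n : ℕ) (x y : Fin n → F) :
    stdH σ n x y = Cfsg.hermForm n F q y x := by
  rw [show stdH σ n x y = Cfsg.Agent.Helper44.hfg σ y x from rfl,
    Cfsg.Agent.Helper44.hfg_eq_hermForm σ hσ]

theorem und_iff {σ : F →+* F} (hσ2 : ∀ a, σ (σ a) = a) (q : ℕ) (hσ : ∀ a, σ a = a ^ q) (n : ℕ)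
    (W : Submodule F (Fin n → F)) :
    UNd (stdH σ n) W ↔ (∀ u ∈ W, u ≠ 0 → ∃ v ∈ W, Cfsg.hermForm n F q u v ≠ 0) := by
  constructor
  · intro h u hu hu0
    by_contra hcon
    push Not at hcon
    apply hu0
    apply h u hu
    intro w hw
    have h1 := hcon w hw
    rw [← stdH_herm q hσ] at h1
    have h2 := (stdH_symm σ hσ2 n).eq w u
    rw [← h2, h1, map_zero]
  · intro h v hv hvw
    by_contra hv0
    obtain ⟨w, hw, hne⟩ := h v hv hv0
    apply hne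
    rw [← stdH_herm q hσ]
    have h2 := (stdH_symm σ hσ2 n).eq v w
    rw [← h2, hvw w hw, map_zero]

theorem mem_SU_iff {σ : F →+* F} (q : ℕ) (hσ : ∀ a, σ a = a ^ q) (n : ℕ)
    (x : Matrix.SpecialLinearGroup (Fin n) F) :
    x ∈ Cfsg.SU n F q ↔ UPres (stdH σ n) (Matrix.toLin' (x : Matrix (Fin n) (Fin n) F)) := by
  have hmem : x ∈ Cfsg.SU n F q ↔ ∀ u v : Fin n → F,
      Cfsg.hermForm n F q ((x : Matrix (Fin n) (Fin n) F).mulVec u)
        ((x : Matrix (Fin n) (Fin n) F).mulVec v) = Cfsg.hermForm n F q u v := Iff.rfl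
  rw [hmem]
  constructor
  · intro h u v
    rw [stdH_herm q hσ, stdH_herm q hσ, Matrix.toLin'_apply, Matrix.toLin'_apply]
    exact h v u
  · intro h u v
    have h1 := h v u
    rw [stdH_herm q hσ, stdH_herm q hσ, Matrix.toLin'_apply, Matrix.toLin'_apply] at h1
    exact h1

theorem uall_iff {σ : F →+* F} (hσ2 : ∀ a, σ (σ a) = a) (q : ℕ) (hσ : ∀ a, σ a = a ^ q)
    (n m r : ℕ) :
    (∀ x : Matrix.SpecialLinearGroup (Fin n) F, x ∈ Cfsg.SU n F q →
      (∃ z : F, ((x ^ r : Matrix.SpecialLinearGroup (Fin n) F) : Matrix (Fin n) (Fin n) F) =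
        z • (1 : Matrix (Fin n) (Fin n) F)) →
      (∀ z : F, (x : Matrix (Fin n) (Fin n) F) ≠ z • (1 : Matrix (Fin n) (Fin n) F)) →
      ∃ W : Submodule F (Fin n → F), Module.finrank F ↥W = m ∧
        (∀ u ∈ W, u ≠ 0 → ∃ v ∈ W, Cfsg.hermForm n F q u v ≠ 0) ∧
        W.map (Matrix.toLin' (x : Matrix (Fin n) (Fin n) F)) ≤ W) ↔ UAll σ n m r := by
  constructor
  · intro h T hT hdet hz hns
    have hdet' : (LinearMap.toMatrix' T).det = 1 := by rw [LinearMap.det_toMatrix']; exact hdet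
    set x : Matrix.SpecialLinearGroup (Fin n) F := ⟨LinearMap.toMatrix' T, hdet'⟩ with hx
    have hxT : Matrix.toLin' (x : Matrix (Fin n) (Fin n) F) = T := Matrix.toLin'_toMatrix' T
    have hxmem : x ∈ Cfsg.SU n F q := by
      rw [mem_SU_iff q hσ, hxT]; exact hT
    obtain ⟨z, hz⟩ := hz
    have hxr : ((x ^ r : Matrix.SpecialLinearGroup (Fin n) F) : Matrix (Fin n) (Fin n) F) =
        z • (1 : Matrix (Fin n) (Fin n) F) := by
      rw [Matrix.SpecialLinearGroup.coe_pow]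
      apply Matrix.toLin'.injective
      rw [Matrix.toLin'_pow, hxT, hz]
      simp [Module.End.one_eq_id]
    have hxns : ∀ z : F, (x : Matrix (Fin n) (Fin n) F) ≠ z • (1 : Matrix (Fin n) (Fin n) F) := by
      intro z' hz'
      apply hns z'
      rw [← hxT, hz']
      simp [Module.End.one_eq_id]
    obtain ⟨W, hW1, hW2, hW3⟩ := h x hxmem ⟨z, hxr⟩ hxns
    rw [hxT] at hW3
    exact ⟨W, hW1, (und_iff hσ2 q hσ n W).mpr hW2, hW3⟩
  · intro h x hx hz hns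
    have hT := (mem_SU_iff q hσ n x).mp hx
    have hdet : LinearMap.det (Matrix.toLin' (x : Matrix (Fin n) (Fin n) F)) = 1 := by
      rw [LinearMap.det_toLin']; exact x.2
    obtain ⟨z, hz⟩ := hz
    have hzT : (Matrix.toLin' (x : Matrix (Fin n) (Fin n) F)) ^ r =
        z • (1 : Module.End F (Fin n → F)) := by
      rw [← Matrix.toLin'_pow, ← Matrix.SpecialLinearGroup.coe_pow, hz]
      simp [Module.End.one_eq_id]
    have hnsT : ∀ z : F, Matrix.toLin' (x : Matrix (Fin n) (Fin n) F) ≠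
        z • (1 : Module.End F (Fin n → F)) := by
      intro z' hz'
      apply hns z'
      apply Matrix.toLin'.injective
      rw [hz']
      simp [Module.End.one_eq_id]
    obtain ⟨W, hW1, hW2, hW3⟩ := h _ hT hdet ⟨z, hzT⟩ hnsT
    exact ⟨W, hW1, (und_iff hσ2 q hσ n W).mp hW2, hW3⟩

/-- S5954, the statement. -/
theorem s5954_core [Fintype F] {p : ℕ} [Fact p.Prime] [CharP F p] {q : ℕ}
    (hq : Fintype.card F = q ^ 2) (n m : ℕ) (hn : 3 ≤ n) (hm : 1 ≤ m) (hmn : 2 * m < n)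
    (r : ℕ) [Fact r.Prime]
    (hrΩ : r ∣ Nat.card {W : Submodule F (Fin n → F) // Module.finrank F ↥W = m ∧
      (∀ u ∈ W, u ≠ 0 → ∃ v ∈ W, Cfsg.hermForm n F q u v ≠ 0)})
    (i c : ℕ) (hi : i = orderOf (q : ZMod r))
    (hc : c = if i % 4 = 0 then i else if i % 4 = 2 then i / 2 else 2 * i) :
    (∀ x : Matrix.SpecialLinearGroup (Fin n) F, x ∈ Cfsg.SU n F q →
      (∃ z : F, ((x ^ r : Matrix.SpecialLinearGroup (Fin n) F) : Matrix (Fin n) (Fin n) F) =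
        z • (1 : Matrix (Fin n) (Fin n) F)) →
      (∀ z : F, (x : Matrix (Fin n) (Fin n) F) ≠ z • (1 : Matrix (Fin n) (Fin n) F)) →
      ∃ W : Submodule F (Fin n → F), Module.finrank F ↥W = m ∧
        (∀ u ∈ W, u ≠ 0 → ∃ v ∈ W, Cfsg.hermForm n F q u v ≠ 0) ∧
        W.map (Matrix.toLin' (x : Matrix (Fin n) (Fin n) F)) ≤ W) ↔
    ((r = p ∧ 2 < p ∧ (∀ μ : Multiset ℕ, (∀ a ∈ μ, 0 < a ∧ a ≤ p) → μ.sum = n →
        ∃ ν : Multiset ℕ, ν ≤ μ ∧ ν.sum = m)) ∨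
     (r = p ∧ p = 2 ∧ (Odd n ∨ Even m)) ∨
     (r = 2 ∧ p ≠ 2 ∧ (Odd n ∨ Even m ∨ (padicValNat 2 n ≤ padicValNat 2 (q + 1) ∧ q % 4 = 3))) ∨
     (r ≠ p ∧ 2 < r ∧ ((i ≠ 2 ∧ c ≤ m ∧ m % c ≤ n % c) ∨
        (i = 2 ∧ (r ∣ m ∨ padicValNat r n ≤ padicValNat r (q + 1)))))) := by
  obtain ⟨σ, hσ⟩ := Cfsg.Agent.Helper44.exists_conj hq
  have hσ2 : ∀ a, σ (σ a) = a := fun a => by
    rw [hσ, hσ]; exact Cfsg.Agent.Helper44.conj_conj hq a
  have hσne : σ ≠ RingHom.id F := by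
    obtain ⟨x, hx⟩ := Cfsg.Agent.Helper44.exists_pow_ne hq
    intro h
    apply hx
    rw [← hσ, h]
    rfl
  rw [uall_iff hσ2 q hσ n m r]
  have hΩ : r ∣ Nat.card {W : Submodule F (Fin n → F) //
      finrank F W = m ∧ UNd (stdH σ n) W} := by
    rw [Nat.card_congr (Equiv.subtypeEquivRight
      (fun W => and_congr Iff.rfl (und_iff hσ2 q hσ n W)))]
    exact hrΩ
  have hpr : r.Prime := Fact.out
  have hn1 : 1 ≤ n := by omega
  have hmn' : m ≤ n := by omega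
  by_cases hrp : r = p
  · subst hrp
    have hA : UAll σ n m r ↔ (∀ μ : Multiset ℕ, (∀ a ∈ μ, 0 < a ∧ a ≤ r) → μ.sum = n →
        ∃ ν : Multiset ℕ, ν ≤ μ ∧ ν.sum = m) :=
      ⟨Cfsg.Agent.Helper7.TI5954.u_case_p_back r q hq hσ hσ2 hσne n m hn1 hmn',
        Cfsg.Agent.Helper7.TI5954.u_case_p_fwd r q hq hσ hσ2 hσne n m hn1 hmn'⟩
    rw [hA]
    constructor
    · intro h
      by_cases hp2 : 2 < r
      · exact Or.inl ⟨rfl, hp2, h⟩
      · have h2 : r = 2 := by have := hpr.two_le; omega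
        refine Or.inr (Or.inl ⟨rfl, h2, (Cfsg.Agent.Helper10.TI5954.pc_two n m hmn').mp ?_⟩)
        rw [← h2]
        exact h
    · rintro (⟨-, -, h⟩ | ⟨-, h2, h⟩ | ⟨h2, hne, -⟩ | ⟨hne, -⟩)
      · exact h
      · have h3 := (Cfsg.Agent.Helper10.TI5954.pc_two n m hmn').mpr h
        rw [h2]
        exact h3
      · exact absurd h2 hne
      · exact absurd rfl hne
  · obtain ⟨hrF, hrcard⟩ := ti_char_facts (F := F) p r hrp
    have hrq : ¬ r ∣ q := fun h => hrcard (by rw [hq]; exact dvd_pow h two_ne_zero)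
    by_cases hr2 : r = 2
    · subst hr2
      have hB : UAll σ n m 2 ↔
          (Odd n ∨ Even m ∨ (padicValNat 2 n ≤ padicValNat 2 (q + 1) ∧ q % 4 = 3)) :=
        ⟨Cfsg.Agent.Helper61.TI5954.u_case_two_back p (Ne.symm hrp) q hq hσ hσ2 hσne n m hn1 hmn',
          Cfsg.Agent.Helper13.TI5954.u_case_two_fwd p (Ne.symm hrp) q hq hσ hσ2 hσne n m hn1 hmn'⟩
      rw [hB]
      constructor
      · intro h
        exact Or.inr (Or.inr (Or.inl ⟨rfl, Ne.symm hrp, h⟩))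
      · rintro (⟨h1, -⟩ | ⟨h1, -⟩ | ⟨-, -, h⟩ | ⟨-, h2, -⟩)
        · exact absurd h1 hrp
        · exact absurd h1 hrp
        · exact h
        · omega
    · have hr2' : 2 < r := by have := hpr.two_le; omega
      by_cases hi2 : i = 2
      · have hrq1 : r ∣ q + 1 := (Cfsg.Agent.Helper53.TI5954.u_i_two q r hr2').mp (by rw [← hi]; exact hi2)
        have hC : UAll σ n m r ↔ (r ∣ m ∨ padicValNat r n ≤ padicValNat r (q + 1)) :=
          ⟨Cfsg.Agent.Helper98.TI5954.u_case_r_back p q hq hσ hσ2 hσne r hr2' hrp hrq1 n m hn1 hmn',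
            Cfsg.Agent.Helper98.TI5954.u_case_r_fwd p q hq hσ hσ2 hσne r hr2' hrp hrq1 n m hn1 hmn'⟩
        rw [hC]
        constructor
        · intro h
          exact Or.inr (Or.inr (Or.inr ⟨hrp, hr2', Or.inr ⟨hi2, h⟩⟩))
        · rintro (⟨h1, -⟩ | ⟨h1, -⟩ | ⟨h1, -⟩ | ⟨-, -, h⟩)
          · exact absurd h1 hrp
          · exact absurd h1 hrp
          · exact absurd h1 hr2
          · rcases h with ⟨h1, -⟩ | ⟨-, h⟩
            · exact absurd hi2 h1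
            · exact h
      · have hrq1 : ¬ r ∣ q + 1 := fun h => hi2 (by rw [hi]; exact (Cfsg.Agent.Helper53.TI5954.u_i_two q r hr2').mpr h)
        have hD : UAll σ n m r ↔ (c ≤ m ∧ m % c ≤ n % c) :=
          ⟨Cfsg.Agent.Helper13.TI5954.u_case_d_back p q hq hσ hσ2 hσne r hr2' hrp hrq1 i c hi hc n m hn1 hmn' hΩ,
            Cfsg.Agent.Helper13.TI5954.u_case_d_fwd p q hq hσ hσ2 hσne r hr2' hrp hrq1 i c hi hc n m hn1 hmn'⟩
        rw [hD]
        constructor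
        · intro h
          exact Or.inr (Or.inr (Or.inr ⟨hrp, hr2', Or.inl ⟨hi2, h.1, h.2⟩⟩))
        · rintro (⟨h1, -⟩ | ⟨h1, -⟩ | ⟨h1, -⟩ | ⟨-, -, h⟩)
          · exact absurd h1 hrp
          · exact absurd h1 hrp
          · exact absurd h1 hr2
          · rcases h with ⟨-, h1, h2⟩ | ⟨h1, -⟩
            · exact ⟨h1, h2⟩
            · exact absurd h1 hi2

end Cfsg.Agent.Helper13.TIu
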