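import Mathlib
import Cfsg.Prelude.Def_GeometricClasses
import Cfsg.Prelude.Def_Classical
import Cfsg.Agent.Helper43.OTDefs
import Cfsg.Agent.Helper98.OPar

set_option autoImplicit false

/-!
# Sub-CALL TSEG piece BRIDGE (helper13): helper90's `HNondegOn` for the polar form of a quadratic
form is the Prelude `IsNondegenerateOn`.
-/

namespace Cfsg.Agent.Helper13.TSEG

open Module Polynomial Cfsg Cfsg.Geo Cfsg.Agent.Helper90.HT Cfsg.Agent.Helper43.OT

variable {ι : Type} [Fintype ι] [DecidableEq ι] {F : Type*} [Field F]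

/-- BRIDGE: helper90's `HNondegOn` for the polar form = Prelude `IsNondegenerateOn`. -/
theorem eg_bridge (Q : (ι → F) → F) (hQ : IsNondegenerateQuadraticForm Q)
    (W : Submodule F (ι → F)) :
    HNondegOn (ph (Cfsg.Agent.Helper98.op_qf Q hQ)) W ↔
      IsNondegenerateOn (QuadraticMap.polar Q) W := by
  constructor
  · intro h w hw hw0
    have h1 : ∃ x ∈ W, QuadraticMap.polar Q w x ≠ 0 := by
      by_contra hcon
      push Not at hcon
      exact hw0 (h w hw (fun x hx => hcon x hx))
    obtain ⟨x, hx, hne⟩ := h1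
    exact ⟨⟨x, hx, by rw [QuadraticMap.polar_comm]; exact hne⟩, ⟨x, hx, hne⟩⟩
  · intro h v hv hzero
    by_contra hne
    obtain ⟨-, x, hx, hvx⟩ := h v hv hne
    exact hvx (hzero x hx)

end Cfsg.Agent.Helper13.TSEG
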