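import Mathlib
import Cfsg.Prelude.Def_GeometricClasses
import Cfsg.Prelude.Def_Classical
import Cfsg.Agent.Helper33.OType
import Cfsg.Agent.Helper43.PrimeOrdO2
import Cfsg.Agent.Helper51.TIORD

set_option autoImplicit false

/-!
# Sub-CALL TSEG piece TYPE (helper13): the type of a fixed-point-free invariant nondegenerate subspace
for `i = ord_r(q)` even, from the congruence and the singular vector counts.
-/

namespace Cfsg.Agent.Helper13.TSEG

open Module Polynomial Cfsg Cfsg.Geo

variable {ι : Type} [Fintype ι] [DecidableEq ι] {F : Type*} [Field F] [Fintype F]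

/-- TYPE: `i = ord_r(q)` even, `finrank N = i * A`: plus type iff `A` even. -/
theorem eg_type_even (Q : (ι → F) → F) (hQ : IsNondegenerateQuadraticForm Q) (r : ℕ)
    [Fact r.Prime] (hr2 : 2 < r) (hrq : ¬ r ∣ Fintype.card F)
    (heven : Even (orderOf ((Fintype.card F : ℕ) : ZMod r))) (N : Submodule F (ι → F))
    (hdvd : orderOf ((Fintype.card F : ℕ) : ZMod r) ∣ finrank F N)
    (hcong : Nat.card {v : ι → F // v ∈ N ∧ Q v = 0} ≡ 1 [MOD r])
    (hcnt : ∀ l, 1 ≤ l → finrank F N = 2 * l →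
      (IsPlusTypeOn Q N → Fintype.card F * Nat.card {v : ι → F // v ∈ N ∧ Q v = 0} =
        Fintype.card F ^ (l + 1) + (Fintype.card F ^ l - 1) * Fintype.card F ^ l) ∧
      (¬ IsPlusTypeOn Q N → Fintype.card F * Nat.card {v : ι → F // v ∈ N ∧ Q v = 0} =
        Fintype.card F ^ l +
          Fintype.card F ^ 2 * (Fintype.card F ^ (l - 1) - 1) * Fintype.card F ^ (l - 1))) :
    IsPlusTypeOn Q N ↔ Even (finrank F N / orderOf ((Fintype.card F : ℕ) : ZMod r)) := by
  have hr : r.Prime := Fact.out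
  obtain ⟨j, hj⟩ := heven
  have hi0 := (Cfsg.Agent.Helper51.TI5955.ord_pos r (Fintype.card F) hrq).1
  have hj0 : 0 < j := by omega
  obtain ⟨A, hA⟩ := hdvd
  have hdiv : finrank F N / orderOf ((Fintype.card F : ℕ) : ZMod r) = A := by
    rw [hA, Nat.mul_div_cancel_left A hi0]
  rw [hdiv]
  have hq1 : 1 ≤ Fintype.card F := Fintype.card_pos
  by_cases hA0 : A = 0
  · subst hA0
    have hN : N = ⊥ := Submodule.finrank_eq_zero.1 (by rw [hA, Nat.mul_zero])
    rw [hN]
    exact ⟨fun _ => ⟨0, rfl⟩, fun _ => Cfsg.Agent.Helper33.o_plus_bot Q hQ⟩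
  · have hl : finrank F N = 2 * (j * A) := by rw [hA, hj]; ring
    have hl1 : 1 ≤ j * A := Nat.mul_pos hj0 (Nat.pos_of_ne_zero hA0)
    obtain ⟨hp, hm⟩ := hcnt (j * A) hl1 hl
    constructor
    · intro hpl
      exact Cfsg.Agent.Helper43.PrimeOrdO.plus_parity hr (by omega) hq1 hj hj0 rfl _ (hp hpl)
        hcong
    · intro hev
      by_contra hnp
      have h1 := hm hnp
      have hodd := Cfsg.Agent.Helper43.PrimeOrdO.minus_parity hr (by omega) hq1 hj hj0 rfl hl1 _
        (by rw [Nat.sub_add_cancel hl1]; exact h1) hcong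
      exact (Nat.not_even_iff_odd.2 hodd) hev

end Cfsg.Agent.Helper13.TSEG
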